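import Mathlib
import Cfsg.Agent.Max.Sp3
import Cfsg.Agent.Max2.ExtMax

/-!
# Producing symplectic transvections; trace forms
-/

set_option autoImplicit false

namespace Cfsg.Agent.Max2

open Module Cfsg.Agent.Max Classical.SpWitt

section Core

variable {F V : Type*} [Field F] [AddCommGroup V] [Module F V] {M : Subgroup (V ≃ₗ[F] V)}
  {B : LinearMap.BilinForm F V}

theorem eq_of_form (hB : B.Nondegenerate) {x y : V} (h : ∀ w, B x w = B y w) : x = y :=
  sub_eq_zero.1 (hB.1 _ fun w => by rw [map_sub, LinearMap.sub_apply, h, sub_self])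

theorem SG_symm {g : V ≃ₗ[F] V} (hg : g ∈ SG B) (x y : V) : B x (g.symm y) = B (g x) y := by
  rw [← hg x (g.symm y), LinearEquiv.apply_symm_apply]

theorem SG_symm' {g : V ≃ₗ[F] V} (hg : g ∈ SG B) (x y : V) : B (g.symm x) y = B x (g y) := by
  rw [← hg (g.symm x) y, LinearEquiv.apply_symm_apply]

/-- An isometry fixes the vectors orthogonal to the image of `g - 1`. -/
theorem fix_of_orth (hB : B.Nondegenerate) {g : V ≃ₗ[F] V} (hg : g ∈ SG B) {y : V}
    (h : ∀ z, B y (g z - z) = 0) : g y = y :=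
  eq_of_form hB fun w => by
    have := h (g.symm w)
    rw [LinearEquiv.apply_symm_apply, map_sub, sub_eq_zero] at this
    rw [this, SG_symm hg]

/-- Conjugating a symmetric tensor on `X` by an element inducing a transvection on `X`. -/
theorem conj_sym (hB : B.Nondegenerate) (hA : B.IsAlt) {X : Submodule F V}
    (hX : ∀ x ∈ X, ∀ y ∈ X, B x y = 0) {N : V →ₗ[F] V} (hN : R M N) (hr : ∀ v, N v ∈ X)
    (hs : ∀ x y, B (N x) y = B (N y) x) {t : V ≃ₗ[F] V} (ht : t ∈ M) (ht' : t ∈ SG B) {a s : V}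
    (hsX : s ∈ X) (e : ∀ z ∈ X, t z = z + B a z • s) :
    R M (sS B s (N a) + B a (N a) • (B s).smulRight s) := by
  have h0 : ∀ x ∈ X, N x = 0 := fun x hx => hB.1 _ fun w => by rw [hs, hX _ (hr w) x hx]
  have h1 : ∀ v, N (t.symm v) = N v - B s v • N a := fun v => eq_of_form hB fun w => by
    rw [hs, SG_symm ht', e _ (hr w), ← hA.neg_eq (N w) a]
    simp only [map_add, map_sub, map_smul, LinearMap.add_apply, LinearMap.sub_apply,
      LinearMap.smul_apply, smul_eq_mul, hs w v, hs w a]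
    ring
  refine (hN.sub (hN.conj ht) (fun x => ?_) fun x => ?_).congr fun v => ?_
  · have : t (N (t.symm x)) ∈ X := by rw [e _ (hr _)]; exact X.add_mem (hr _) (X.smul_mem _ hsX)
    have h2 : t.symm (t (N (t.symm x))) ∈ X := by rw [LinearEquiv.symm_apply_apply]; exact hr _
    simp only [LinearMap.comp_apply, LinearEquiv.coe_coe]
    rw [h0 _ h2, map_zero]
  · exact h0 _ (by
      simp only [LinearMap.comp_apply, LinearEquiv.coe_coe]
      rw [e _ (hr _)]; exact X.add_mem (hr _) (X.smul_mem _ hsX))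
  · simp only [LinearMap.sub_apply, LinearMap.comp_apply, LinearEquiv.coe_coe, LinearMap.add_apply,
      LinearMap.smul_apply, LinearMap.smulRight_apply, sS_apply]
    rw [e _ (hr _), h1, map_sub, map_smul, ← hA.neg_eq (N v) a, hs v a]
    simp only [smul_eq_mul]
    module

theorem spP_of_R (hA : B.IsAlt) {s : V} (h : ∀ c : F, R M (c • (B s).smulRight s)) :
    SpP B M s := fun c =>
  T.of_R (h c) (by simp [hA.self_eq_zero]) fun x => by simp [smul_smul]

theorem sub_sym (hA : B.IsAlt) {s y y' : V} {c c' : F} (h0 : B s y = 0) (h0' : B s y' = 0)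
    (h1 : B y y' = 0) (h : R M (sS B s y + c • (B s).smulRight s))
    (h' : R M (sS B s y' + c' • (B s).smulRight s)) :
    R M (sS B s (y - y') + (c - c') • (B s).smulRight s) := by
  have e0 : B y s = 0 := hA.isRefl _ _ h0
  have e0' : B y' s = 0 := hA.isRefl _ _ h0'
  refine (h.sub h' (fun x => ?_) fun x => ?_).congr fun x => ?_
  · simp [sS_apply, hA.self_eq_zero, h0', e0']
  · simp [sS_apply, hA.self_eq_zero, h0', e0, h1]
  · simp only [sS_apply, LinearMap.sub_apply, LinearMap.add_apply, LinearMap.smul_apply,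
      LinearMap.smulRight_apply, map_sub]
    module

/-- Over a field with more than two elements. -/
theorem spP_of_two (hB : B.Nondegenerate) (hA : B.IsAlt) {X : Submodule F V}
    (hX : ∀ x ∈ X, ∀ y ∈ X, B x y = 0) {N : V →ₗ[F] V} (hN : ∀ c : F, R M (c • N))
    (hr : ∀ v, N v ∈ X) (hs : ∀ x y, B (N x) y = B (N y) x) {a s : V} (ha : B a (N a) ≠ 0)
    (hsX : s ∈ X) (ht : ∀ c : F, ∃ t ∈ M, t ∈ SG B ∧ ∀ z ∈ X, t z = z + B a z • c • s) {l : F}
    (hl0 : l ≠ 0) (hl1 : l ≠ 1) : SpP B M s := by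
  have key : ∀ c d : F, R M (sS B s ((c * d) • N a) + (c * c * d * B a (N a)) •
      (B s).smulRight s) := by
    intro c d
    obtain ⟨t, h1, h2, h3⟩ := ht c
    refine (conj_sym hB hA hX (hN d) (fun v => X.smul_mem _ (hr v)) (fun x y => by
      simp [hs x y]) h1 h2 (X.smul_mem c hsX) h3).congr fun v => ?_
    simp only [sS_apply, LinearMap.add_apply, LinearMap.smul_apply, LinearMap.smulRight_apply,
      map_smul, smul_eq_mul]
    module
  refine spP_of_R hA fun c => ?_
  have hl : l * l - l ≠ 0 := fun e => hl1 (mul_left_cancel₀ hl0 (by linear_combination e))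
  set d := c / ((l * l - l) * B a (N a))
  have := sub_sym hA (by simp [hX s hsX _ (hr a)]) (by simp [hX s hsX _ (hr a)])
    (by simp [hA.self_eq_zero]) (key l d) (key 1 (l * d))
  refine this.congr fun v => ?_
  have e : l * l * d * B a (N a) - 1 * 1 * (l * d) * B a (N a) = c := by
    simp only [d]; field_simp
  rw [e]
  simp [sS_apply]

/-- Commutators in the unipotent radical of the stabiliser of `X`. -/
theorem heis (hA : B.IsAlt) {X : Submodule F V} {z : V} (hz : z ∈ X)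
    {g g' : V ≃ₗ[F] V} (hg : g ∈ M) (hg1 : g ∈ SG B) (hg' : g' ∈ M) (hg1' : g' ∈ SG B)
    {a a' : V} (ha : ∀ x ∈ X, B x a = 0) (ha' : ∀ x ∈ X, B x a' = 0)
    (f : ∀ x ∈ X, g x = x) (f' : ∀ x ∈ X, g' x = x)
    (e : ∀ y, (∀ x ∈ X, B x y = 0) → g y = y + B a y • z)
    (e' : ∀ y, (∀ x ∈ X, B x y = 0) → g' y = y + B a' y • z) :
    R M ((2 * B a a') • (B z).smulRight z) := by
  have k1 : ∀ {g : V ≃ₗ[F] V}, g ∈ SG B → (∀ x ∈ X, g x = x) → ∀ y, ∀ x ∈ X,
      B x (g y - y) = 0 := fun {g} hg f y x hx => by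
    rw [map_sub, ← hg x y, f x hx, sub_self]
  have k2 : ∀ {g : V ≃ₗ[F] V} {a b : V}, g ∈ SG B → (∀ x ∈ X, g x = x) → (∀ x ∈ X, B x b = 0) →
      (∀ y, (∀ x ∈ X, B x y = 0) → g y = y + B a y • z) → ∀ y,
      B b (g y - y) = - (B a b * B z y) := fun {g a b} hg f hb e y => by
    have h1 := hg b y
    have h2 := k1 hg f y z hz
    rw [e b hb] at h1
    simp only [map_add, map_smul, map_sub, LinearMap.add_apply, LinearMap.smul_apply,
      smul_eq_mul] at h1 h2 ⊢
    linear_combination h1 - B a b * h2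
  refine ⟨g * g' * (g' * g)⁻¹, M.mul_mem (M.mul_mem hg hg') (M.inv_mem (M.mul_mem hg' hg)),
    fun v => ?_⟩
  obtain ⟨y, rfl⟩ := (g' * g).surjective v
  rw [LinearEquiv.mul_apply, LinearEquiv.coe_inv, LinearEquiv.symm_apply_apply]
  simp only [LinearEquiv.mul_apply, LinearMap.smul_apply, LinearMap.smulRight_apply]
  have h1 := e _ (k1 hg1' f' y)
  have h2 := e' _ (k1 hg1 f y)
  rw [k2 hg1' f' ha e', map_sub] at h1
  rw [k2 hg1 f ha' e, map_sub] at h2
  have h3 : B z (g' (g y)) = B z y := by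
    rw [← hg1 z y, ← hg1' (g z) (g y), f z hz, f' z hz]
  rw [h3, eq_add_of_sub_eq h1, eq_add_of_sub_eq h2, ← hA.neg_eq a a']
  module

end Core

section Trace

variable {F K V : Type*} [Field F] [Field K] [Algebra F K] [AddCommGroup V] [Module F V]
  [Module K V] [IsScalarTower F K V]

theorem eq_zero_of_tr {τ : Dual F K} (hτ : τ ≠ 0) {c : K} (h : ∀ k, τ (k * c) = 0) : c = 0 := by
  by_contra hc
  exact hτ (LinearMap.ext fun k => by simpa [hc] using h (k / c))

theorem eq_of_tr {τ : Dual F K} (hτ : τ ≠ 0) {c d : K} (h : ∀ k, τ (k * c) = τ (k * d)) : c = d :=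
  sub_eq_zero.1 (eq_zero_of_tr hτ fun k => by rw [mul_sub, map_sub, h, sub_self])

theorem exists_tr [FiniteDimensional F K] [FiniteDimensional K V] {τ : Dual F K} (hτ : τ ≠ 0)
    (B : LinearMap.BilinForm F V) (σ : K →+* K) (h : ∀ (k : K) x y, B (k • x) y = B x (σ k • y)) :
    ∃ β : V →ₛₗ[σ] V →ₗ[K] K, ∀ x y, B x y = τ (β x y) := by
  choose φ hφ using fun x => exists_dual_comp (V := V) hτ (B x)
  have u : ∀ {ψ ψ' : Dual K V}, (∀ y, τ (ψ y) = τ (ψ' y)) → ψ = ψ' := fun h =>
    LinearMap.ext fun y => eq_of_tr hτ fun k => by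
      simpa using h (k • y)
  refine ⟨⟨⟨φ, fun x y => u fun z => ?_⟩, fun k x => u fun z => ?_⟩, hφ⟩
  · simp [← hφ]
  · rw [← hφ, h, hφ]; simp

end Trace

end Cfsg.Agent.Max2
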