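import Mathlib
import Cfsg.Agent.Max2.ExtSL2
import Cfsg.Agent.Asch.Tensor

/-!
# Tensor products `U ⊗ W`: contractions, standard subspaces `U ⊗ w`, decomposable maps
-/

set_option autoImplicit false

namespace Cfsg.Agent.Max2

open Module Cfsg.Agent.Max TensorProduct

variable {F U W : Type*} [Field F] [AddCommGroup U] [Module F U] [AddCommGroup W] [Module F W]

/-- Contraction with a functional on the second factor. -/
noncomputable def cW (U : Type*) [AddCommGroup U] [Module F U] (φ : Dual F W) :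
    U ⊗[F] W →ₗ[F] U := (TensorProduct.rid F U).toLinearMap ∘ₗ φ.lTensor U

@[simp] theorem cW_tmul (φ : Dual F W) (u : U) (w : W) : cW U φ (u ⊗ₜ w) = φ w • u := by
  simp [cW]

/-- Contraction with a functional on the first factor. -/
noncomputable def cU (W : Type*) [AddCommGroup W] [Module F W] (ψ : Dual F U) :
    U ⊗[F] W →ₗ[F] W := (TensorProduct.lid F W).toLinearMap ∘ₗ ψ.rTensor W

@[simp] theorem cU_tmul (ψ : Dual F U) (u : U) (w : W) : cU W ψ (u ⊗ₜ w) = ψ u • w := by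
  simp [cU]

theorem dual_cU (ψ : Dual F U) (φ : Dual F W) (x : U ⊗[F] W) : φ (cU W ψ x) = ψ (cW U φ x) := by
  induction x with
  | zero => simp
  | tmul u w => simp [mul_comm]
  | add x y hx hy => simp [hx, hy]

theorem cW_add (φ φ' : Dual F W) (x : U ⊗[F] W) : cW U (φ + φ') x = cW U φ x + cW U φ' x := by
  induction x with
  | zero => simp
  | tmul u w => simp [add_smul]
  | add x y hx hy => simp only [map_add, hx, hy]; abel

theorem cW_smul (c : F) (φ : Dual F W) (x : U ⊗[F] W) : cW U (c • φ) x = c • cW U φ x := by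
  induction x with
  | zero => simp
  | tmul u w => simp [mul_smul]
  | add x y hx hy => simp only [map_add, hx, hy, smul_add]

theorem cW_sub (φ φ' : Dual F W) (x : U ⊗[F] W) : cW U (φ - φ') x = cW U φ x - cW U φ' x := by
  rw [eq_sub_iff_add_eq, ← cW_add, sub_add_cancel]

@[simp] theorem cW_zero (x : U ⊗[F] W) : cW U (0 : Dual F W) x = 0 := by simp [cW]

theorem cU_add (φ φ' : Dual F U) (x : U ⊗[F] W) : cU W (φ + φ') x = cU W φ x + cU W φ' x := by
  induction x with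
  | zero => simp
  | tmul u w => simp [add_smul]
  | add x y hx hy => simp only [map_add, hx, hy]; abel

theorem cU_smul (c : F) (φ : Dual F U) (x : U ⊗[F] W) : cU W (c • φ) x = c • cU W φ x := by
  induction x with
  | zero => simp
  | tmul u w => simp [mul_smul]
  | add x y hx hy => simp only [map_add, hx, hy, smul_add]

@[simp] theorem cU_zero (x : U ⊗[F] W) : cU W (0 : Dual F U) x = 0 := by simp [cU]

theorem sum_cW {ι : Type*} [Fintype ι] (b : Basis ι F W) (x : U ⊗[F] W) :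
    ∑ j, cW U (b.coord j) x ⊗ₜ b j = x := by
  induction x with
  | zero => simp
  | tmul u w =>
    simp only [cW_tmul, smul_tmul, ← tmul_sum, Basis.coord_apply]
    rw [b.sum_repr]
  | add x y hx hy => simp only [map_add, add_tmul, Finset.sum_add_distrib, hx, hy]

theorem eq_zero_of_cW [FiniteDimensional F W] {x : U ⊗[F] W} (h : ∀ φ, cW U φ x = 0) : x = 0 := by
  rw [← sum_cW (finBasis F W) x]; simp [h]

theorem eq_zero_of_cU [FiniteDimensional F W] {x : U ⊗[F] W} (h : ∀ ψ, cU W ψ x = 0) : x = 0 :=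
  eq_zero_of_cW fun φ => eq_zero_of_dual (F := F) fun ψ => by rw [← dual_cU, h, map_zero]

theorem tmul_ne_zero {u : U} {w : W} (hu : u ≠ 0) (hw : w ≠ 0) : u ⊗ₜ[F] w ≠ 0 := by
  obtain ⟨φ, hφ⟩ := exists_dual_one (F := F) hw
  intro h
  have := congrArg (cW U φ) h
  simp [hφ, hu] at this

theorem tmul_left_inj {u u' : U} {w : W} (hw : w ≠ 0) (h : u ⊗ₜ[F] w = u' ⊗ₜ w) : u = u' := by
  obtain ⟨φ, hφ⟩ := exists_dual_one (F := F) hw
  simpa [hφ] using congrArg (cW U φ) h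

theorem tmul_right_inj {u : U} {w w' : W} (hu : u ≠ 0) (h : u ⊗ₜ[F] w = u ⊗ₜ w') : w = w' := by
  obtain ⟨φ, hφ⟩ := exists_dual_one (F := F) hu
  simpa [hφ] using congrArg (cU W φ) h

theorem mem_span_of_tmul_eq {u u' : U} {w w' : W} (hw : w ≠ 0) (h : u ⊗ₜ[F] w = u' ⊗ₜ w') :
    u ∈ F ∙ u' := by
  obtain ⟨φ, hφ⟩ := exists_dual_one (F := F) hw
  have := congrArg (cW U φ) h
  simp only [cW_tmul, hφ, one_smul] at this
  exact Submodule.mem_span_singleton.2 ⟨_, this.symm⟩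

theorem mem_span_of_tmul_eq' {u u' : U} {w w' : W} (hu : u ≠ 0) (h : u ⊗ₜ[F] w = u' ⊗ₜ w') :
    w ∈ F ∙ w' := by
  obtain ⟨φ, hφ⟩ := exists_dual_one (F := F) hu
  have := congrArg (cU W φ) h
  simp only [cU_tmul, hφ, one_smul] at this
  exact Submodule.mem_span_singleton.2 ⟨_, this.symm⟩

/-- The map `u ↦ u ⊗ w`. -/
noncomputable def inW (F U : Type*) [Field F] [AddCommGroup U] [Module F U] [Module F W] (w : W) :
    U →ₗ[F] U ⊗[F] W := (TensorProduct.mk F U W).flip w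

@[simp] theorem inW_apply (w : W) (u : U) : inW F U w u = u ⊗ₜ w := rfl

/-- The standard subspace `U ⊗ w`. -/
noncomputable def LW (F U : Type*) [Field F] [AddCommGroup U] [Module F U] [Module F W] (w : W) :
    Submodule F (U ⊗[F] W) := LinearMap.range (inW F U w)

theorem mem_LW {w : W} {x : U ⊗[F] W} : x ∈ LW F U w ↔ ∃ u, u ⊗ₜ w = x := Iff.rfl

theorem tmul_mem_LW (u : U) (w : W) : u ⊗ₜ w ∈ LW F U w := ⟨u, rfl⟩

theorem finrank_LW {w : W} (hw : w ≠ 0) : finrank F (LW F U w) = finrank F U :=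
  LinearMap.finrank_range_of_inj fun _ _ h => tmul_left_inj hw h

theorem cW_LW {w : W} {φ : Dual F W} (h : φ w = 0) {x : U ⊗[F] W} (hx : x ∈ LW F U w) :
    cW U φ x = 0 := by
  obtain ⟨u, rfl⟩ := hx
  simp [h]

theorem eq_of_mem_LW {w : W} {φ : Dual F W} (h : φ w = 1) {x : U ⊗[F] W} (hx : x ∈ LW F U w) :
    cW U φ x ⊗ₜ w = x := by
  obtain ⟨u, rfl⟩ := hx
  simp [h]

theorem cW_cW_tmul (φ χ : Dual F W) (x : U ⊗[F] W) (w : W) :
    cW U φ (cW U χ x ⊗ₜ w) = φ w • cW U χ x := cW_tmul _ _ _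

theorem mem_LW_of [FiniteDimensional F W] {w : W} (hw : w ≠ 0) {x : U ⊗[F] W}
    (h : ∀ φ : Dual F W, φ w = 0 → cW U φ x = 0) : x ∈ LW F U w := by
  obtain ⟨χ, hχ⟩ := exists_dual_one (F := F) hw
  refine ⟨cW U χ x, (sub_eq_zero.1 (eq_zero_of_cW fun φ => ?_)).symm⟩
  rw [map_sub, inW_apply, cW_tmul, ← cW_smul, ← cW_sub]
  exact h _ (by simp [hχ])

theorem LW_eq_of {w w' : W} {x : U ⊗[F] W} (h : x ∈ LW F U w) (h' : x ∈ LW F U w') (h0 : x ≠ 0) :
    LW F U w = LW F U w' := by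
  have key : ∀ w w' : W, x ∈ LW F U w → x ∈ LW F U w' → LW F U w ≤ LW F U w' := by
    rintro w w' ⟨u, rfl⟩ ⟨u', e⟩ _ ⟨v, rfl⟩
    have hu : u ≠ 0 := by rintro rfl; simp at h0
    obtain ⟨c, rfl⟩ := Submodule.mem_span_singleton.1 (mem_span_of_tmul_eq' hu e.symm)
    exact ⟨c • v, smul_tmul _ _ _⟩
  exact le_antisymm (key _ _ h h') (key _ _ h' h)

/-- The map `x ↦ γ (φ x) ⊗ w`. -/
noncomputable def Dm (γ : U →ₗ[F] U) (φ : Dual F W) (w : W) : U ⊗[F] W →ₗ[F] U ⊗[F] W :=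
  inW F U w ∘ₗ γ ∘ₗ cW U φ

theorem Dm_apply (γ : U →ₗ[F] U) (φ : Dual F W) (w : W) (x : U ⊗[F] W) :
    Dm γ φ w x = γ (cW U φ x) ⊗ₜ w := rfl

theorem Dm_mem (γ : U →ₗ[F] U) (φ : Dual F W) (w : W) (x : U ⊗[F] W) :
    Dm γ φ w x ∈ LW F U w := ⟨_, rfl⟩

theorem Dm_LW (γ : U →ₗ[F] U) {φ : Dual F W} {w' : W} (w : W) (h : φ w' = 0) {x : U ⊗[F] W}
    (hx : x ∈ LW F U w') : Dm γ φ w x = 0 := by
  rw [Dm_apply, cW_LW h hx]; simp

theorem Dm_Dm (γ γ' : U →ₗ[F] U) {φ : Dual F W} (φ' : Dual F W) (w : W) {w' : W} (h : φ w' = 0)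
    (x : U ⊗[F] W) : Dm γ φ w (Dm γ' φ' w' x) = 0 := Dm_LW γ w h (Dm_mem _ _ _ _)

/-- `g` is a tensor product of two linear automorphisms. -/
def IsT (g : (U ⊗[F] W) ≃ₗ[F] (U ⊗[F] W)) : Prop :=
  ∃ (a : U ≃ₗ[F] U) (b : W ≃ₗ[F] W), ∀ u w, g (u ⊗ₜ w) = a u ⊗ₜ b w

theorem isT_congr (a : U ≃ₗ[F] U) (b : W ≃ₗ[F] W) : IsT (TensorProduct.congr a b) :=
  ⟨a, b, fun _ _ => congr_tmul _ _ _ _⟩

theorem cW_left (a : U →ₗ[F] U) (φ : Dual F W) (x : U ⊗[F] W) :
    cW U φ (a.rTensor W x) = a (cW U φ x) := by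
  induction x with
  | zero => simp
  | tmul u w => simp
  | add x y hx hy => simp [hx, hy]

theorem isT_of_lines [FiniteDimensional F U] [FiniteDimensional F W] [Nontrivial U]
    (hn : 2 ≤ finrank F W) {g : (U ⊗[F] W) ≃ₗ[F] (U ⊗[F] W)}
    (h : ∀ w : W, ∃ w' : W, ∀ u : U, g (u ⊗ₜ w) ∈ LW F U w') : IsT g := by
  choose β hβ using h
  choose a ha using hβ
  simp only [inW_apply] at ha
  obtain ⟨u₀, hu₀⟩ := exists_ne (0 : U)
  have hβ0 : ∀ w, w ≠ 0 → β w ≠ 0 := fun w hw e => by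
    have := ha w u₀
    rw [e, tmul_zero, eq_comm, g.map_eq_zero_iff] at this
    exact tmul_ne_zero hu₀ hw this
  have key : ∀ w w', w ≠ 0 → w' ∉ F ∙ w → ∃ c : F, c ≠ 0 ∧ ∀ u, a w u = c • a (w + w') u := by
    intro w w' hw hw'
    have hw'0 : w' ≠ 0 := by rintro rfl; exact hw' (Submodule.zero_mem _)
    have hind : β w ∉ F ∙ β w' := by
      intro e
      obtain ⟨c, hc⟩ := Submodule.mem_span_singleton.1 e
      let A : U →ₗ[F] U := cW U (exists_dual_one (F := F) (hβ0 w' hw'0)).choose ∘ₗ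
        (g : _ →ₗ[F] _) ∘ₗ inW F U w'
      have hA : ∀ u, A u = a w' u := fun u => by
        simp [A, ← ha, (exists_dual_one (F := F) (hβ0 w' hw'0)).choose_spec]
      have hi : Function.Injective A := by
        intro u v e
        rw [hA, hA] at e
        exact tmul_left_inj hw'0 (g.injective (by rw [← ha, ← ha, e]))
      obtain ⟨v, hv⟩ := LinearMap.injective_iff_surjective.1 hi (c • a w u₀)
      have : g (u₀ ⊗ₜ w) = g (v ⊗ₜ w') := by rw [← ha, ← ha, ← hA, hv, ← hc, smul_tmul]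
      exact not_mem_span_symm hw' hw (mem_span_of_tmul_eq' hu₀ (g.injective this))
    obtain ⟨φ, h1, h2⟩ := exists_dual_two hind
    have e : ∀ u, a w u = φ (β (w + w')) • a (w + w') u := fun u => by
      have := congrArg (cW U φ) (ha (w + w') u)
      rw [tmul_add, map_add, ← ha, ← ha] at this
      simpa [h1, h2] using this.symm
    refine ⟨_, fun h0 => ?_, e⟩
    have := ha w u₀
    rw [e, h0, zero_smul, zero_tmul, eq_comm, g.map_eq_zero_iff] at this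
    exact tmul_ne_zero hu₀ hw this
  have key2 : ∀ w w', w ≠ 0 → w' ∉ F ∙ w → ∃ c : F, ∀ u, a w u = c • a w' u := by
    intro w w' hw hw'
    obtain ⟨c, -, hc⟩ := key w w' hw hw'
    have hw'0 : w' ≠ 0 := by rintro rfl; exact hw' (Submodule.zero_mem _)
    obtain ⟨d, hd0, hd⟩ := key w' w hw'0 (not_mem_span_symm hw' hw)
    exact ⟨c / d, fun u => by rw [hc, hd, add_comm, smul_smul, div_mul_cancel₀ _ hd0]⟩
  have : Nontrivial W := Module.nontrivial_of_finrank_pos (R := F) (by omega)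
  obtain ⟨w₀, hw₀⟩ := exists_ne (0 : W)
  have key3 : ∀ w, ∃ w', ∀ u, g (u ⊗ₜ w) = a w₀ u ⊗ₜ w' := by
    intro w
    by_cases hw : w ∈ F ∙ w₀
    · obtain ⟨c, rfl⟩ := Submodule.mem_span_singleton.1 hw
      exact ⟨c • β w₀, fun u => by rw [tmul_smul, tmul_smul, map_smul, ha]⟩
    · have hw0 : w ≠ 0 := by rintro rfl; exact hw (Submodule.zero_mem _)
      obtain ⟨c, hc⟩ := key2 w w₀ hw0 (not_mem_span_symm hw hw₀)
      exact ⟨c • β w, fun u => by rw [← ha, hc, smul_tmul]⟩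
  obtain ⟨φ, hφ⟩ := exists_dual_one (F := F) (hβ0 w₀ hw₀)
  let A : U →ₗ[F] U := cW U φ ∘ₗ (g : _ →ₗ[F] _) ∘ₗ inW F U w₀
  have hA : ∀ u, A u = a w₀ u := fun u => by simp [A, ← ha, hφ]
  have hAi : Function.Injective A := by
    intro u v e
    rw [hA, hA] at e
    exact tmul_left_inj hw₀ (g.injective (by rw [← ha, ← ha, e]))
  have hu₁ : a w₀ u₀ ≠ 0 := by rw [← hA]; exact fun e => hu₀ (hAi (by simpa using e))
  obtain ⟨ψ, hψ⟩ := exists_dual_one (F := F) hu₁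
  let B : W →ₗ[F] W := cU W ψ ∘ₗ (g : _ →ₗ[F] _) ∘ₗ TensorProduct.mk F U W u₀
  have hB : ∀ u w, g (u ⊗ₜ w) = A u ⊗ₜ B w := fun u w => by
    obtain ⟨w', hw'⟩ := key3 w
    simp [B, hA, hw', hψ]
  have hBi : Function.Injective B := by
    intro v w e
    exact tmul_right_inj hu₀ (g.injective (by rw [hB, hB, e]))
  exact ⟨LinearEquiv.ofInjectiveEndo A hAi, LinearEquiv.ofInjectiveEndo B hBi, hB⟩

theorem exists_not_eigen {γ : U →ₗ[F] U} (h : ∀ c : F, γ ≠ c • LinearMap.id) :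
    ∃ u, γ u ∉ F ∙ u := by
  by_contra hn
  push Not at hn
  obtain ⟨c, hc⟩ := LinearMap.exists_eq_smul_id_of_forall_notLinearIndependent (f := γ)
    fun v hv => by
      obtain ⟨c, hc⟩ := Submodule.mem_span_singleton.1 (hn v)
      have := (LinearIndependent.pair_iff.1 hv c (-1) (by simp [hc])).2
      simp at this
  exact h c hc

theorem not_isT_Dm [FiniteDimensional F W] (hn : 2 ≤ finrank F W) {γ : U →ₗ[F] U}
    (hγ : ∀ c : F, γ ≠ c • LinearMap.id) {φ : Dual F W} (hφ : φ ≠ 0) {w : W} (hw : w ≠ 0)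
    {g : (U ⊗[F] W) ≃ₗ[F] (U ⊗[F] W)} (hg : ∀ x, g x = x + Dm γ φ w x) : ¬ IsT g := by
  rintro ⟨a, b, h⟩
  obtain ⟨u, hu⟩ := exists_not_eigen hγ
  obtain ⟨ψ, h1, h2⟩ := exists_dual_two hu
  obtain ⟨w₀, hw₀, h3⟩ := exists_ker_ne_zero hn φ
  obtain ⟨w₁, h4⟩ := exists_apply_one hφ
  have e := h u w₀
  rw [hg, Dm_apply, cW_tmul, h3, zero_smul, map_zero, zero_tmul, add_zero] at e
  obtain ⟨c, hc⟩ := Submodule.mem_span_singleton.1
    (mem_span_of_tmul_eq (by simpa using hw₀) e.symm)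
  have e2 := congrArg (cU W ψ) (h u w₁)
  simp [hg, Dm_apply, h4, h1, h2, ← hc, hw] at e2

section Mat

open Geo Asch Matrix
open scoped Kronecker

variable {ι : Type} [Fintype ι] [DecidableEq ι] {n₁ n₂ : ℕ}

/-- The tensor structure given by a frame. -/
noncomputable def tenE (e : ι ≃ Fin n₁ × Fin n₂) (P : GL ι F) :
    (ι → F) ≃ₗ[F] (Fin n₁ → F) ⊗[F] (Fin n₂ → F) :=
  ((((Pi.basisFun F (Fin n₁)).tensorProduct (Pi.basisFun F (Fin n₂))).equivFun.trans
    (LinearEquiv.funCongrLeft F F e)).trans (Orth.glEquiv ι F P)).symm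

theorem tenE_symm (e : ι ≃ Fin n₁ × Fin n₂) (P : GL ι F) (u : Fin n₁ → F) (w : Fin n₂ → F) :
    (tenE e P).symm (u ⊗ₜ w) = P.1 *ᵥ ((fun p : Fin n₁ × Fin n₂ => u p.1 * w p.2) ∘ e) := by
  simp only [tenE, LinearEquiv.symm_symm, LinearEquiv.trans_apply, Orth.glEquiv_apply]
  congr 1
  funext i
  have := ((Pi.basisFun F (Fin n₁)).tensorProduct_repr_tmul_apply (Pi.basisFun F (Fin n₂))
    u w (e i).1 (e i).2)
  simpa [LinearMap.funLeft_apply, mul_comm] using this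

theorem kron_mulVec (a : Matrix (Fin n₁) (Fin n₁) F) (b : Matrix (Fin n₂) (Fin n₂) F)
    (u : Fin n₁ → F) (w : Fin n₂ → F) :
    (a ⊗ₖ b) *ᵥ (fun p : Fin n₁ × Fin n₂ => u p.1 * w p.2) =
      fun p => (a *ᵥ u) p.1 * (b *ᵥ w) p.2 := by
  funext p
  simp only [mulVec, dotProduct, Fintype.sum_prod_type, kroneckerMap_apply, Finset.sum_mul_sum]
  exact Finset.sum_congr rfl fun _ _ => Finset.sum_congr rfl fun _ _ => by ring

theorem fr_kron_tenE (e : ι ≃ Fin n₁ × Fin n₂) (P : GL ι F) (a : Matrix (Fin n₁) (Fin n₁) F)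
    (b : Matrix (Fin n₂) (Fin n₂) F) (u : Fin n₁ → F) (w : Fin n₂ → F) :
    fr e P (a ⊗ₖ b) *ᵥ (tenE e P).symm (u ⊗ₜ w) = (tenE e P).symm ((a *ᵥ u) ⊗ₜ (b *ᵥ w)) := by
  rw [tenE_symm, tenE_symm, fr_mulVec, kron_mulVec]

theorem mem_tensor_iff (e : ι ≃ Fin n₁ × Fin n₂) (P g : GL ι F) :
    g ∈ tensorProductSubgroup n₁ n₂ e P ↔ IsT (cong (tenE e P) (Orth.glEquiv ι F g)) := by
  rw [mem_tensorProductSubgroup]
  constructor
  · rintro ⟨a, b, rfl⟩
    refine ⟨Orth.glEquiv _ F a, Orth.glEquiv _ F b, fun u w => ?_⟩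
    rw [cong_apply, Orth.glEquiv_apply, frG_coe, kG_coe, fr_kron_tenE]
    simp
  · rintro ⟨a, b, h⟩
    obtain ⟨a, rfl⟩ := (Orth.glEquiv _ F).surjective a
    obtain ⟨b, rfl⟩ := (Orth.glEquiv _ F).surjective b
    refine ⟨a, b, (Orth.glEquiv ι F).injective ((cong (tenE e P)).injective ?_)⟩
    apply LinearEquiv.toLinearMap_injective
    refine TensorProduct.ext' fun u w => ?_
    simp only [LinearEquiv.coe_coe]
    rw [h, cong_apply, Orth.glEquiv_apply (frG e P _), frG_coe, kG_coe, fr_kron_tenE]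
    simp

end Mat

end Cfsg.Agent.Max2
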