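import Mathlib
import Cfsg.Agent.Max2.Ten
import Cfsg.Agent.Asch.SLMax

/-!
# Maximality of `GL(U) ⊗ GL(W) ∩ SL` in `SL(U ⊗ W)`
-/

set_option autoImplicit false

namespace Cfsg.Agent.Max2

open Module Cfsg.Agent.Max TensorProduct

variable {F U W : Type*} [Field F] [AddCommGroup U] [Module F U] [AddCommGroup W] [Module F W]

theorem exists_ne_zero_one [Finite F] (hq : Nat.card F ≠ 2) : ∃ μ : F, μ ≠ 0 ∧ μ ≠ 1 := by
  by_contra hn'
  push Not at hn'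
  apply hq
  rw [Nat.card_eq_two_iff]
  refine ⟨0, 1, zero_ne_one, Set.eq_univ_of_forall fun a => ?_⟩
  by_cases h0 : a = 0
  · simp [h0]
  · simp [hn' a h0]

theorem exists_dual_pair [FiniteDimensional F W] (hn : 3 ≤ finrank F W) (a b : W) :
    ∃ φ : Dual F W, φ ≠ 0 ∧ φ a = 0 ∧ φ b = 0 := by
  obtain ⟨z, -, hz⟩ := exists_not_mem_of_finrank_lt (W := Submodule.span F {a, b})
    (U := ⊤) (lt_of_le_of_lt (finrank_span_pair_le _ _) (by rw [finrank_top]; omega))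
  obtain ⟨ψ, e1, e2, e3⟩ := exists_dual_three hz
  exact ⟨ψ, by rintro rfl; simp at e3, e1, e2⟩

theorem exists_ker_not_mem [FiniteDimensional F W] (hn : 3 ≤ finrank F W) (φ : Dual F W) (a : W) :
    ∃ w, φ w = 0 ∧ w ∉ F ∙ a := by
  have := finrank_le_inf_ker (⊤ : Submodule F W) φ
  rw [finrank_top] at this
  obtain ⟨w, hw, h⟩ := exists_not_mem_of_finrank_lt (W := F ∙ a) (U := ⊤ ⊓ LinearMap.ker φ)
    (lt_of_le_of_lt (finrank_span_one_le _) (by omega))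
  exact ⟨w, hw.2, h⟩

/-- A subspace of `End U` invariant under conjugation by transvections and containing a non-scalar
contains all nilpotent maps of rank one. -/
theorem rank_one_mem [Finite F] [FiniteDimensional F U] (hn : 2 ≤ finrank F U)
    (hex : ¬ (finrank F U = 2 ∧ Nat.card F = 2)) (D : Submodule F (U →ₗ[F] U))
    (hD : ∀ γ ∈ D, ∀ (c : U) (ψ : Dual F U), ψ c = 0 →
      ψ.smulRight c ∘ₗ γ - γ ∘ₗ ψ.smulRight c - ψ.smulRight c ∘ₗ γ ∘ₗ ψ.smulRight c ∈ D)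
    {γ : U →ₗ[F] U} (hγ : γ ∈ D) (h : ∀ c : F, γ ≠ c • LinearMap.id) (c : U) (ψ : Dual F U)
    (hc : ψ c = 0) : ψ.smulRight c ∈ D := by
  obtain ⟨u, hu⟩ := exists_not_eigen h
  have hu0 : u ≠ 0 := by rintro rfl; simp at hu
  obtain ⟨χ, h1, h2⟩ := exists_dual_two hu
  have base : ∃ χ : Dual F U, χ ≠ 0 ∧ χ u = 0 ∧ χ.smulRight u ∈ D := by
    by_cases hq : Nat.card F = 2
    · obtain ⟨φ, e0, e1, e2⟩ := exists_dual_pair (F := F) (W := U) (by
        by_contra; exact hex ⟨by omega, hq⟩) u (γ u)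
      refine ⟨φ, e0, e1, ?_⟩
      convert D.neg_mem (hD _ (hD γ hγ u φ e1) u χ h1) using 1
      ext x; simp [e1, e2, h1, h2]
    · obtain ⟨μ, hμ0, hμ1⟩ := exists_ne_zero_one hq
      refine ⟨χ, by rintro rfl; simp at h2, h1, ?_⟩
      have e := D.sub_mem (D.smul_mem μ (hD γ hγ u χ h1)) (hD γ hγ (μ • u) χ (by simp [h1]))
      have e2 : μ * μ - μ ≠ 0 := fun e => hμ1 (mul_left_cancel₀ hμ0 (by linear_combination e))
      convert D.smul_mem (μ * μ - μ)⁻¹ e using 1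
      ext x
      simp only [LinearMap.smulRight_apply, LinearMap.smul_apply, LinearMap.sub_apply,
        LinearMap.comp_apply, map_smul, h2]
      rw [eq_inv_smul_iff₀ e2]
      module
  by_cases hc0 : c = 0
  · convert D.zero_mem; ext x; simp [hc0]
  obtain ⟨χ, e0, e1, e2⟩ : ∃ χ : Dual F U, χ ≠ 0 ∧ χ c = 0 ∧ χ.smulRight c ∈ D := by
    refine move_ind hn (P := fun u => ∃ χ : Dual F U, χ ≠ 0 ∧ χ u = 0 ∧ χ.smulRight u ∈ D) ?_ hu0
      base hc0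
    rintro s φ w hφ ⟨χ, e0, e1, e2⟩
    refine ⟨χ - χ w • φ, fun e => e0 ?_, by simp [e1, hφ, mul_comm], ?_⟩
    · have e' : χ w = 0 := by simpa [hφ] using congrArg (fun f : Dual F U => f w) e
      simpa [e'] using e
    · convert D.add_mem e2 (hD _ e2 w φ hφ) using 1
      ext x
      simp only [LinearMap.smulRight_apply, LinearMap.smul_apply, LinearMap.sub_apply,
        LinearMap.add_apply, LinearMap.comp_apply, map_smul, smul_eq_mul]
      module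
  by_cases hk : ∀ x, ψ x = 0 → χ x = 0
  · obtain ⟨d, rfl⟩ := exists_smul_of_ker hk
    have hd : d ≠ 0 := by rintro rfl; simp at e0
    convert D.smul_mem d⁻¹ e2 using 1
    ext x; simp [smul_smul, hd]
  · push Not at hk
    obtain ⟨x, h3, h4⟩ := hk
    convert D.smul_mem (-(χ x)⁻¹) (hD _ e2 x ψ h3) using 1
    ext y; simp [hc, smul_smul, h4, mul_comm (ψ y)]

variable [FiniteDimensional F U] [FiniteDimensional F W]
  {M : Subgroup ((U ⊗[F] W) ≃ₗ[F] (U ⊗[F] W))}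

theorem rootW (hH : ∀ g, LinearEquiv.det g = 1 → IsT g → g ∈ M) {φ : Dual F W} {w : W}
    (h : φ w = 0) : R M (Dm LinearMap.id φ w) :=
  R.of_uni (h := Dm_Dm _ _ _ _ h) (hH _ (det_uni _ _) ⟨1, tv w φ h, fun u v => by
    simp [uni_apply, Dm_apply, tv_apply, tmul_add, smul_tmul]⟩)

theorem rootW_ax (hH : ∀ g, LinearEquiv.det g = 1 → IsT g → g ∈ M) {φ : Dual F W} {w : W}
    (h : φ w = 0) : AX M (LW F U w) (Dm LinearMap.id φ w) :=
  ⟨rootW hH h, fun _ hx => Dm_LW _ _ h hx, Dm_mem _ _ _⟩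

theorem rootU (hH : ∀ g, LinearEquiv.det g = 1 → IsT g → g ∈ M) {ψ : Dual F U} {c : U}
    (h : ψ c = 0) : ∃ g ∈ M, ∀ u w, g (u ⊗ₜ w) = tv c ψ h u ⊗ₜ w := by
  have e : ∀ x, (ψ.smulRight c).rTensor W ((ψ.smulRight c).rTensor W x) = 0 := fun x => by
    rw [← LinearMap.comp_apply, ← LinearMap.rTensor_comp,
      show ψ.smulRight c ∘ₗ ψ.smulRight c = 0 by ext; simp [h]]
    simp
  have e2 : ∀ u w, uni _ e (u ⊗ₜ w) = tv c ψ h u ⊗ₜ w := fun u w => by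
    simp [uni_apply, tv_apply, add_tmul]
  exact ⟨uni _ e, hH _ (det_uni _ _) ⟨tv c ψ h, 1, e2⟩, e2⟩

theorem moveW (hH : ∀ g, LinearEquiv.det g = 1 → IsT g → g ∈ M) (hn : 2 ≤ finrank F W)
    {w w' : W} (hw : w ≠ 0) (hw' : w' ≠ 0) : ∃ g ∈ M, im (LW F U w) g = LW F U w' := by
  refine move_ind hn (P := fun w' => ∃ g ∈ M, im (LW F U w) g = LW F U w') ?_ hw
    ⟨1, M.one_mem, im_one _⟩ hw'
  rintro s χ v hχ ⟨g, hg, e⟩
  obtain ⟨t, ht, h⟩ := rootW hH hχ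
  have h' : ∀ u, t (u ⊗ₜ s) = u ⊗ₜ (s + χ s • v) := fun u => by
    simp [h, Dm_apply, tmul_add, smul_tmul]
  refine ⟨t * g, M.mul_mem ht hg, ?_⟩
  rw [im_mul, e]
  ext x
  constructor
  · rintro ⟨_, ⟨u, rfl⟩, rfl⟩; exact ⟨u, (h' u).symm⟩
  · rintro ⟨u, rfl⟩; exact ⟨_, ⟨u, rfl⟩, h' u⟩

/-- All elements of `M` centralising `U ⊗ w` and its quotient are the standard ones. -/
def Std (M : Subgroup ((U ⊗[F] W) ≃ₗ[F] (U ⊗[F] W))) : Prop :=
  ∀ w ≠ 0, ∀ θ, AX M (LW F U w) θ → ∃ φ, ∀ x, θ x = cW U φ x ⊗ₜ w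

theorem Std.range_eq (hS : Std M) (hH : ∀ g, LinearEquiv.det g = 1 → IsT g → g ∈ M)
    (hn : 2 ≤ finrank F U) (hlt : finrank F U < finrank F W) {N : U ⊗[F] W →ₗ[F] U ⊗[F] W}
    {X : Submodule F (U ⊗[F] W)} (hN : AX M X N) (hX : finrank F X = finrank F U) (h0 : N ≠ 0)
    (hsurj : ∀ x ∈ X, ∃ v, N v = x)
    {w₀ : W} (hw₀ : w₀ ≠ 0) (hL : ∀ x ∈ LW F U w₀, N x ∈ LW F U w₀) :
    ∃ w, X = LW F U w := by
  have pure : ∀ u : U, ∃ w, w ≠ 0 ∧ N (u ⊗ₜ w) = 0 := by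
    intro u
    have : LinearMap.ker ((N ∘ₗ TensorProduct.mk F U W u).codRestrict X fun w => hN.rg _) ≠ ⊥ :=
      LinearMap.ker_ne_bot_of_finrank_lt (by omega)
    obtain ⟨w, hw, h1⟩ := Submodule.exists_mem_ne_zero_of_ne_bot this
    exact ⟨w, h1, congrArg Subtype.val (LinearMap.mem_ker.1 hw)⟩
  have hk : ∀ u, N (u ⊗ₜ w₀) = 0 := by
    intro u
    by_contra hne
    obtain ⟨u', hu'⟩ := hL _ (tmul_mem_LW u w₀)
    rw [inW_apply] at hu'
    have hind : u' ∉ F ∙ u := by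
      intro e
      obtain ⟨c, rfl⟩ := Submodule.mem_span_singleton.1 e
      have := hN.sq (u ⊗ₜ w₀)
      rw [← hu', ← smul_tmul', map_smul, smul_eq_zero] at this
      rcases this with h | h
      · rw [h] at hu'; exact hne (by simpa using hu'.symm)
      · exact hne h
    obtain ⟨ψ, h1, h2⟩ := exists_dual_two hind
    obtain ⟨w, hw, hNw⟩ := pure u
    have hwm : w ∉ F ∙ w₀ := by
      intro e
      obtain ⟨c, rfl⟩ := Submodule.mem_span_singleton.1 e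
      rw [tmul_smul, map_smul, smul_eq_zero] at hNw
      exact hNw.elim (fun h => hw (by simp [h])) hne
    obtain ⟨φ, h3, h4⟩ := exists_dual_two hwm
    obtain ⟨φ', h5⟩ := hS w₀ hw₀ _ ((rootW_ax hH h3).comm hN.mem hN.sq hL)
    have := congrArg (cU W ψ) (h5 (u ⊗ₜ w))
    simp [Dm_apply, h4, hNw, ← hu', h1, h2, hw₀] at this
  have hk' : ∀ w, w ≠ 0 → (∀ u, N (u ⊗ₜ w) = 0) → ∀ φ : Dual F W, φ w = 0 →
      ∃ φ', ∀ x, cW U φ (N x) = cW U φ' x := by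
    intro w hw h φ hφ
    have h' : ∀ x ∈ LW F U w, N x = 0 := by rintro _ ⟨u, rfl⟩; exact h u
    obtain ⟨φ', h1⟩ := hS w hw (Dm LinearMap.id φ w ∘ₗ N) ⟨(rootW hH hφ).comm hN.mem
      (rootW_ax hH hφ).sq hN.sq fun x => h' _ (Dm_mem _ _ _ _),
      fun x hx => by simp [h' x hx], fun x => Dm_mem _ _ _ _⟩
    exact ⟨φ', fun x => tmul_left_inj hw (h1 x)⟩
  by_cases hXL : X ≤ LW F U w₀
  · exact ⟨w₀, Submodule.eq_of_le_of_finrank_eq hXL (by rw [hX, finrank_LW hw₀])⟩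
  obtain ⟨x, hx, hxL⟩ := SetLike.not_le_iff_exists.1 hXL
  obtain ⟨φ, h1, h2⟩ : ∃ φ : Dual F W, φ w₀ = 0 ∧ cW U φ x ≠ 0 := by
    by_contra hn'; push Not at hn'; exact hxL (mem_LW_of hw₀ hn')
  obtain ⟨φ', h3⟩ := hk' w₀ hw₀ hk φ h1
  have hφ' : φ' ≠ 0 := by
    rintro rfl
    obtain ⟨v, rfl⟩ := hsurj x hx
    exact h2 (by simp [h3])
  obtain ⟨w', hw'⟩ := exists_apply_one hφ'
  have hinj : Function.Injective (cW U φ ∘ₗ X.subtype) :=
    (LinearMap.injective_iff_surjective_of_finrank_eq_finrank hX).2 fun u =>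
      ⟨⟨_, hN.rg (u ⊗ₜ w')⟩, by simp [h3, hw']⟩
  obtain ⟨w₁, h4, h5⟩ := exists_ker_not_mem (F := F) (W := W) (by omega) φ' w₀
  have hw₁ : w₁ ≠ 0 := by rintro rfl; exact h5 (Submodule.zero_mem _)
  have hk1 : ∀ u, N (u ⊗ₜ w₁) = 0 := fun u =>
    congrArg Subtype.val (hinj (a₁ := ⟨_, hN.rg (u ⊗ₜ w₁)⟩) (a₂ := 0) (by simp [h3, h4]))
  obtain ⟨χ, h6, h7⟩ := exists_dual_two h5
  have hall : ∀ φ : Dual F W, ∃ φ', ∀ x, cW U φ (N x) = cW U φ' x := by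
    intro φ
    obtain ⟨a, ha⟩ := hk' w₀ hw₀ hk (φ w₁ • χ) (by simp [h6])
    obtain ⟨b, hb⟩ := hk' w₁ hw₁ hk1 (φ - φ w₁ • χ) (by simp [h7])
    exact ⟨a + b, fun x => by rw [cW_add, ← ha, ← hb, ← cW_add, add_sub_cancel]⟩
  have : Nontrivial U := Module.nontrivial_of_finrank_pos (R := F) (by omega)
  obtain ⟨u₀, hu₀⟩ := exists_ne (0 : U)
  obtain ⟨ψ, hψ⟩ := exists_dual_one (F := F) hu₀
  have hb : ∀ u w, N (u ⊗ₜ w) = u ⊗ₜ cU W ψ (N (u₀ ⊗ₜ w)) := by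
    intro u w
    refine sub_eq_zero.1 (eq_zero_of_cW fun φ => ?_)
    obtain ⟨φ', h⟩ := hall φ
    simp [h, dual_cU, hψ]
  obtain ⟨w, hw⟩ : ∃ w, cU W ψ (N (u₀ ⊗ₜ w)) ≠ 0 := by
    by_contra hn'; push Not at hn'
    exact h0 (TensorProduct.ext' fun u w => by rw [hb, hn']; simp)
  refine ⟨_, (Submodule.eq_of_le_of_finrank_eq ?_ (by rw [hX, finrank_LW hw])).symm⟩
  rintro _ ⟨u, rfl⟩
  rw [inW_apply, ← hb]; exact hN.rg _

theorem not_std (hH : ∀ g, LinearEquiv.det g = 1 → IsT g → g ∈ M)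
    (hn : 2 ≤ finrank F U) (hlt : finrank F U < finrank F W) {g : (U ⊗[F] W) ≃ₗ[F] (U ⊗[F] W)}
    (hg : g ∈ M) (hgT : ¬ IsT g) : ¬ Std M := by
  intro hS
  have : Nontrivial U := Module.nontrivial_of_finrank_pos (R := F) (by omega)
  have sj : ∀ (m : (U ⊗[F] W) ≃ₗ[F] (U ⊗[F] W)) (φ : Dual F W) (w : W), φ ≠ 0 →
      ∀ x ∈ im (LW F U w) m, ∃ v, cjm m (Dm LinearMap.id φ w) v = x := by
    rintro m φ w hφ _ ⟨_, ⟨u, rfl⟩, rfl⟩
    obtain ⟨w', hw'⟩ := exists_apply_one hφ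
    exact ⟨m (u ⊗ₜ w'), by simp [Dm_apply, hw']⟩
  have ne : ∀ (m : (U ⊗[F] W) ≃ₗ[F] (U ⊗[F] W)) (φ : Dual F W) (w : W), φ ≠ 0 → w ≠ 0 →
      cjm m (Dm LinearMap.id φ w) ≠ 0 := by
    intro m φ w hφ hw e
    obtain ⟨u, hu⟩ := exists_ne (0 : U)
    obtain ⟨v, hv⟩ := sj m φ w hφ _ (apply_mem_im.2 (tmul_mem_LW u w))
    rw [e, LinearMap.zero_apply, eq_comm, m.map_eq_zero_iff] at hv
    exact tmul_ne_zero hu hw hv
  have npair : ∀ w ≠ 0, ∀ m, ¬ Pair M (LW F U w) m := by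
    intro w hw m h
    obtain ⟨x, hx, hxL⟩ := h.symm.exists_X
    obtain ⟨s, hs0, hsL, hsX⟩ := h.symm.exists_S
    obtain ⟨χ, hχ⟩ := exists_dual_one (F := F) hw
    obtain ⟨φ, h0, h1, h2⟩ : ∃ φ : Dual F W, φ ≠ 0 ∧ φ w = 0 ∧
        cW U φ x ∈ F ∙ cW U χ s := by
      let A : Dual F W →ₗ[F] F × (U ⧸ F ∙ cW U χ s) :=
        { toFun := fun φ => (φ w, Submodule.Quotient.mk (cW U φ x))
          map_add' := fun a b => by simp [cW_add]
          map_smul' := fun c a => by simp [cW_smul] }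
      have hs' : cW U χ s ≠ 0 := fun e => hs0 (by rw [← eq_of_mem_LW hχ hsL, e, zero_tmul])
      have : LinearMap.ker A ≠ ⊥ := LinearMap.ker_ne_bot_of_finrank_lt (by
        have := (F ∙ cW U χ s).finrank_quotient_add_finrank
        rw [finrank_span_singleton hs'] at this
        rw [Subspace.dual_finrank_eq, finrank_prod, finrank_self]; omega)
      obtain ⟨φ, hφ, h1⟩ := Submodule.exists_mem_ne_zero_of_ne_bot this
      have := Prod.ext_iff.1 (LinearMap.mem_ker.1 hφ)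
      exact ⟨φ, h1, this.1, (Submodule.Quotient.mk_eq_zero _).1 this.2⟩
    obtain ⟨t, ht, e⟩ := rootW hH h1
    have hst := h.symm.stabX ht (fun s hs hs' => by rwa [e, Dm_LW _ _ h1 hs, add_zero]) hx hxL (by
      obtain ⟨c, hc⟩ := Submodule.mem_span_singleton.1 h2
      rw [e, Dm_apply, LinearMap.id_apply, ← hc, ← smul_tmul', eq_of_mem_LW hχ hsL]
      exact add_mem hx (Submodule.smul_mem _ _ hsX))
    obtain ⟨w', hw'⟩ := hS.range_eq hH hn hlt ((rootW_ax hH h1).conj h.mem)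
      (by rw [finrank_im, finrank_LW hw]) (ne m φ w h0 hw) (sj m φ w h0) hw fun y hy => by
        have h3 : m.symm y ∈ im (LW F U w) m⁻¹ := apply_mem_im.2 hy
        have h4 := hst _ h3
        rw [e] at h4
        exact mem_im.1 ((Submodule.add_mem_iff_right _ h3).1 h4)
    obtain ⟨s, hs0, hsL, hsX⟩ := h.exists_S
    exact h.ne (by rw [hw'] at hsX ⊢; exact LW_eq_of hsX hsL hs0)
  obtain ⟨w, hw⟩ : ∃ w : W, ∀ w' : W, ¬ ∀ u : U, g (u ⊗ₜ w) ∈ LW F U w' := by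
    by_contra hn'; push Not at hn'; exact hgT (isT_of_lines (by omega) hn')
  have hw0 : w ≠ 0 := by rintro rfl; exact hw 0 fun u => by simp
  obtain ⟨φ, h0, h1, -⟩ := exists_dual_pair (F := F) (W := W) (by omega) w w
  have hN := (rootW_ax hH h1).conj hg
  obtain ⟨u₀, hu₀⟩ := exists_ne (0 : U)
  have : LinearMap.ker ((cjm g (Dm LinearMap.id φ w) ∘ₗ TensorProduct.mk F U W u₀).codRestrict _
      fun w => hN.rg _) ≠ ⊥ :=
    LinearMap.ker_ne_bot_of_finrank_lt (by rw [finrank_im, finrank_LW hw0]; omega)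
  obtain ⟨w₀, h2, hw₀⟩ := Submodule.exists_mem_ne_zero_of_ne_bot this
  have h3 : cjm g (Dm LinearMap.id φ w) (u₀ ⊗ₜ w₀) = 0 :=
    congrArg Subtype.val (LinearMap.mem_ker.1 h2)
  obtain ⟨t, ht, e⟩ := hN.mem
  by_cases hL : im (LW F U w₀) t = LW F U w₀
  · obtain ⟨w', hw'⟩ := hS.range_eq hH hn hlt hN (by rw [finrank_im, finrank_LW hw0])
      (ne g φ w h0 hw0) (sj g φ w h0) hw₀ fun y hy => by
        have : t y ∈ LW F U w₀ := hL ▸ apply_mem_im.2 hy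
        rw [e] at this
        exact (Submodule.add_mem_iff_right _ hy).1 this
    exact hw w' fun u => hw' ▸ apply_mem_im.2 (tmul_mem_LW u w)
  · obtain ⟨m, hm⟩ := exists_pair ht hL fun e' => tmul_ne_zero (F := F) hu₀ hw₀ (by
      rw [← Submodule.mem_bot F, ← e']
      refine ⟨tmul_mem_LW _ _, ?_⟩
      have : t (u₀ ⊗ₜ w₀) ∈ im (LW F U w₀) t := apply_mem_im.2 (tmul_mem_LW _ _)
      rwa [e, h3, add_zero] at this)
    exact npair w₀ hw₀ m hm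

theorem Dm_all (hH : ∀ g, LinearEquiv.det g = 1 → IsT g → g ∈ M) (hn : 3 ≤ finrank F W)
    {γ : U →ₗ[F] U} {φ : Dual F W} {w : W} (hφ : φ ≠ 0) (hw : w ≠ 0) (h0 : φ w = 0)
    (h : R M (Dm γ φ w)) (w' : W) (φ' : Dual F W) (h' : φ' w' = 0) : R M (Dm γ φ' w') := by
  have step : ∀ (φ χ : Dual F W) v, φ w = 0 → R M (Dm γ φ w) → φ v = 1 → χ v = 0 → χ w = 0 →
      R M (Dm γ χ w) := fun φ χ v h0 h h1 h2 h3 =>
    (h.comm (rootW hH h2) (Dm_Dm _ _ _ _ h0) (Dm_Dm _ _ _ _ h2) (Dm_Dm _ _ _ _ h3)).congr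
      fun x => by simp [Dm_apply, h1]
  obtain ⟨v, hv⟩ := exists_apply_one hφ
  have hP : ∀ χ : Dual F W, χ w = 0 → R M (Dm γ χ w) := by
    intro χ hχ
    obtain ⟨χ₁, e0, e1, e2⟩ := exists_dual_pair hn w v
    obtain ⟨v', hv'⟩ := exists_apply_one e0
    have h1 := step χ₁ (χ v • φ) (v' - φ v' • v) e1 (step φ χ₁ v h0 h hv e2 e1)
      (by simp [hv', e2]) (by simp [hv]) (by simp [h0])
    have h2 := step φ (χ - χ v • φ) v h0 h hv (by simp [hv]) (by simp [h0, hχ])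
    refine (h1.add h2 (Dm_Dm _ _ _ _ (by simp [h0]))).congr fun x => ?_
    rw [LinearMap.add_apply, Dm_apply, Dm_apply, Dm_apply, ← add_tmul, ← map_add, ← cW_add,
      add_sub_cancel]
  by_cases hw' : w' = 0
  · exact R.zero.congr fun x => by simp [Dm_apply, hw']
  refine move_ind (K := F) (by omega) (P := fun w => ∀ χ : Dual F W, χ w = 0 → R M (Dm γ χ w))
    ?_ hw hP hw' φ' h'
  intro s χ v hχ hP ψ hψ
  obtain ⟨t, ht, e⟩ := rootW hH hχ
  refine (hP (ψ + ψ v • χ) (by simpa [mul_comm] using hψ)).conj' ht fun x => ?_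
  simp [e, Dm_apply, cW_add, cW_smul, tmul_add, smul_tmul', add_tmul]

theorem sl_of_not_std [Finite F] (hH : ∀ g, LinearEquiv.det g = 1 → IsT g → g ∈ M)
    (hn : 2 ≤ finrank F U) (hn' : 3 ≤ finrank F W) (hex : ¬ (finrank F U = 2 ∧ Nat.card F = 2))
    (hS : ¬ Std M) : SLle M := by
  simp only [Std, not_forall, not_exists] at hS
  obtain ⟨w₀, hw₀, θ, hθ, hS⟩ := hS
  obtain ⟨χ, hχ⟩ := exists_dual_one (F := F) hw₀
  have hθ' : ∀ x, cW U χ (θ x) ⊗ₜ w₀ = θ x := fun x => eq_of_mem_LW hχ (hθ.rg x)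
  obtain ⟨w, hw⟩ : ∃ w, ∀ c : F, cW U χ ∘ₗ θ ∘ₗ inW F U w ≠ c • LinearMap.id := by
    by_contra hn'
    push Not at hn'
    have : Nontrivial U := Module.nontrivial_of_finrank_pos (R := F) (by omega)
    obtain ⟨u₀, hu₀⟩ := exists_ne (0 : U)
    obtain ⟨ψ, hψ⟩ := exists_dual_one (F := F) hu₀
    obtain ⟨x, hx⟩ := hS (ψ ∘ₗ cW U χ ∘ₗ θ ∘ₗ TensorProduct.mk F U W u₀)
    apply hx
    rw [← hθ']
    congr 1
    rw [← LinearMap.comp_apply]
    congr 1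
    refine TensorProduct.ext' fun u w => ?_
    obtain ⟨c, hc⟩ := hn' w
    have e : ∀ u, cW U χ (θ (u ⊗ₜ w)) = c • u := fun u => LinearMap.congr_fun hc u
    simp [e, hψ]
  obtain ⟨φ, h0, h1, h2⟩ := exists_dual_pair hn' w₀ w
  have hγ : R M (Dm (cW U χ ∘ₗ θ ∘ₗ inW F U w) φ w₀) :=
    (hθ.mem.comm (rootW hH h2) hθ.sq (Dm_Dm _ _ _ _ h2) fun x => Dm_LW _ _ h1 (hθ.rg x)).congr
      fun x => by simp [Dm_apply, hθ']
  let D : Submodule F (U →ₗ[F] U) :=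
    { carrier := {γ | ∀ w (φ : Dual F W), φ w = 0 → R M (Dm γ φ w)}
      add_mem' := fun {a b} ha hb w φ h => ((ha w φ h).add (hb w φ h) (Dm_Dm _ _ _ _ h)).congr
        fun x => by simp [Dm_apply, add_tmul]
      zero_mem' := fun w φ h => R.zero.congr fun x => by simp [Dm_apply]
      smul_mem' := fun c a ha w φ h => (ha w (c • φ) (by simp [h])).congr
        fun x => by simp [Dm_apply, cW_smul] }
  have hD := rank_one_mem hn hex D (fun γ hγ c ψ hc w φ h => by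
    obtain ⟨g, hg, e⟩ := rootU hH hc
    have e1 : ∀ x, cW U φ (g x) = tv c ψ hc (cW U φ x) := fun x => by
      induction x with
      | zero => simp
      | tmul u w => simp [e]
      | add x y hx hy => simp only [map_add, hx, hy]
    have := ((hγ w φ h).conj' (N' := Dm (cjm (tv c ψ hc) γ) φ w) hg fun x => by
      rw [Dm_apply, Dm_apply, e, e1, cjm_apply, LinearEquiv.symm_apply_apply]).sub (hγ w φ h) (Dm_Dm _ _ _ _ h) (Dm_Dm _ _ _ _ h)
    refine this.congr fun x => ?_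
    rw [LinearMap.sub_apply, Dm_apply, Dm_apply, Dm_apply, ← sub_tmul, cjm_apply, tv_symm_apply,
      tv_apply]
    congr 1
    simp only [LinearMap.smulRight_apply, LinearMap.sub_apply, LinearMap.comp_apply, map_smul,
      map_sub, smul_eq_mul]
    module) (Dm_all hH hn' h0 hw₀ h1 hγ) hw
  have Q1 : ∀ (c : U) (ψ : Dual F U) (w : W) (φ : Dual F W), ψ c = 0 → φ w = 0 →
      T M (c ⊗ₜ w) (ψ ∘ₗ cW U φ) := fun c ψ w φ h1 h2 =>
    T.of_R (hD c ψ h1 w φ h2) (by simp [h1]) fun x => by simp [Dm_apply, smul_tmul']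
  have Q2 : ∀ (c : U) (ψ : Dual F U) (w : W) (φ : Dual F W), φ w = 0 →
      T M (c ⊗ₜ w) (ψ ∘ₗ cW U φ) := by
    intro c ψ w φ h
    by_cases h1 : ψ c = 0
    · exact Q1 c ψ w φ h1 h
    obtain ⟨c₁, hc₁, e1⟩ := exists_ker_ne_zero hn ψ
    obtain ⟨ψ₁, e2, e3⟩ := exists_dual_two (F := F) (a := c) (x := c₁) (not_mem_span_symm
      (fun e => by
        obtain ⟨k, rfl⟩ := Submodule.mem_span_singleton.1 e
        simp [e1] at h1) hc₁)
    obtain ⟨w₁, e4, e5⟩ := exists_ker_not_mem hn' φ w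
    obtain ⟨φ₁, e6, e7⟩ := exists_dual_two e5
    simpa [e3, e7] using (Q1 c ψ₁ w φ₁ e2 e6).comm (Q1 c₁ ψ w₁ φ e1 e4) (by simp [h])
  have Q3 : ∀ (c : U) (ψ : Dual F U) (w : W) (φ : Dual F W), ψ c = 0 →
      T M (c ⊗ₜ w) (ψ ∘ₗ cW U φ) := by
    intro c ψ w φ h
    by_cases hc : c = 0
    · simpa [hc] using T.zero_left (M := M) (ψ ∘ₗ cW U φ)
    obtain ⟨ψ₁, e3⟩ := exists_dual_one (F := F) hc
    obtain ⟨w₁, e4, e5⟩ := exists_ker_not_mem hn' φ w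
    obtain ⟨φ₁, e6, e7⟩ := exists_dual_two e5
    simpa [e3, e7] using (Q2 c ψ₁ w φ₁ e6).comm (Q2 c ψ w₁ φ e4) (by simp [h])
  refine sl_of_basis ((finBasis F U).tensorProduct (finBasis F W)) fun i j hij c => ?_
  have e : ((finBasis F U).tensorProduct (finBasis F W)).coord j =
      (finBasis F U).coord j.1 ∘ₗ cW U ((finBasis F W).coord j.2) :=
    TensorProduct.ext' fun u w => by
      simpa using (finBasis F U).tensorProduct_repr_tmul_apply (finBasis F W) u w j.1 j.2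
  rw [e, Basis.tensorProduct_apply', smul_tmul']
  by_cases h : i.2 = j.2
  · refine Q3 _ _ _ _ ?_
    have : i.1 ≠ j.1 := fun e => hij (Prod.ext e h)
    simp [this]
  · exact Q2 _ _ _ _ (by simp [h])

theorem sl_tensor [Finite F] (hH : ∀ g, LinearEquiv.det g = 1 → IsT g → g ∈ M)
    (hn : 2 ≤ finrank F U) (hlt : finrank F U < finrank F W)
    (hex : ¬ (finrank F U = 2 ∧ Nat.card F = 2)) {g : (U ⊗[F] W) ≃ₗ[F] (U ⊗[F] W)}
    (hg : g ∈ M) (hgT : ¬ IsT g) : SLle M :=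
  sl_of_not_std hH hn (by omega) hex (not_std hH hn hlt hg hgT)

omit [FiniteDimensional F U] in
theorem exists_not_scalar (hn : 2 ≤ finrank F U) :
    ∃ γ : U →ₗ[F] U, ∀ c : F, γ ≠ c • LinearMap.id := by
  have : FiniteDimensional F U := .of_finrank_pos (by omega)
  have : Nontrivial U := Module.nontrivial_of_finrank_pos (R := F) (by omega)
  obtain ⟨u, hu⟩ := exists_ne (0 : U)
  obtain ⟨z, hz⟩ := exists_not_mem_span hn u
  obtain ⟨ψ, h⟩ := exists_dual_one (F := F) hu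
  exact ⟨ψ.smulRight z, fun c e => hz (Submodule.mem_span_singleton.2
    ⟨c, by simpa [h] using (LinearMap.congr_fun e u).symm⟩)⟩

open Geo in
theorem max_tensor_SL [Fintype F] {ι : Type} [Fintype ι] [DecidableEq ι] {n₁ n₂ : ℕ}
    (h1 : 2 ≤ n₁) (h12 : n₁ < n₂) (hex : ¬ (n₁ = 2 ∧ Fintype.card F = 2))
    (e : ι ≃ Fin n₁ × Fin n₂) (P : GL ι F) :
    IsMaximalIn (specialLinear ι F) (tensorProductSubgroup n₁ n₂ e P ⊓ specialLinear ι F) := by
  refine isMaximalIn_SL (tenE e P) IsT (mem_tensor_iff e P) ?_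
    fun M h _ ⟨g, hg, h2⟩ => sl_tensor h (by simpa) (by simpa) (by simpa using hex) hg h2
  obtain ⟨γ, hγ⟩ := exists_not_scalar (F := F) (U := Fin n₁ → F) (by simpa)
  have : Nontrivial (Fin n₂ → F) := Module.nontrivial_of_finrank_pos (R := F) (by simp; omega)
  obtain ⟨w, hw⟩ := exists_ne (0 : Fin n₂ → F)
  obtain ⟨φ, h0, h2, -⟩ := exists_dual_pair (F := F) (W := Fin n₂ → F) (by simp; omega) w w
  exact ⟨uni (Dm γ φ w) (Dm_Dm _ _ _ _ h2), det_uni _ _,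
    not_isT_Dm (by simp; omega) hγ h0 hw fun _ => rfl⟩

end Cfsg.Agent.Max2
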