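import Mathlib
import Cfsg.Agent.Max2.SpCore
import Cfsg.Agent.Max2.TenSL

/-!
# Maximality of `Sp_n(K).r` in `Sp_{nr}(F)`, `[K : F] = r` prime
-/

set_option autoImplicit false

namespace Cfsg.Agent.Max2

open Module Cfsg.Agent.Max Classical.SpWitt

variable {F K V : Type*} [Field F] [Field K] [Algebra F K] [AddCommGroup V] [Module F V]
  [Module K V] [IsScalarTower F K V] {M : Subgroup (V ≃ₗ[F] V)}

theorem sS_conj {B : LinearMap.BilinForm F V} {a b : V} (h : R M (sS B a b)) {g : V ≃ₗ[F] V}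
    (hg : g ∈ M) (hg' : g ∈ SG B) : R M (sS B (g a) (g b)) :=
  h.conj' hg fun x => by simp [sS_apply, hg' _ x]

theorem codim_of_key (hr : 2 ≤ finrank F K) {u x z : V} (hxL : x ∉ line F K u)
    (key : ∀ φ : Dual K V, φ u = 0 → φ x = 1 → ∃ c : F, algebraMap F K c = φ z) :
    ∃ c : F, z - c • x ∈ line F K u := by
  obtain ⟨φ, h0, h1⟩ := exists_dual_two (F := K) hxL
  obtain ⟨c, hc⟩ := key φ h0 h1
  refine ⟨c, ?_⟩
  by_contra hn
  obtain ⟨ψ, e0, e1⟩ := exists_dual_two (F := K) hn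
  obtain ⟨k, hk⟩ := exists_not_mem_range (F := F) (K := K) hr
  have e2 : (ψ - ψ x • φ) z = 1 := by
    rw [← algebraMap_smul K c x, map_sub, map_smul] at e1
    simpa [← hc, mul_comm] using e1
  obtain ⟨d, hd⟩ := key (φ + k • (ψ - ψ x • φ)) (by simp [h0, e0]) (by simp [h1])
  rw [LinearMap.add_apply, LinearMap.smul_apply, e2, ← hc] at hd
  exact hk (d - c) (by rw [map_sub, hd]; simp)

theorem exists_line_not (hn : 2 ≤ finrank K V) {g : V ≃ₗ[F] V} (hgH : ¬ Semi K g) :
    ∃ v, ∃ k : K, v ≠ 0 ∧ g (k • v) ∉ line F K (g v) := by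
  obtain ⟨v, k, hvk⟩ : ∃ v, ∃ k : K, g (k • v) ∉ line F K (g v) := by
    by_contra hn'
    push Not at hn'
    exact hgH (semi_of_lines hn fun v k => by
      obtain ⟨k', hk'⟩ := mem_line.1 (hn' v k); exact ⟨k', hk'.symm⟩)
  exact ⟨v, k, by rintro rfl; simp at hvk, hvk⟩

theorem exists_pair_of [FiniteDimensional F V] {g : V ≃ₗ[F] V} (hg : g ∈ M) {v : V} {k : K}
    (hv : v ≠ 0) (hvk : g (k • v) ∉ line F K (g v)) {t : V ≃ₗ[K] V}
    (ht : t.restrictScalars F ∈ M) (htu : t (g v) = v) : ∃ m, Pair M (line F K (g v)) m := by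
  refine exists_pair (M.mul_mem hg ht) (fun e => hvk ?_) fun e => hv (g.injective ?_)
  · rw [← e]
    have : g (k • v) = (g * t.restrictScalars F) (k • g v) := by simp [htu]
    rw [this]
    exact apply_mem_im.2 (smul_mem_line k _)
  · rw [map_zero, ← Submodule.mem_bot F, ← e]
    refine ⟨self_mem_line _, ?_⟩
    have : (g * t.restrictScalars F) (g v) ∈ im (line F K (g v)) (g * t.restrictScalars F) :=
      apply_mem_im.2 (self_mem_line _)
    rwa [LinearEquiv.mul_apply, LinearEquiv.restrictScalars_apply, htu] at this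

/-- Transport of the local data from `X = m L` back to `L`. -/
theorem transport_local {u : V} {m : V ≃ₗ[F] V} {x : V} (hxL : x ∉ line F K u)
    {φ : Dual K V} (h0 : φ u = 0) (h1 : φ x = 1)
    (hc : ∀ z ∈ im (line F K u) m, ∃ c : F, z - c • x ∈ line F K u) :
    ∃ ξ : Dual F V, ξ (m.symm x) = 1 ∧ (∀ s ∈ line F K u, ξ s = 0 ↔ m s ∈ line F K u) ∧
      ∀ z ∈ line F K u, ∀ w : V, φ (m z) • w = ξ z • w := by
  obtain ⟨ξ, hξL, hξx⟩ := exists_dual _ hxL
  have cX : ∀ z ∈ im (line F K u) m, z - ξ z • x ∈ line F K u := by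
    intro z hz
    obtain ⟨c, hc⟩ := hc z hz
    have := hξL _ hc
    simp only [map_sub, map_smul, hξx, smul_eq_mul, mul_one, sub_eq_zero] at this
    rwa [this]
  refine ⟨ξ ∘ₗ (m : V →ₗ[F] V), by simp [hξx], fun s hs => ⟨fun e => ?_, fun e => hξL _ e⟩,
    fun z hz w => ?_⟩
  · have := cX _ (apply_mem_im.2 hs)
    have e' : ξ (m s) = 0 := e
    rwa [e', zero_smul, sub_zero] at this
  · have := dual_line h0 (cX _ (apply_mem_im.2 hz))
    rw [map_sub, ← algebraMap_smul K (ξ (m z)) x, map_smul, h1, smul_eq_mul, mul_one,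
      sub_eq_zero] at this
    rw [this, algebraMap_smul]; rfl

/-- `B` is the trace of the alternating `K`-form `β`. -/
structure SpTr (B : LinearMap.BilinForm F V) (β : LinearMap.BilinForm K V) (τ : Dual F K) :
    Prop where
  eq : ∀ x y, B x y = τ (β x y)
  ne : τ ≠ 0
  nd : B.Nondegenerate
  alt : β.IsAlt

namespace SpTr

variable {B : LinearMap.BilinForm F V} {β : LinearMap.BilinForm K V} {τ : Dual F K}
  (h : SpTr B β τ)
include h

theorem altB : B.IsAlt := fun x => by rw [h.eq, h.alt.self_eq_zero, map_zero]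

theorem ndK : β.Nondegenerate :=
  ⟨fun x hx => h.nd.1 x fun y => by rw [h.eq, hx, map_zero],
    fun x hx => h.nd.2 x fun y => by rw [h.eq, hx, map_zero]⟩

theorem mem {g : V ≃ₗ[K] V} (hg : g ∈ SG β) : g.restrictScalars F ∈ SG B := fun x y => by
  simp only [LinearEquiv.restrictScalars_apply, h.eq, hg x y]

theorem iso {u x y : V} (hx : x ∈ line F K u) (hy : y ∈ line F K u) : β x y = 0 := by
  obtain ⟨a, rfl⟩ := mem_line.1 hx
  obtain ⟨b, rfl⟩ := mem_line.1 hy
  simp [h.alt.self_eq_zero]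

theorem isoB {u : V} : ∀ x ∈ line F K u, ∀ y ∈ line F K u, B x y = 0 := fun x hx y hy => by
  rw [h.eq, h.iso hx hy, map_zero]

variable (hH : ∀ g ∈ SG β, g.restrictScalars F ∈ M)
include hH

theorem kz (u : V) (c : K) : R M (kt F (c • β u) u) :=
  ⟨_, hH _ (tv_mem_SG h.alt u c (by simp [h.alt.self_eq_zero])), fun _ => rfl⟩

theorem ke {u v : V} (e : β u v = 0) : R M (kt F (β v) u + kt F (β u) v) :=
  ⟨_, hH _ (uni_sS_mem h.alt e (sS_sq h.alt e)), fun _ => rfl⟩

variable [FiniteDimensional F K] [FiniteDimensional K V]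

theorem local_data (hr : (finrank F K).Prime) {u : V} {m : V ≃ₗ[F] V}
    (hp : Pair M (line F K u) m) : ∃ x ∈ im (line F K u) m, x ∉ line F K u ∧
      ∃ φ : Dual K V, φ u = 0 ∧ φ x = 1 ∧
        (∀ z ∈ im (line F K u) m, ∃ c : F, z - c • x ∈ line F K u) ∧
        ∀ s ∈ line F K u, ∃ t ∈ M, (∀ z ∈ im (line F K u) m, t z = z + φ z • s) ∧
          ∃ v, ∀ z, t z - z ∈ line F K u ⊔ line F K v := by
  have : FiniteDimensional F V := Module.Finite.trans K V
  by_cases h1 : ∃ x ∈ im (line F K u) m, β u x ≠ 0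
  · obtain ⟨x, hx, h1⟩ := h1
    have hxL : x ∉ line F K u := fun e => h1 (h.iso (self_mem_line u) e)
    have ht : ∀ s ∈ line F K u, ∃ t ∈ M, (∀ l ∈ line F K u, t l = l) ∧
        ∀ z, t z = z + ((β u x)⁻¹ • β u) z • s := by
      intro s hs
      obtain ⟨k, rfl⟩ := mem_line.1 hs
      obtain ⟨t, ht, e⟩ := h.kz hH u (k * (β u x)⁻¹)
      refine ⟨t, ht, fun l hl => by simp [e, kt_apply, h.iso (self_mem_line u) hl], fun z => ?_⟩
      rw [e, kt_apply, smul_smul]
      simp only [LinearMap.smul_apply, smul_eq_mul]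
      congr 2; ring
    refine ⟨x, hx, hxL, (β u x)⁻¹ • β u, by simp [h.alt.self_eq_zero], by simp [h1],
      fun z hz => ?_, fun s hs => ?_⟩
    · obtain ⟨c, hc⟩ := hp.phi_mem hr hx hxL (φ := (β u x)⁻¹ • β u) (by simp [h1])
        (fun s hs _ => by
          obtain ⟨t, h2, h3, h4⟩ := ht s hs
          exact ⟨t, h2, h3, fun z _ => h4 z⟩) hz
      refine ⟨c, ?_⟩
      by_contra hn
      obtain ⟨y, hy, hyX⟩ := hp.exists_L
      obtain ⟨t, h2, h3, h4⟩ := ht y hy
      have hz' : z - c • x ∈ im (line F K u) m := sub_mem hz (Submodule.smul_mem _ _ hx)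
      have e : ((β u x)⁻¹ • β u) (z - c • x) = 0 := by
        rw [map_sub, ← algebraMap_smul K c x, map_smul, hc]; simp [h1]
      have := hp.stabX h2 (fun s hs hs' => by rwa [h3 s hs]) hz' hn
        (by rwa [h4, e, zero_smul, add_zero]) x hx
      rw [h4] at this
      simp only [LinearMap.smul_apply, smul_eq_mul, inv_mul_cancel₀ h1, one_smul] at this
      exact hyX ((Submodule.add_mem_iff_right _ hx).1 this)
    · obtain ⟨t, h2, -, h4⟩ := ht s hs
      exact ⟨t, h2, fun z _ => h4 z, 0, fun z => by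
        rw [h4, add_sub_cancel_left]; exact Submodule.mem_sup_left (line_smul hs _)⟩
  push Not at h1
  obtain ⟨x, hx, hxL⟩ := hp.exists_X
  have ht : ∀ φ : Dual K V, φ u = 0 → ∀ s ∈ line F K u, ∃ t ∈ M, (∀ l ∈ line F K u, t l = l) ∧
      (∀ z ∈ im (line F K u) m, t z = z + φ z • s) ∧
      ∃ v, ∀ z, t z - z ∈ line F K u ⊔ line F K v := by
    intro φ h0 s hs
    obtain ⟨k, rfl⟩ := mem_line.1 hs
    obtain ⟨v, rfl⟩ := sp_exists_dual h.ndK φ
    obtain ⟨t, ht, e⟩ := h.ke hH (u := u) (v := k • v) (by simp [h.alt.isRefl _ _ h0])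
    refine ⟨t, ht, fun l hl => ?_, fun z hz => ?_, v, fun z => ?_⟩
    · simp [e, kt_apply, h.iso (self_mem_line u) hl, dual_line h0 hl]
    · simp [e, kt_apply, h1 z hz, smul_smul, mul_comm]
    · rw [e, add_sub_cancel_left]
      exact Submodule.add_mem_sup (smul_mem_line _ _) (line_smul (smul_mem_line _ _) _)
  obtain ⟨φ, h0, h2⟩ := exists_dual_two (F := K) hxL
  refine ⟨x, hx, hxL, φ, h0, h2, fun z hz => codim_of_key hr.two_le hxL fun ψ e0 e1 =>
    hp.phi_mem hr hx hxL e1 (fun s hs _ => ?_) hz, fun s hs => ?_⟩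
  · obtain ⟨t, a1, a2, a3, -⟩ := ht ψ e0 s hs
    exact ⟨t, a1, a2, a3⟩
  · obtain ⟨t, a1, -, a3⟩ := ht φ h0 s hs
    exact ⟨t, a1, a3⟩

theorem exists_stab (hr : (finrank F K).Prime) (hn : 2 ≤ finrank K V) {g : V ≃ₗ[F] V}
    (hg : g ∈ M) (hgH : ¬ Semi K g) : ∃ u a x s : V, x ∈ line F K u ∧ B a x = 1 ∧
      s ∈ line F K u ∧ s ≠ 0 ∧ B a s = 0 ∧ ∀ s ∈ line F K u, B a s = 0 → ∃ t ∈ M,
        (∀ z ∈ line F K u, t z = z + B a z • s) ∧ ∃ U : Submodule F V,
          finrank F U ≤ 2 * finrank F K ∧ s ∈ U ∧ ∀ z, t z - z ∈ U := by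
  have : FiniteDimensional F V := Module.Finite.trans K V
  obtain ⟨v, k, hv, hvk⟩ := exists_line_not hn hgH
  obtain ⟨t, ht⟩ := witt_one h.ndK h.alt (u := g v) (by simpa using hv) hv
  obtain ⟨m, hp⟩ := exists_pair_of hg hv hvk (hH _ t.2) ht
  generalize g v = u at hp
  obtain ⟨x, hx, hxL, φ, h0, h1, h2, h3⟩ := h.local_data hH hr hp
  obtain ⟨ξ, e1, e2, e3⟩ := transport_local hxL h0 h1 h2
  obtain ⟨a, rfl⟩ := sp_exists_dual h.nd ξ
  obtain ⟨s, hs0, hsL, hsX⟩ := hp.exists_S
  refine ⟨u, a, m.symm x, m.symm s, mem_im.1 hx, e1, mem_im.1 hsX, by simpa using hs0,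
    (e2 _ (mem_im.1 hsX)).2 (by simpa using hsL), fun s hs hs' => ?_⟩
  obtain ⟨t, a1, a2, v, a3⟩ := h3 _ ((e2 s hs).1 hs')
  refine ⟨m⁻¹ * t * m, M.mul_mem (M.mul_mem (M.inv_mem hp.mem) a1) hp.mem, fun z hz => ?_,
    im (line F K u ⊔ line F K v) m⁻¹, ?_, ?_, fun z => ?_⟩
  · simp [a2 _ (apply_mem_im.2 hz), e3 z hz]
  · have b : ∀ w : V, finrank F (line F K w) ≤ finrank F K := fun w => by
      by_cases hw : w = 0
      · have : line F K w = ⊥ := eq_bot_iff.2 fun y hy => by
          obtain ⟨c, rfl⟩ := mem_line.1 hy; simp [hw]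
        rw [this]; simp
      · exact (finrank_line hw).le
    have := Submodule.finrank_add_le_finrank_add_finrank (line F K u) (line F K v)
    rw [finrank_im]
    have := b u; have := b v; omega
  · exact mem_im.2 (Submodule.mem_sup_left ((e2 s hs).1 hs'))
  · refine mem_im.2 ?_
    have e : m⁻¹.symm ((m⁻¹ * t * m) z - z) = t (m z) - m z := by
      change m (m.symm (t (m z)) - z) = _
      simp
    rw [e]; exact a3 _

theorem sS_of_big (hM : ∀ g ∈ M, g ∈ SG B) {u a s : V} (hu : β a u ≠ 0) (hs : s ∈ line F K u)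
    (hs0 : s ≠ 0) {t : V ≃ₗ[F] V} (ht : t ∈ M) (e : ∀ z ∈ line F K u, t z = z + B a z • s)
    {U : Submodule F V} (hU : finrank F U + 2 ≤ finrank K V) (hsU : s ∈ U)
    (hz : ∀ z, t z - z ∈ U) {y : V} (hy : y ∈ line F K u) : R M (sS B s y) := by
  have : FiniteDimensional F V := Module.Finite.trans K V
  have h1 : finrank K (Submodule.span K (U : Set V)) ≤ finrank F U := by
    let b := Module.finBasis F U
    have : Submodule.span K (U : Set V) ≤ Submodule.span K (Set.range fun i => (b i : V)) := by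
      refine Submodule.span_le.2 fun x hx => ?_
      have := congrArg (fun z : U => (z : V)) (b.sum_repr ⟨x, hx⟩)
      simp only [AddSubmonoidClass.coe_finsetSum, SetLike.val_smul] at this
      rw [← this]
      exact Submodule.sum_mem _ fun i _ => Submodule.smul_of_tower_mem _ _
        (Submodule.subset_span ⟨i, rfl⟩)
    refine (Submodule.finrank_mono this).trans ((finrank_range_le_card _).trans (by simp))
  obtain ⟨w, hw, hwu⟩ := exists_not_mem_of_finrank_lt (W := K ∙ u)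
    (U := β.orthogonal (Submodule.span K (U : Set V))) (by
      rw [LinearMap.BilinForm.finrank_orthogonal h.ndK]
      have := finrank_span_one_le (F := K) u
      omega)
  have hwU : ∀ z ∈ U, β w z = 0 := fun z hz => (mem_orth h.alt).1 hw z (Submodule.subset_span hz)
  have hwu0 : β w u = 0 := by
    obtain ⟨k, rfl⟩ := exists_smul_of_line hs hs0 (self_mem_line u)
    simp [hwU s hsU]
  have huw : β u w = 0 := h.alt.isRefl _ _ hwu0
  have hfix : ∀ k : K, t (k • w) = k • w := fun k => fix_of_orth h.nd (hM t ht) fun z => by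
    simp [h.eq, hwU _ (hz z)]
  have e1 : ∀ y, β w (t.symm y) = β w y := fun y => eq_of_tr h.ne fun k => by
    have := SG_symm (hM t ht) (k • w) y
    simpa [hfix, h.eq] using this
  have e2 : ∀ y, β u (t.symm y) = β u y + algebraMap F K (B s y) * β a u := fun y =>
    eq_of_tr h.ne fun k => by
      have := SG_symm (hM t ht) (k • u) y
      rw [e _ (smul_mem_line k u), map_add, LinearMap.add_apply, B.map_smul, h.eq, h.eq,
        h.eq a] at this
      simp only [map_smul, LinearMap.smul_apply, smul_eq_mul] at this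
      rw [this, mul_add, map_add, mul_left_comm, ← Algebra.smul_def, map_smul, smul_eq_mul,
        mul_comm (B s y)]
  have hsw : ∀ k : K, β s (k • w) = 0 := fun k => by
    simp [h.alt.isRefl _ _ (hwU s hsU)]
  have hN := h.ke hH huw
  have key : R M (sS B s (β a u • w)) := by
    refine ((hN.conj ht).sub hN (fun x => ?_) fun x => ?_).congr fun v => ?_
    · simp [kt_apply, h.alt.self_eq_zero, huw, hwu0]
    · simp [kt_apply, e1, e2, h.alt.self_eq_zero, huw, hwu0, h.eq s, hsw,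
        h.iso hs (smul_mem_line _ _)]
    · simp only [LinearMap.sub_apply, LinearMap.comp_apply, LinearEquiv.coe_coe,
        LinearMap.add_apply, kt_apply, map_add, e1, e2, hfix, e _ (smul_mem_line _ _), sS_apply]
      rw [h.eq a, h.eq (β a u • w)]
      simp only [map_smul, LinearMap.smul_apply, smul_eq_mul, add_smul, mul_smul, algebraMap_smul,
        mul_comm (β w v)]
      abel
  obtain ⟨k, rfl⟩ := mem_line.1 hy
  obtain ⟨φ, a1, a2⟩ := exists_dual_two hwu
  obtain ⟨z, rfl⟩ := sp_exists_dual h.ndK φ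
  have hz0 : β u ((k / β a u) • z) = 0 := by simp [h.alt.isRefl _ _ a1]
  obtain ⟨E, hE, eE⟩ := h.ke hH hz0
  have b1 : E s = s := by
    simp [eE, kt_apply, dual_line a1 hs, h.iso (self_mem_line u) hs]
  have b2 : E (β a u • w) = β a u • w + k • u := by
    simp only [eE, kt_apply, LinearMap.add_apply, map_smul, LinearMap.smul_apply, smul_eq_mul, a2,
      huw]
    field_simp
    simp
  have key2 : R M (sS B s (β a u • w + k • u)) := by
    simpa only [b1, b2] using sS_conj key hE (hM E hE)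
  have := sub_sym h.altB (c := 0) (c' := 0) (y := β a u • w + k • u) (y' := β a u • w)
    (by rw [map_add, h.isoB s hs _ hy, h.eq, hsw]; simp) (by rw [h.eq, hsw]; simp)
    (by simp [h.eq, h.alt.self_eq_zero, huw]) (by simpa using key2) (by simpa using key)
  simpa using this

theorem sp_ext (hM : ∀ g ∈ M, g ∈ SG B) (hr : (finrank F K).Prime) (hn : 2 ≤ finrank K V)
    (hex : (∃ l : F, l ≠ 0 ∧ l ≠ 1) ∨ 3 ≤ finrank F K ∨ 2 * finrank F K + 2 ≤ finrank K V)
    {g : V ≃ₗ[F] V} (hg : g ∈ M) (hgH : ¬ Semi K g) : SG B ≤ M := by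
  have : FiniteDimensional F V := Module.Finite.trans K V
  obtain ⟨u, a, x, s, hx, hax, hs, hs0, has, ht⟩ := h.exists_stab hH hr hn hg hgH
  have hau : β a u ≠ 0 := fun e => by
    rw [h.eq, dual_line e hx] at hax; simp at hax
  have hua : β u a ≠ 0 := fun e => hau (h.alt.isRefl _ _ e)
  have hsym : ∀ (c : K) x y, B (kt F (c • β u) u x) y = B (kt F (c • β u) u y) x := fun c x y => by
    simp only [kt_apply, h.eq, map_smul, LinearMap.smul_apply, smul_eq_mul]
    congr 1; ring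
  have hN : ∀ y ∈ line F K u, ∃ c : K, kt F (c • β u) u a = y := fun y hy => by
    obtain ⟨k, rfl⟩ := mem_line.1 hy
    exact ⟨k / β u a, by simp [kt_apply, hua]⟩
  have D : ∀ s ∈ line F K u, B a s = 0 → ∀ y ∈ line F K u,
      R M (sS B s y + B a y • (B s).smulRight s) := by
    intro s hs has y hy
    obtain ⟨c, rfl⟩ := hN y hy
    obtain ⟨t, h1, h2, -⟩ := ht s hs has
    exact conj_sym h.nd h.altB h.isoB (h.kz hH u c) (fun v => smul_mem_line _ _) (hsym c) h1
      (hM t h1) hs h2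
  have hP : SpP B M s := by
    by_cases hq : ∃ l : F, l ≠ 0 ∧ l ≠ 1
    · obtain ⟨l, hl0, hl1⟩ := hq
      obtain ⟨c, hc⟩ := hN x hx
      refine spP_of_two h.nd h.altB h.isoB (N := kt F (c • β u) u) (fun d => ?_)
        (fun v => smul_mem_line _ _) (hsym c) (by rw [hc, hax]; exact one_ne_zero) hs
        (fun d => ?_) hl0 hl1
      · exact (h.kz hH u (algebraMap F K d * c)).congr fun v => by simp [kt_apply, mul_smul]
      · obtain ⟨t, h1, h2, -⟩ := ht (d • s) (Submodule.smul_mem _ _ hs) (by simp [has])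
        exact ⟨t, h1, hM t h1, h2⟩
    have key : R M (sS B s x) := by
      rcases hex with hex | hex | hex
      · exact absurd hex hq
      · have hu : u ≠ 0 := by rintro rfl; simp at hau
        obtain ⟨k, -, hk0, e1, e2⟩ := exists_ne_zero_two_ker (U := (⊤ : Submodule F K))
          (by rwa [finrank_top]) (B a ∘ₗ (LinearMap.toSpanSingleton K V s).restrictScalars F)
          (B a ∘ₗ (LinearMap.toSpanSingleton K V x).restrictScalars F)
        have e1' : B a (k • s) = 0 := e1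
        have e2' : B a (k • x) = 0 := e2
        have h1 := D _ (line_smul hs k) e1' _ (line_smul hx k)
        rw [e2', zero_smul, add_zero] at h1
        obtain ⟨d, hd⟩ := witt_one h.ndK h.alt (smul_ne_zero hk0 hu) hu
        have hd' : ∀ y ∈ line F K u, d.1.restrictScalars F (k • y) = y := fun y hy => by
          obtain ⟨c, rfl⟩ := mem_line.1 hy
          rw [smul_comm, LinearEquiv.restrictScalars_apply, map_smul, hd]
        simpa only [hd' s hs, hd' x hx] using sS_conj h1 (hH _ d.2) (h.mem d.2)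
      · obtain ⟨t, h1, h2, U, h3, h4, h5⟩ := ht s hs has
        exact h.sS_of_big hH hM hau hs hs0 h1 h2 (by omega) h4 h5 hx
    have h1 := sub_sym h.altB (c' := 0) (h.isoB s hs x hx) (h.isoB s hs x hx)
      (h.altB.self_eq_zero x) (D s hs has x hx) (by simpa using key)
    refine spP_of_R h.altB fun c => ?_
    push Not at hq
    by_cases hc : c = 0
    · rw [hc, zero_smul]; exact R.zero
    · exact h1.congr fun v => by simp [hq c hc, hax, sS_apply]
  refine sp_le h.nd h.altB fun b => ?_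
  by_cases hb : b = 0
  · rw [hb]; exact SpP.zero
  obtain ⟨d, rfl⟩ := witt_one h.ndK h.alt hs0 hb
  exact hP.map (hH _ d.2) (h.mem d.2)

omit hH in
theorem exists_not_semi [Nontrivial V] (hr : 2 ≤ finrank F K) :
    2 ≤ finrank K V ∧ ∃ g, g ∈ SG B ∧ ¬ Semi K g := by
  obtain ⟨a, ha⟩ := exists_ne (0 : V)
  obtain ⟨y, hy⟩ := exists_one h.ndK h.alt.isRefl ha
  obtain ⟨c, hc0, hc⟩ := exists_ker_ne_zero hr τ
  obtain ⟨d, hd⟩ := exists_apply_one h.ne
  refine ⟨by simpa using (pair_linearIndependent h.alt (hy ▸ one_ne_zero)).fintype_card_le_finrank,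
    tv a ((1 : F) • B a) (by simp [h.altB.self_eq_zero]), tv_mem_SG h.altB a 1 _, fun e => ?_⟩
  obtain ⟨k, hk⟩ := e (d / c)
  have := congrArg (β (c • y)) (hk (c • y))
  simp [Max.tv_apply, h.eq, hy, hc, hc0, smul_smul, hd, h.alt.self_eq_zero,
    ← h.alt.neg_eq a y] at this

end SpTr

theorem exists_spTr [FiniteDimensional F K] [FiniteDimensional K V] {B : LinearMap.BilinForm F V}
    (hB : B.Nondegenerate) (h1 : ∀ (k : K) x y, B (k • x) y = B x (k • y))
    (h2 : ∀ (k : K) x, B (k • x) x = 0) : ∃ β : LinearMap.BilinForm K V, ∃ τ, SpTr B β τ := by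
  obtain ⟨τ, hτ⟩ := exists_dual_one (F := F) (one_ne_zero (α := K))
  have hτ0 : τ ≠ 0 := by rintro rfl; simp at hτ
  obtain ⟨β, hβ⟩ := exists_tr hτ0 B (RingHom.id K) h1
  exact ⟨β, τ, hβ, hτ0, hB, fun x => eq_zero_of_tr hτ0 fun k => by
    simpa [hβ] using h2 k x⟩

open Geo Asch Matrix Classical.SpMat in
theorem max_sp_ext [Finite F] {m r : ℕ} (hm : 1 ≤ m) (hr : r.Prime)
    (hex : Nat.card F = 2 → r = 2 → 6 ≤ m)
    {K : Subalgebra F (Matrix (Fin m ⊕ Fin m) (Fin m ⊕ Fin m) F)} (hK : IsFieldSubalgebra r K)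
    (hsa : IsSelfAdjointFor (sympForm m F) K)
    (halt : ∀ k ∈ K, ∀ v, sympForm m F (k *ᵥ v) v = 0) :
    IsMaximalIn (spGL m F) (subalgebraNormalizer K ⊓ spGL m F) := by
  have : Nonempty (Fin m) := ⟨⟨0, hm⟩⟩
  let := (isField_of hK.comm hK.inv).toField
  have : FiniteDimensional K (Fin m ⊕ Fin m → F) := Module.Finite.of_restrictScalars_finite F K _
  have hr' : (finrank F K).Prime := hK.finrank_eq ▸ hr
  rw [sympForm_eq'] at hsa halt
  obtain ⟨β, τ, h⟩ := exists_spTr (K := K) (sB_nondeg (ι := Fin m) (F := F))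
    (fun k => hsa k.1 k.2) fun k => halt k.1 k.2
  obtain ⟨hn, h1⟩ := h.exists_not_semi hr'.two_le
  refine isMaximalIn_Sp (Semi K) mem_normalizer_iff h1 fun M h1 hM ⟨g, hg, h2⟩ =>
    h.sp_ext (fun g hg => h1 _ (h.mem hg) (semi_restrict g)) hM hr' hn ?_ hg h2
  by_cases hq : Nat.card F = 2
  swap
  · exact Or.inl (exists_ne_zero_one hq)
  have e := Module.finrank_mul_finrank F K (Fin m ⊕ Fin m → F)
  rw [finrank_sp, hK.finrank_eq] at e
  rw [hK.finrank_eq]
  by_cases h2 : r = 2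
  · have := hex hq h2
    rw [h2] at e ⊢
    omega
  · have := hr.two_le
    omega

end Cfsg.Agent.Max2
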