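import Mathlib
import Cfsg.Agent.Max2.SpExt
import Cfsg.Agent.Herm.Embed

/-!
# Hermitian structures over a quadratic extension: isotropic lines
-/

set_option autoImplicit false

namespace Cfsg.Agent.Max2

open Module Cfsg.Agent.Max Cfsg.Agent.Herm

section Herm

variable {K V : Type*} [Field K] [AddCommGroup V] [Module K V] [FiniteDimensional K V]
  {σ : K →+* K} {h : V →ₛₗ[σ] V →ₗ[K] K} [Finite K]

theorem iso_ind (hh : HF h) (hn : 2 ≤ finrank K V) {P : V → Prop}
    (h1 : ∀ v, h v v = 0 → P v) (h2 : ∀ x y, P x → P y → P (x + y)) (x : V) : P x := by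
  obtain ⟨e, f, he, hf, hef⟩ := hh.exists_hyp_pair hn
  have key : ∀ x, h e x ≠ 0 → P x := fun x hx => by
    obtain ⟨a, ha⟩ := hh.exists_iso_sub he hx
    simpa using h2 _ _ (h1 _ ha) (h1 (a • e) (by simp [he]))
  by_cases hx : h e x = 0
  · simpa using h2 _ _ (key (x + f) (by simp [hx, hef])) (h1 (-f) (by simp [hf]))
  · exact key x hx

theorem exists_iso_ne (hh : HF h) (hn : 2 ≤ finrank K V) {x : V} (hx : x ≠ 0) :
    ∃ e, h e e = 0 ∧ h e x ≠ 0 := by
  by_contra hc
  push Not at hc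
  exact hx (hh.nd' x (iso_ind hh hn hc fun a b ha hb => by simp [ha, hb]))

theorem exists_perp_norm (hh : HF h) (hn : 3 ≤ finrank K V) {v w : V} (hv : h v v = 0)
    (hw : h w w = 0) (hvw : h v w ≠ 0) {c : K} (hc : σ c = c) :
    ∃ y, h v y = 0 ∧ h w y = 0 ∧ h y y = c := by
  have h1 : h ((h v w)⁻¹ • w) ((h v w)⁻¹ • w) = 0 := by simp [hw]
  have h2 : h v ((h v w)⁻¹ • w) = 1 := by simp [hvw]
  have h3 := hh.finrank_perp_hyp hv h1 h2
  have : Nontrivial (perp h (Submodule.span K {v, (h v w)⁻¹ • w})) :=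
    Module.nontrivial_of_finrank_pos (R := K) (by omega)
  obtain ⟨y, hy⟩ := (hh.res_perp_hyp hv h1 h2).exists_norm_eq hc
  obtain ⟨h4, h5⟩ := mem_perp_pair.1 y.2
  exact ⟨y, h4, by simpa [hvw] using h5, hy⟩

theorem exists_iso_dual (hh : HF h) (hn : 3 ≤ finrank K V) {x y : V} (hx : x ≠ 0)
    (hy : y ∉ K ∙ x) : ∃ u, h u u = 0 ∧ (h x u = 1 ∧ h y u = 0 ∨ h x u = 0 ∧ h y u = 1) := by
  obtain ⟨u, h1, h2⟩ := hh.exists_orth_one _ (not_mem_span_symm hy hx)
  obtain ⟨w, h3, h4⟩ := hh.exists_orth_one _ hy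
  replace h1 := hh.zero_symm (h1 y (Submodule.mem_span_singleton_self y))
  replace h3 := hh.zero_symm (h3 x (Submodule.mem_span_singleton_self x))
  replace h2 := hh.one_symm h2
  replace h4 := hh.one_symm h4
  by_cases hD : ∃ z, h x z = 0 ∧ h y z = 0 ∧ h z z ≠ 0
  · obtain ⟨z, a1, a2, a3⟩ := hD
    set u' := u - (h z u / h z z) • z
    have a4 : h z u' = 0 := by simp [u', a3]
    obtain ⟨a, ha⟩ := hh.exists_smul_norm a3 (c := - h u' u') (by rw [map_neg, hh.fix])
    refine ⟨u' + a • z, ?_, Or.inl ⟨by simp [u', a1, h2], by simp [u', a2, h1]⟩⟩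
    rw [map_add, b_add_left, b_add_left, ha]
    simp [a4, hh.zero_symm a4]
  push Not at hD
  obtain ⟨z, hz, hz0⟩ := Submodule.exists_mem_ne_zero_of_ne_bot
    (p := perp h (Submodule.span K {x, y})) fun e => by
      have := hh.finrank_perp_add (Submodule.span K {x, y})
      have := finrank_span_pair_le (F := K) x y
      rw [e, finrank_bot] at *
      omega
  obtain ⟨a1, a2⟩ := mem_perp_pair.1 hz
  by_cases b1 : h z u ≠ 0
  · obtain ⟨a, ha⟩ := hh.exists_iso_sub (hD z a1 a2) b1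
    exact ⟨_, ha, Or.inl ⟨by simp [a1, h2], by simp [a2, h1]⟩⟩
  by_cases b2 : h z w ≠ 0
  · obtain ⟨a, ha⟩ := hh.exists_iso_sub (hD z a1 a2) b2
    exact ⟨_, ha, Or.inr ⟨by simp [a1, h3], by simp [a2, h4]⟩⟩
  push Not at b1 b2
  refine absurd (hh.nd z fun v => ?_) hz0
  have := hh.iso_of_self (W := perp h (Submodule.span K {x, y}))
    (fun w hw => hD w (mem_perp_pair.1 hw).1 (mem_perp_pair.1 hw).2) z hz
    (v - h x v • u - h y v • w) (mem_perp_pair.2 ⟨by simp [h2, h3], by simp [h1, h4]⟩)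
  simpa [b1, b2] using this

end Herm

variable {F K V : Type*} [Field F] [Field K] [Algebra F K] [AddCommGroup V] [Module F V]
  [Module K V] [IsScalarTower F K V] {M : Subgroup (V ≃ₗ[F] V)}

theorem im_line_eq [FiniteDimensional F V] {g : V ≃ₗ[F] V} {v : V} (hv : v ≠ 0)
    (h : ∀ k : K, ∃ k' : K, g (k • v) = k' • g v) : im (line F K v) g = line F K (g v) := by
  refine Submodule.eq_of_le_of_finrank_eq ?_ ?_
  · rintro _ ⟨x, hx, rfl⟩
    obtain ⟨k, rfl⟩ := mem_line.1 hx
    obtain ⟨k', hk⟩ := h k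
    exact mem_line.2 ⟨k', hk.symm⟩
  · rw [finrank_im, finrank_line hv, finrank_line (by simpa using hv)]

theorem coef_eq [FiniteDimensional F V] {g : V ≃ₗ[F] V} {v w : V} (hv : v ≠ 0)
    (h : ∀ k : K, ∃ k' : K, g (k • v) = k' • g v) (hw : w ∉ line F K v) {k a b c : K}
    (ha : g (k • v) = a • g v) (hb : g (k • w) = b • g w) (e : g (k • (v + w)) = c • g (v + w)) :
    a = b := by
  rw [smul_add, map_add, map_add, ha, hb, smul_add] at e
  have e2 : (b - c) • g w = (c - a) • g v := by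
    rw [sub_smul, sub_smul, sub_eq_sub_iff_add_eq_add, add_comm (b • g w), e]
  have e3 : b - c = 0 := by
    by_contra h0
    apply hw
    rw [← apply_mem_im (g := g), im_line_eq hv h]
    exact mem_line.2 ⟨(b - c)⁻¹ * (c - a), by
      rw [mul_smul, ← e2, smul_smul, inv_mul_cancel₀ h0, one_smul]⟩
  rw [e3, zero_smul, eq_comm, smul_eq_zero] at e2
  rcases e2 with e2 | e2
  · rw [sub_eq_zero] at e2 e3; rw [← e2, e3]
  · exact absurd (by simpa using e2) hv

variable {σ : K →+* K} {h : V →ₛₗ[σ] V →ₗ[K] K}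

theorem h_line {u v w : V} (e : h w u = 0) (hv : v ∈ line F K u) : h w v = 0 := dual_line e hv

theorem semi_of_iso [Finite K] [FiniteDimensional F K] [FiniteDimensional K V] (hh : HF h)
    (hn : 3 ≤ finrank K V) {g : V ≃ₗ[F] V}
    (hg : ∀ v, h v v = 0 → ∀ k : K, ∃ k' : K, g (k • v) = k' • g v) : Semi K g := by
  have : FiniteDimensional F V := Module.Finite.trans K V
  intro k
  choose! c hc using fun v hv => hg v hv k
  have edge : ∀ v w, v ≠ 0 → h v v = 0 → h w w = 0 → w ∉ line F K v → h v w + σ (h v w) = 0 →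
      c v = c w := fun v w h0 hv hw h1 h2 =>
    coef_eq h0 (hg v hv) h1 (hc v hv) (hc w hw) (hc _ (by
      rw [hh.symm] at h2
      simp only [map_add, LinearMap.add_apply, hv, hw]
      linear_combination h2))
  have opp : ∀ v w, h v v = 0 → h w w = 0 → h v w ≠ 0 → c v = c w := fun v w hv hw h1 => by
    obtain ⟨d, hd0, hd⟩ := hh.exists_skew
    have h2 : h w v ≠ 0 := fun e => h1 (hh.zero_symm e)
    obtain ⟨y, a1, a2, a3⟩ := exists_perp_norm hh hn hv hw h1
      (c := -(σ (d / h w v) * d + d / h w v * σ d)) (by simp [hh.invol]; ring)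
    set z := (d / h w v) • v + (d / h v w) • w + y
    have b1 : h v z = d := by simp [z, hv, a1, h1]
    have b2 : h w z = d := by simp [z, hw, a2, h2]
    have b3 : h z z = 0 := by
      have b4 : h y z = h y y := by simp [z, hh.zero_symm a1, hh.zero_symm a2]
      change h ((d / h w v) • v + (d / h v w) • w + y) z = 0
      rw [b_add_left, b_add_left, b_smul_left, b_smul_left, b1, b2, b4, a3, map_div₀ σ d (h v w),
        hh.symm]
      ring
    rw [edge v z (ne_zero_of_b h1) hv b3 (fun e => hd0 (b1 ▸ h_line hv e)) (by rwa [b1]),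
      edge w z (ne_zero_of_b h2) hw b3 (fun e => hd0 (b2 ▸ h_line hw e)) (by rwa [b2])]
  obtain ⟨e, he0, he⟩ := hh.exists_isotropic (V := V) (by omega)
  refine ⟨c e, iso_ind hh (by omega) (fun v hv => ?_) fun x y hx hy => by
    rw [smul_add, map_add, hx, hy, map_add, smul_add]⟩
  by_cases h0 : v = 0
  · simp [h0]
  rw [hc v hv]
  congr 1
  by_cases h1 : h v e = 0
  swap
  · exact opp v e hv he h1
  by_cases h2 : e ∈ line F K v
  swap
  · exact edge v e h0 hv he h2 (by simp [h1])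
  obtain ⟨f, hf1, hf⟩ := hh.exists_hyp h0 hv
  obtain ⟨a, rfl⟩ := mem_line.1 h2
  rw [opp v f hv hf (by simp [hf1]), opp _ f he hf (by
    simpa [hf1] using left_ne_zero_of_smul he0)]

/-- In degree two, a proper pair is spanned by two vectors. -/
theorem Pair.two [FiniteDimensional F V] (hr : finrank F K = 2) {u : V} (hu : u ≠ 0)
    {m : V ≃ₗ[F] V} (hp : Pair M (line F K u) m) : ∃ s x, s ≠ 0 ∧ s ∈ line F K u ∧
      s ∈ im (line F K u) m ∧ x ∈ im (line F K u) m ∧ x ∉ line F K u ∧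
      ∀ z ∈ im (line F K u) m, ∃ a b : F, a • s + b • x = z := by
  obtain ⟨s, h1, h2, h3⟩ := hp.exists_S
  obtain ⟨x, h4, h5⟩ := hp.exists_X
  refine ⟨s, x, h1, h2, h3, h4, h5, fun z hz => Submodule.mem_span_pair.1 ?_⟩
  have hli : LinearIndependent F ![s, x] := by
    rw [LinearIndependent.pair_iff' h1]
    exact fun a e => h5 (e ▸ Submodule.smul_mem _ a h2)
  have : Submodule.span F {s, x} = im (line F K u) m := by
    refine Submodule.eq_of_le_of_finrank_eq (Submodule.span_le.2 ?_) ?_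
    · rintro _ (rfl | rfl)
      exacts [h3, h4]
    · have := finrank_span_eq_card hli
      rw [finrank_im, finrank_line hu, hr]
      rwa [Matrix.range_cons, Matrix.range_cons, Matrix.range_empty, Set.union_empty,
        Set.singleton_union] at this
  rwa [this]

/-- `B` is the trace of the Hermitian `K`-form `h`. -/
structure UTr (B : LinearMap.BilinForm F V) (h : V →ₛₗ[σ] V →ₗ[K] K) (τ : Dual F K) :
    Prop where
  fx : IsFix F σ
  hf : HF h
  eq : ∀ x y, B x y = τ (h x y)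
  ne : τ ≠ 0

theorem exists_uTr [FiniteDimensional F K] [FiniteDimensional K V] [Nontrivial V]
    (hr : finrank F K = 2) {B : LinearMap.BilinForm F V} (hB : B.Nondegenerate) {ε : F}
    (hε : ε = 1 ∨ ε = -1) (hs : ∀ x y, B y x = ε * B x y)
    (h1 : ∀ k : K, ∃ k' : K, ∀ x y, B (k • x) y = B x (k' • y))
    (h2 : ¬ ∀ (k : K) x y, B (k • x) y = B x (k • y)) :
    ∃ (σ : K →+* K) (h : V →ₛₗ[σ] V →ₗ[K] K) (τ : Dual F K), UTr B h τ ∧
      ∀ k, τ (σ k) = ε * τ k := by
  choose s hs' using h1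
  obtain ⟨v, hv⟩ := exists_ne (0 : V)
  have u : ∀ {a b : K}, (∀ x y, B x (a • y) = B x (b • y)) → a = b := fun {a b} e =>
    smul_left_injective K hv (sub_eq_zero.1 (hB.2 _ fun x => by rw [map_sub, e, sub_self]))
  let σ : K →+* K :=
    { toFun := s
      map_one' := u fun x y => by rw [← hs', one_smul, one_smul]
      map_mul' := fun a b => u fun x y => by rw [← hs', mul_smul, hs', hs', smul_smul, mul_comm]
      map_zero' := u fun x y => by rw [← hs']; simp
      map_add' := fun a b => u fun x y => by rw [← hs', add_smul, add_smul]; simp [hs'] }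
  have hσ : ∀ k x y, B (k • x) y = B x (σ k • y) := hs'
  have e2 : ε * ε = 1 := by rcases hε with rfl | rfl <;> simp
  have hi : Inv σ := ⟨fun a => u fun x y => by
    rw [← hσ, hs, ← hσ, hs, ← mul_assoc, e2, one_mul], by
    by_contra hc
    push Not at hc
    exact h2 fun k x y => by rw [hσ, hc]⟩
  have ha : ∀ c : F, σ (algebraMap F K c) = algebraMap F K c := fun c => u fun x y => by
    rw [← hσ]; simp
  let σ' : K →ₗ[F] K :=
    { toFun := σ
      map_add' := map_add σ
      map_smul' := fun c k => by simp [Algebra.smul_def, ha] }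
  have hfx : IsFix F σ := ⟨hi, fun x => ⟨fun e => ?_, by rintro ⟨c, rfl⟩; exact ha c⟩⟩
  swap
  · obtain ⟨t, ht⟩ := hi.ne
    have b1 : LinearMap.ker (σ' - LinearMap.id) < ⊤ := lt_top_iff_ne_top.2 fun e' => ht (by
      have : t ∈ LinearMap.ker (σ' - LinearMap.id) := e' ▸ trivial
      exact sub_eq_zero.1 this)
    have b2 := Submodule.finrank_lt_finrank_of_lt b1
    have b3 : (F ∙ (1 : K)) = LinearMap.ker (σ' - LinearMap.id) :=
      Submodule.eq_of_le_of_finrank_le ((Submodule.span_singleton_le_iff_mem _ _).2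
        (sub_eq_zero.2 (map_one σ))) (by
          rw [finrank_span_singleton one_ne_zero]; rw [finrank_top] at b2; omega)
    have : x ∈ F ∙ (1 : K) := b3 ▸ sub_eq_zero.2 e
    obtain ⟨c, rfl⟩ := Submodule.mem_span_singleton.1 this
    exact ⟨c, Algebra.algebraMap_eq_smul_one c⟩
  obtain ⟨a, ha0⟩ : ∃ a : K, a + ε • σ a ≠ 0 := by
    rcases hε with rfl | rfl
    · obtain ⟨a, ha⟩ := hi.exists_trace_one
      exact ⟨a, by simp [ha]⟩
    · obtain ⟨a, ha⟩ := hi.ne
      exact ⟨a, by simpa [add_neg_eq_zero] using ha.symm⟩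
  obtain ⟨τ₀, hτ₀⟩ := exists_dual_one (F := F) ha0
  set τ : Dual F K := τ₀ + ε • τ₀ ∘ₗ σ'
  have hτ : ∀ k, τ k = τ₀ k + ε * τ₀ (σ k) := fun k => rfl
  have hτ0 : τ ≠ 0 := fun e => by
    have := hτ a
    rw [e, ← smul_eq_mul, ← map_smul, ← map_add, hτ₀] at this
    exact zero_ne_one this
  have hτσ : ∀ k, τ (σ k) = ε * τ k := fun k => by
    rw [hτ, hτ, hi.invol, mul_add, ← mul_assoc, e2, one_mul, add_comm]
  obtain ⟨β, hβ⟩ := exists_tr hτ0 B σ hσ
  refine ⟨σ, β, τ, ⟨hfx, ⟨hi, fun x y => eq_of_tr hτ0 fun k => ?_,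
    fun x hx => hB.1 x fun y => by rw [hβ, hx, map_zero]⟩, hβ, hτ0⟩, hτσ⟩
  rw [← b_smul_right, ← hβ, hs, hβ, b_smul_left, ← hτσ, map_mul σ, hi.invol]

end Cfsg.Agent.Max2
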