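import Mathlib
import Cfsg.Agent.Max2.UExt

/-!
# Maximality of `GU_m(q).2` in `Sp_{2m}(q)`, `q` odd, `m ≥ 3`
-/

set_option autoImplicit false

namespace Cfsg.Agent.Max2

open Module Cfsg.Agent.Max Cfsg.Agent.Herm Classical.SpWitt

variable {F K V : Type*} [Field F] [Field K] [Algebra F K] [AddCommGroup V] [Module F V]
  [Module K V] [IsScalarTower F K V] {M : Subgroup (V ≃ₗ[F] V)} {σ : K →+* K}
  {h : V →ₛₗ[σ] V →ₗ[K] K} {B : LinearMap.BilinForm F V} {τ : Dual F K}

namespace UTr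

variable (H : UTr B h τ)
include H

theorem h_eq_zero {u y : V} (e : ∀ k : K, B (k • u) y = 0) : h u y = 0 :=
  eq_zero_of_tr H.ne fun k => by
    have := e (σ k)
    rwa [H.eq, b_smul_left, H.fx.invol] at this

omit [IsScalarTower F K V] in
theorem nd : B.Nondegenerate :=
  ⟨fun x hx => H.hf.nd x fun y => eq_zero_of_tr H.ne fun k => by
      rw [← b_smul_right, ← H.eq, hx],
    fun x hx => H.hf.nd' x fun y => eq_zero_of_tr H.ne fun k => by
      have := hx (σ k • y)
      rwa [H.eq, b_smul_left, H.fx.invol] at this⟩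

theorem mem (g : UG h) : g.1.restrictScalars F ∈ SG B := fun x y => by
  simp only [LinearEquiv.restrictScalars_apply, H.eq, UG.map_b]

theorem iso {u x y : V} (hu : h u u = 0) (hx : x ∈ line F K u) (hy : y ∈ line F K u) :
    h x y = 0 := by
  obtain ⟨a, rfl⟩ := mem_line.1 hx
  obtain ⟨b, rfl⟩ := mem_line.1 hy
  simp [hu]

theorem isoB {u : V} (hu : h u u = 0) : ∀ x ∈ line F K u, ∀ y ∈ line F K u, B x y = 0 :=
  fun x hx y hy => by rw [H.eq, H.iso hu hx hy, map_zero]

theorem smul_left (c : F) (x y : V) : h (c • x) y = algebraMap F K c * h x y := by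
  rw [H.fx.b_smul_left, Algebra.smul_def]

theorem smul_right (c : F) (x y : V) : h x (c • y) = algebraMap F K c * h x y := by
  rw [b_smul_right', Algebra.smul_def]

variable (hs : ∀ k, τ (σ k) = -1 * τ k) (h2 : (2 : F) ≠ 0)
include hs h2

omit [IsScalarTower F K V] in
theorem tr_fix {k : K} (e : σ k = k) : τ k = 0 := by
  have := hs k
  rw [e] at this
  exact (mul_eq_zero.1 (show 2 * τ k = 0 by linear_combination this)).resolve_left h2

omit [IsScalarTower F K V] in
theorem tr_skew {d : K} (hd0 : d ≠ 0) (hd : d + σ d = 0) : τ d ≠ 0 := fun e => by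
  refine H.ne (LinearMap.ext fun a => ?_)
  obtain ⟨c, hc⟩ := (H.fx.fix_iff ((a - σ a) / d)).1 (by
    rw [map_div₀, map_sub, H.fx.invol, eq_neg_of_add_eq_zero_right hd]; field_simp; ring)
  have e1 : a - σ a = c • d := by rw [Algebra.smul_def, hc]; field_simp
  have e2 := congrArg τ e1
  rw [map_sub, hs, map_smul, e] at e2
  exact (mul_eq_zero.1 (show 2 * τ a = 0 by simpa [two_mul] using e2)).resolve_left h2

omit [IsScalarTower F K V] in
theorem fix_of_tr {k : K} (e : τ k = 0) : σ k = k := by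
  by_contra hn
  refine H.tr_skew hs h2 (d := k - σ k) (sub_ne_zero.2 (Ne.symm hn))
    (by rw [map_sub, H.fx.invol]; ring) ?_
  rw [map_sub, hs, e]; simp

omit [IsScalarTower F K V] in
theorem alt : B.IsAlt := fun x => by rw [H.eq, H.tr_fix hs h2 (H.hf.fix x)]

omit H hs [IsScalarTower F K V] in
theorem two_ne : (2 : K) ≠ 0 := fun e => h2 ((algebraMap F K).injective (by
  rw [map_ofNat, e, map_zero]))

variable [Finite K] [FiniteDimensional F K] [FiniteDimensional K V]
  (hH : ∀ g : UG h, g.1.restrictScalars F ∈ M)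
include hH

omit [FiniteDimensional F K] in
theorem sp_finish [FiniteDimensional F V] (hn : 2 ≤ finrank K V) {z : V} (hz0 : z ≠ 0)
    (hz : h z z = 0) (hP : SpP B M z) : SG B ≤ M := by
  have k1 : ∀ b, h b b = 0 → SpP B M b := fun b hb => by
    by_cases h0 : b = 0
    · rw [h0]; exact SpP.zero
    obtain ⟨g, rfl⟩ := H.hf.witt_one hz0 h0 (hz.trans hb.symm)
    exact hP.map (hH g) (H.mem g)
  refine sp_le H.nd (H.alt hs h2) fun x => ?_
  by_cases h0 : x = 0
  · rw [h0]; exact SpP.zero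
  obtain ⟨e, he, hex⟩ := exists_iso_ne H.hf hn h0
  obtain ⟨d, hd0, hd⟩ := H.fx.exists_skew
  have h2' := two_ne (K := K) h2
  set a := σ ((h x x / 2 + d) / h e x)
  have e1 : h (a • e) x = h x x / 2 + d := by
    rw [b_smul_left, H.fx.invol]; field_simp
  have e2 : h x (a • e) = h x x / 2 - d := by
    rw [← H.hf.symm, e1, map_add, map_div₀, H.hf.fix, map_ofNat, eq_neg_of_add_eq_zero_right hd]
    ring
  have e3 : h (a • e) (a • e) = 0 := by simp [he]
  have := (k1 (x - a • e) (by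
    rw [map_sub, b_sub_left, b_sub_left, e1, e2, e3]; field_simp; ring)).add (H.alt hs h2)
    (k1 _ e3) (by
      rw [H.eq, map_sub, e1, e3, sub_zero, map_add, H.tr_fix hs h2 (k := h x x / 2)
        (by rw [map_div₀, H.hf.fix, map_ofNat]), zero_add]
      exact H.tr_skew hs h2 hd0 hd)
  simpa using this

theorem sp_pair (hM : ∀ g ∈ M, g ∈ SG B) (hn : 3 ≤ finrank K V) {g : V ≃ₗ[F] V} (hg : g ∈ M)
    (hgH : ¬ Semi K g) : ∃ u m, u ≠ 0 ∧ h u u = 0 ∧ Pair M (line F K u) m := by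
  have : FiniteDimensional F V := Module.Finite.trans K V
  obtain ⟨v, hv, k, hk⟩ : ∃ v, h v v = 0 ∧ ∃ k : K, g (k • v) ∉ line F K (g v) := by
    by_contra hc
    push Not at hc
    exact hgH (semi_of_iso H.hf hn fun v hv k => by
      obtain ⟨k', hk'⟩ := mem_line.1 (hc v hv k); exact ⟨k', hk'.symm⟩)
  have hv0 : v ≠ 0 := by rintro rfl; simp at hk
  obtain ⟨u, hu, hxu⟩ := exists_iso_dual H.hf hn (x := g v) (by simpa using hv0) hk
  have hu0 : u ≠ 0 := by rintro rfl; simp at hxu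
  have hk0 : σ k ≠ k := fun e => by
    obtain ⟨c, rfl⟩ := (H.fx.fix_iff k).1 e
    exact hk (by rw [algebraMap_smul, map_smul]; exact Submodule.smul_mem _ _ (self_mem_line _))
  have t1 : τ 1 = 0 := H.tr_fix hs h2 (map_one σ)
  have a0 : h v (g.symm u) = 0 := by
    have b1 : τ (h v (g.symm u)) = 0 := by
      rw [← H.eq, SG_symm (hM g hg), H.eq]; rcases hxu with ⟨e, -⟩ | ⟨e, -⟩ <;> simp [e, t1]
    have b2 : τ (σ k * h v (g.symm u)) = 0 := by
      rw [← b_smul_left, ← H.eq, SG_symm (hM g hg), H.eq]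
      rcases hxu with ⟨-, e⟩ | ⟨-, e⟩ <;> simp [e, t1]
    have b3 := H.fix_of_tr hs h2 b2
    rw [map_mul, H.fix_of_tr hs h2 b1, H.fx.invol] at b3
    by_contra hc
    exact hk0 (mul_right_cancel₀ hc b3).symm
  obtain ⟨d, hd0, hd⟩ := H.fx.exists_skew
  have a1 : h v (g.symm (d • u)) ≠ 0 := fun e => H.tr_skew hs h2 hd0 hd (by
    rcases hxu with ⟨e1, -⟩ | ⟨-, e1⟩
    · have := SG_symm (hM g hg) v (d • u)
      rw [H.eq, H.eq, e, b_smul_right, e1] at this
      simpa using this.symm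
    · have := SG_symm (hM g hg) (k • v) (d • u)
      rw [H.eq, H.eq, b_smul_left, e, b_smul_right, e1] at this
      simpa using this.symm)
  set t := g * (H.hf.qr v d).1.restrictScalars F * g⁻¹
  have ht : ∀ y, t y = y + g ((d * h v (g.symm y)) • v) := fun y => by
    simp [t, H.hf.tv_apply hv hd]
  have htM : t ∈ M := M.mul_mem (M.mul_mem hg (hH _)) (M.inv_mem hg)
  by_cases hL : im (line F K u) t = line F K u
  swap
  · obtain ⟨m, hm⟩ := exists_pair htM hL fun e => hu0 (by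
      rw [← Submodule.mem_bot F, ← e]
      refine ⟨self_mem_line u, ?_⟩
      have : t u ∈ im (line F K u) t := apply_mem_im.2 (self_mem_line u)
      rwa [ht, a0, mul_zero, zero_smul, map_zero, add_zero] at this)
    exact ⟨u, m, hu0, hu, hm⟩
  have a2 : g ((d * h v (g.symm (d • u))) • v) ∈ line F K u := by
    have : t (d • u) ∈ im (line F K u) t := apply_mem_im.2 (smul_mem_line d u)
    rw [hL, ht] at this
    exact (Submodule.add_mem_iff_right _ (smul_mem_line d u)).1 this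
  obtain ⟨r, hr⟩ := H.hf.witt_one hu0 hv0 (hu.trans hv.symm)
  have a3 : ∀ c : K, g (c • v) ∈ im (line F K u) (g * r.1.restrictScalars F) := fun c => by
    have : g (c • v) = (g * r.1.restrictScalars F) (c • u) := by simp [hr]
    rw [this]; exact apply_mem_im.2 (smul_mem_line c u)
  obtain ⟨m, hm⟩ := exists_pair (M.mul_mem hg (hH r)) (L := line F K u) (fun e => by
    have b1 := a3 1
    have b2 := a3 k
    rw [e] at b1 b2
    rw [one_smul] at b1
    obtain ⟨c, hc⟩ := exists_smul_of_line b1 (by simpa using hv0) b2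
    exact hk (mem_line.2 ⟨c, hc⟩)) fun e => by
      have : g ((d * h v (g.symm (d • u))) • v) ∈ (⊥ : Submodule F V) := e ▸ ⟨a2, a3 _⟩
      simp [hd0, a1, hv0] at this
  exact ⟨u, m, hu0, hu, hm⟩

omit [Finite K] in
theorem sp_tv (hM : ∀ g ∈ M, g ∈ SG B) {u : V} (hu : h u u = 0) {a s : V} (hs0 : s ∈ line F K u)
    (hau : h u a ≠ 0) (ht : ∀ c : F, ∃ t ∈ M, ∀ z ∈ line F K u, t z = z + B a z • c • s) :
    SpP B M s := by
  obtain ⟨d, hd0, hd⟩ := H.fx.exists_skew
  refine spP_of_two H.nd (H.alt hs h2) (H.isoB hu) (N := kt F (d • h u) u) (a := a) (fun c => ?_)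
    (fun v => smul_mem_line _ _) (fun x y => ?_) ?_ hs0 (fun c => ?_) (l := -1) (by simp)
    (fun e => h2 (by linear_combination -e))
  · refine ⟨_, hH (H.hf.qr u (algebraMap F K c * d)), fun x => ?_⟩
    rw [LinearEquiv.restrictScalars_apply, H.hf.tv_apply hu (by
      rw [map_mul, H.fx.map_alg, ← mul_add, hd, mul_zero])]
    simp [kt_apply, mul_smul]
  · simp only [kt_apply, H.eq, b_smul_left, LinearMap.smul_apply, smul_eq_mul, map_mul]
    have := hs (σ d * σ (h u y) * h u x)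
    simp only [map_mul, H.fx.invol] at this
    rw [eq_neg_of_add_eq_zero_right hd] at this ⊢
    simp only [neg_mul, map_neg, one_mul, neg_neg] at this ⊢
    rw [← this]; congr 2; ring
  · rw [H.eq, kt_apply, b_smul_right]
    refine H.tr_skew hs h2 (by
      simp [hd0, hau, H.hf.zero_iff (x := a)]) ?_
    simp only [LinearMap.smul_apply, smul_eq_mul, map_mul, H.hf.symm,
      eq_neg_of_add_eq_zero_right hd]
    ring
  · obtain ⟨t, h1, h3⟩ := ht c
    exact ⟨t, h1, hM t h1, h3⟩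

omit [FiniteDimensional F K] in
theorem sp_refl [FiniteDimensional F V] (hM : ∀ g ∈ M, g ∈ SG B) (hn : 3 ≤ finrank K V) {u : V}
    (hu0 : u ≠ 0) (hu : h u u = 0) {ρ : V ≃ₗ[F] V} (hρ : ρ ∈ M) {z : V} (hz : z ∈ line F K u)
    {f : Dual F V} (hf : f z = -2) (e : ∀ y, h u y = 0 → ρ y = y + f y • z) : SpP B M z := by
  have huz : h u z = 0 := h_line hu hz
  have e' : ∀ y, h u y = 0 → ρ.symm y = y + f y • z := fun y hy => by
    rw [LinearEquiv.symm_apply_eq, e _ (by simp [hy, huz, H.smul_right]), map_add, map_smul, hf]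
    simp only [smul_eq_mul]
    module
  obtain ⟨b, rfl⟩ := sp_exists_dual H.nd f
  have hbu : h b u ≠ 0 := fun e => h2 (by
    rw [H.eq, h_line e hz, map_zero] at hf; linear_combination hf)
  have hL : ∀ {y}, (∀ x ∈ line F K u, B x y = 0) → h u y = 0 := fun hy =>
    H.h_eq_zero fun k => hy _ (smul_mem_line k u)
  have key : ∀ a, h u a = 0 → ∃ g ∈ M, (∀ x ∈ line F K u, g x = x) ∧
      ∀ y, (∀ x ∈ line F K u, B x y = 0) → g y = y + B a y • z := by
    intro a ha
    obtain ⟨l, hl⟩ := H.fx.exists_trace (H.hf.fix ((σ (h b u))⁻¹ • a))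
    have ha' : h u ((σ (h b u))⁻¹ • a) = 0 := by simp [ha]
    set E := (H.hf.eich u ((σ (h b u))⁻¹ • a) l).1.restrictScalars F
    have hE : ∀ y, h u y = 0 → E y = y + (h a y / h b u) • u := fun y hy => by
      simp [E, H.hf.eich_apply hu ha' hl, hy, H.fx.invol, div_eq_inv_mul]
    have hE' : ∀ y, h u y = 0 → E.symm y = y - (h a y / h b u) • u := fun y hy => by
      rw [LinearEquiv.symm_apply_eq, hE _ (by simp [hy, hu])]
      simp [H.hf.zero_symm ha]
    have haz : h a z = 0 := h_line (H.hf.zero_symm ha) hz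
    have main : ∀ y, h u y = 0 → (ρ * E * ρ⁻¹ * E⁻¹) y = y + B a y • z := fun y hy => by
      simp only [LinearEquiv.mul_apply, LinearEquiv.coe_inv]
      set w := y - (h a y / h b u) • u
      have hw : h u w = 0 := by simp [w, hy, hu]
      have hw' : h a w = h a y := by simp [w, H.hf.zero_symm ha]
      have hw2 : h a (ρ.symm w) = h a y := by rw [e' w hw]; simp [hw', haz, H.smul_right]
      rw [hE' y hy, hE _ (by rw [e' w hw]; simp [hw, huz, H.smul_right]), map_add ρ,
        LinearEquiv.apply_symm_apply, hw2, e _ (by simp [hu]), H.eq b, H.eq a]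
      simp [hbu, w, ← add_assoc]
    refine ⟨_, M.mul_mem (M.mul_mem (M.mul_mem hρ (hH _)) (M.inv_mem hρ)) (M.inv_mem (hH _)),
      fun x hx => ?_, fun y hy => main y (hL hy)⟩
    rw [main x (h_line hu hx), H.eq, h_line (H.hf.zero_symm ha) hx]; simp
  obtain ⟨f, hf1, hf⟩ := H.hf.exists_hyp hu0 hu
  obtain ⟨a, a1, -, a3⟩ := exists_perp_norm H.hf hn hu hf (by simp [hf1]) (map_one σ)
  obtain ⟨k, hk⟩ := exists_apply_one H.ne
  refine spP_of_R (H.alt hs h2) fun c => ?_
  have a4 : h u ((c / 2) • k • a) = 0 := by simp [H.smul_right, a1]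
  obtain ⟨g, b1, b2, b3⟩ := key a a1
  obtain ⟨g', b1', b2', b3'⟩ := key _ a4
  have := heis (H.alt hs h2) hz b1 (hM g b1) b1' (hM g' b1') (a := a) (a' := (c / 2) • k • a)
    (fun x hx => by rw [H.eq, H.hf.zero_symm (h_line (H.hf.zero_symm a1) hx), map_zero])
    (fun x hx => by rw [H.eq, H.hf.zero_symm (h_line (H.hf.zero_symm a4) hx), map_zero])
    b2 b2' b3 b3'
  rwa [map_smul, H.eq, b_smul_right, a3, mul_one, hk, smul_eq_mul, mul_one,
    mul_div_cancel₀ _ h2] at this

theorem sp_u (hM : ∀ g ∈ M, g ∈ SG B) (hn : 3 ≤ finrank K V) {g : V ≃ₗ[F] V} (hg : g ∈ M)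
    (hgH : ¬ Semi K g) : SG B ≤ M := by
  have : FiniteDimensional F V := Module.Finite.trans K V
  obtain ⟨u, m, hu0, hu, hp⟩ := H.sp_pair hs h2 hH hM hn hg hgH
  obtain ⟨s, x, hs0, hsL, hsX, hx, hxL, hX⟩ := hp.two H.fx.finrank_eq hu0
  have hm := hM m hp.mem
  have isoX : ∀ y ∈ im (line F K u) m, ∀ z ∈ im (line F K u) m, B y z = 0 := fun y hy z hz => by
    have := H.isoB hu _ (mem_im.1 hy) _ (mem_im.1 hz)
    rwa [SG_symm hm, LinearEquiv.apply_symm_apply] at this
  have hss : h s s = 0 := H.iso hu hsL hsL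
  by_cases h1 : h s x = 0
  · obtain ⟨ξ, hξL, hξx⟩ := exists_dual _ hxL
    obtain ⟨a, ha⟩ := sp_exists_dual H.nd (ξ ∘ₗ (m : V →ₗ[F] V))
    have ha' : ∀ z, B a z = ξ (m z) := fun z => by rw [ha]; rfl
    refine H.sp_finish hs h2 hH (by omega) (z := m.symm s) (by simpa using hs0)
      (H.iso hu (mem_im.1 hsX) (mem_im.1 hsX)) (H.sp_tv hs h2 hH hM hu (a := a) (mem_im.1 hsX)
        (fun e => ?_) fun c => ?_)
    · have := ha' (m.symm x)
      rw [H.eq, h_line (H.hf.zero_symm e) (mem_im.1 hx)] at this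
      simp [hξx] at this
    · obtain ⟨y, b1, b2⟩ := H.hf.exists_orth_one (K ∙ s) (u := x) fun e =>
        hxL ((Submodule.span_singleton_le_iff_mem _ (K ∙ u)).2 hsL e)
      replace b1 := b1 s (Submodule.mem_span_singleton_self s)
      obtain ⟨l, hl⟩ := H.fx.exists_trace (H.hf.fix (c • y))
      have b3 : h s (c • y) = 0 := by simp [H.smul_right, H.hf.zero_symm b1]
      refine ⟨m⁻¹ * (H.hf.eich s (c • y) l).1.restrictScalars F * m,
        M.mul_mem (M.mul_mem (M.inv_mem hp.mem) (hH _)) hp.mem, fun z hz => ?_⟩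
      obtain ⟨α, β, e⟩ := hX _ (apply_mem_im.2 hz)
      simp only [LinearEquiv.mul_apply, LinearEquiv.coe_inv, LinearEquiv.symm_apply_eq,
        LinearEquiv.restrictScalars_apply, H.hf.eich_apply hss b3 hl, ha', map_add m, map_smul,
        LinearEquiv.apply_symm_apply]
      rw [← e]
      simp [H.smul_left, H.smul_right, hss, h1, b1, b2, hξL s hsL, hξx, mul_smul, smul_comm c β]
  have fx : ∀ y ∈ im (line F K u) m, ∀ z, (∀ x ∈ im (line F K u) m, B x z = 0) →
      σ (h y z) = h y z := fun y hy z hz => H.fix_of_tr hs h2 (by rw [← H.eq, hz y hy])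
  obtain ⟨z, hz, hzz⟩ : ∃ z ∈ im (line F K u) m, h z z ≠ 0 := by
    by_cases h3 : h x x = 0
    · refine ⟨x + s, add_mem hx hsX, ?_⟩
      have := fx s hsX x fun y hy => isoX y hy x hx
      rw [H.hf.symm] at this
      simp only [map_add, LinearMap.add_apply, h3, hss, this, zero_add, add_zero, ← two_mul]
      exact mul_ne_zero (two_ne h2) h1
    · exact ⟨x, hx, h3⟩
  obtain ⟨τ', hτ'⟩ := exists_dual_one (F := F) (one_ne_zero (α := K))
  have hc : -2 / h z z + σ (-2 / h z z) + -2 / h z z * σ (-2 / h z z) * h z z = 0 := by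
    rw [map_div₀, H.hf.fix, map_neg, map_ofNat]; field_simp; ring
  refine H.sp_finish hs h2 hH (by omega) (z := m.symm z) (by simpa using ne_zero_of_b hzz)
    (H.iso hu (mem_im.1 hz) (mem_im.1 hz)) (H.sp_refl hs h2 hH hM hn hu0 hu
      (ρ := m⁻¹ * (H.hf.qr z (-2 / h z z)).1.restrictScalars F * m)
      (M.mul_mem (M.mul_mem (M.inv_mem hp.mem) (hH _)) hp.mem) (mem_im.1 hz)
      (f := τ' ∘ₗ ((-2 / h z z) • h z).restrictScalars F ∘ₗ (m : V →ₗ[F] V)) ?_ fun y hy => ?_)
  · have : (-2 : K) = (-2 : F) • (1 : K) := by simp [Algebra.smul_def, map_ofNat]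
    simp only [LinearMap.comp_apply, LinearEquiv.coe_coe, LinearEquiv.apply_symm_apply,
      LinearMap.restrictScalars_apply, LinearMap.smul_apply, smul_eq_mul, div_mul_cancel₀ _ hzz]
    rw [this, map_smul, hτ', smul_eq_mul, mul_one]
  · obtain ⟨c, hc'⟩ := (H.fx.fix_iff (-2 / h z z * h z (m y))).1 (by
      rw [map_mul, map_div₀, H.hf.fix, map_neg, map_ofNat, fx z hz _ fun x hx => by
        rw [← SG_symm' hm, H.eq, H.hf.zero_symm (h_line (H.hf.zero_symm hy) (mem_im.1 hx)),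
          map_zero]])
    simp only [LinearEquiv.mul_apply, LinearEquiv.coe_inv, LinearEquiv.restrictScalars_apply,
      H.hf.qr_apply hc, LinearMap.comp_apply, LinearEquiv.coe_coe,
      LinearMap.restrictScalars_apply, LinearMap.smul_apply, smul_eq_mul, ← hc', map_add,
      LinearEquiv.symm_apply_apply, smul_one_smul, map_smul, Algebra.algebraMap_eq_smul_one,
      hτ', mul_one]

omit hH [FiniteDimensional F K] in
theorem sp_not_semi (hn : 2 ≤ finrank K V) : ∃ g, g ∈ SG B ∧ ¬ Semi K g := by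
  obtain ⟨a, y, ha, hy, hay⟩ := H.hf.exists_hyp_pair hn
  obtain ⟨d, hd⟩ := exists_apply_one H.ne
  refine ⟨tv a ((1 : F) • B a) (by simp [(H.alt hs h2).self_eq_zero]),
    tv_mem_SG (H.alt hs h2) a 1 _, fun e => ?_⟩
  obtain ⟨k, hk⟩ := e d
  have := congrArg (h y) (hk y)
  simp [Max.tv_apply, H.eq, hay, hy, hd, H.tr_fix hs h2 (map_one σ), H.hf.one_symm hay] at this

end UTr

open Geo Asch Matrix Classical.SpMat in
theorem max_sp_u [Finite F] {m : ℕ} (hm : 3 ≤ m) (h2 : (2 : F) ≠ 0)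
    {K : Subalgebra F (Matrix (Fin m ⊕ Fin m) (Fin m ⊕ Fin m) F)} (hK : IsFieldSubalgebra 2 K)
    (hac : IsAdjointClosedFor (sympForm m F) K) (hnsa : ¬ IsSelfAdjointFor (sympForm m F) K) :
    IsMaximalIn (spGL m F) (subalgebraNormalizer K ⊓ spGL m F) := by
  have : Nonempty (Fin m) := ⟨⟨0, by omega⟩⟩
  let := (isField_of hK.comm hK.inv).toField
  have : FiniteDimensional K (Fin m ⊕ Fin m → F) := Module.Finite.of_restrictScalars_finite F K _
  have : Finite K := Module.finite_of_finite F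
  rw [sympForm_eq'] at hac hnsa
  obtain ⟨σ, h, τ, H, hs⟩ := exists_uTr (K := K) hK.finrank_eq (sB_nondeg (ι := Fin m) (F := F))
    (Or.inr rfl) (fun x y => by rw [← sB_alt.neg_eq x y]; simp)
    (fun k => by
      obtain ⟨k', h1, h2⟩ := hac k.1 k.2
      exact ⟨⟨k', h1⟩, h2⟩)
    fun e => hnsa fun k hk => e ⟨k, hk⟩
  have e := Module.finrank_mul_finrank F K (Fin m ⊕ Fin m → F)
  rw [finrank_sp, hK.finrank_eq] at e
  exact isMaximalIn_Sp (Semi K) mem_normalizer_iff (H.sp_not_semi hs h2 (by omega))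
    fun M h1 hM ⟨g, hg, h3⟩ =>
      H.sp_u hs h2 (fun g => h1 _ (H.mem g) (semi_restrict g.1)) hM (by omega) hg h3

end Cfsg.Agent.Max2
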