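import Mathlib
import Cfsg.Agent.Max2.USp
import Cfsg.Agent.Max.Un
import Cfsg.Agent.Max.Om2
import Cfsg.Agent.Orth.Sum

/-!
# Maximality of `GU_m(q).2 ∩ Ω` in `Ω^±_{2m}(q)`, `m ≥ 5`
-/

set_option autoImplicit false

namespace Cfsg.Agent.Max2

open Module Cfsg.Agent.Max Cfsg.Agent.Herm QuadraticMap

section Irr

variable {K V : Type*} [Field K] [AddCommGroup V] [Module K V] [FiniteDimensional K V]
  {σ : K →+* K} {h : V →ₛₗ[σ] V →ₗ[K] K} [Finite K]

theorem un_irr (hh : HF h) {W : Submodule K V} (hW : NDU h W) (h3 : 3 ≤ finrank K W)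
    (A : AddSubgroup V)
    (hA : ∀ e ∈ W, ∀ w ∈ W, ∀ l, ∀ y ∈ A, (hh.eich e w l).1 y ∈ A) {y : V} (hy : y ∈ A)
    (hyW : ∃ x ∈ W, h y x ≠ 0) : ∀ w ∈ W, w ∈ A := by
  have key : ∀ y ∈ A, ∀ e ∈ W, h e e = 0 → h e y ≠ 0 → ∀ w ∈ W, h e w = 0 → w ∈ A := by
    intro y hy e he he0 hey
    have d : ∀ w ∈ W, h e w = 0 → ∀ l, l + σ l = h w w →
        (h w y - l * h e y) • e - h e y • w ∈ A := fun w hw hew l hl => by
      have := A.sub_mem (hA e he w hw l y hy) hy
      rw [hh.eich_apply he0 hew hl] at this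
      convert this using 1
      abel
    obtain ⟨f, -, -, -, U, hU, hU1, hU2, hU3⟩ :=
      hW.exists_hyp hh he (ne_zero_of_b hey) he0
    obtain ⟨b, hb, hb1⟩ := hU1.exists_norm hh (by omega) (map_one σ)
    have hbe := hh.zero_symm (hU3 b hb).1
    have k1 : ∀ c : K, c • e ∈ A := fun c => by
      set a := c / h e y
      obtain ⟨l, hl⟩ := hh.exists_trace (hh.fix b)
      obtain ⟨m, hm⟩ := hh.exists_trace (hh.fix (a • b))
      have := A.sub_mem (A.add_mem (d b (hU hb) hbe l hl)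
        (d (a • b) (W.smul_mem _ (hU hb)) (by simp [hbe]) m hm))
        (d (b + a • b) (W.add_mem (hU hb) (W.smul_mem _ (hU hb))) (by simp [hbe]) (l + m + a) (by
          simp only [map_add, LinearMap.add_apply, b_smul_left, b_smul_right, hb1] at hl hm ⊢
          linear_combination hl + hm))
      convert this using 1
      have : c = a * h e y := by simp [a, hey]
      simp only [map_add, LinearMap.add_apply]
      rw [this]
      module
    intro w hw hew
    obtain ⟨l, hl⟩ := hh.exists_trace (hh.fix ((h e y)⁻¹ • w))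
    have := A.sub_mem (k1 (h ((h e y)⁻¹ • w) y - l * h e y))
      (d _ (W.smul_mem _ hw) (by simp [hew]) l hl)
    simpa [smul_smul, hey] using this
  obtain ⟨e, he, he0, hey⟩ := hW.exists_iso hh (by omega) (X := perp h (K ∙ y)) fun hc => by
    obtain ⟨x, hx, hx'⟩ := hyW
    exact hx' (mem_perp_singleton.1 (hc hx))
  rw [mem_perp_singleton, hh.zero_iff] at hey
  obtain ⟨f, hf, hf0, hef, -⟩ := hW.exists_hyp hh he (ne_zero_of_b hey) he0
  have k1 := key y hy e he he0 hey
  have k2 := key e (k1 e he he0) f hf hf0 (by simp [hh.one_symm hef])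
  intro w hw
  simpa using A.add_mem (k1 (w - h e w • f) (W.sub_mem hw (W.smul_mem _ hf)) (by simp [hef]))
    (k2 (h e w • f) (W.smul_mem _ hf) (by simp [hf0]))

end Irr

variable {F K V : Type*} [Field F] [Field K] [Algebra F K] [AddCommGroup V] [Module F V]
  [Module K V] [IsScalarTower F K V] {Q : QuadraticForm F V} {M : Subgroup (Orth.OG Q)}

omit [Algebra F K] [IsScalarTower F K V] in
theorem not_semi_eich {u w y : V} {k : K} (hu0 : u ≠ 0) (hu : Q u = 0)
    (h1 : polar Q u w = 0) (h2 : polar Q u (k • u) = 0) (h3 : polar Q w (k • u) = 0)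
    (h4 : polar Q u y = 0) (h5 : polar Q w y = 0) (h6 : polar Q u (k • y) = 0)
    (h7 : polar Q w (k • y) ≠ 0) : ¬ Semi K (Orth.eich Q u w).1 := fun e => by
  obtain ⟨k', hk⟩ := e k
  have a1 := hk u
  have a2 := hk y
  rw [Orth.eich_apply_of_orth hu h1 h2 h3, Orth.eich_apply_left hu h1] at a1
  rw [Orth.eich_apply_of_orth hu h1 h4 h5, Orth.eich_apply hu h1, ← smul_left_injective K hu0 a1,
    h6] at a2
  simp [h7, hu0] at a2

variable {σ : K →+* K} {h : V →ₛₗ[σ] V →ₗ[K] K} {τ : Dual F K}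

/-- A quadratic form which is the norm form of a Hermitian form over a quadratic extension. -/
structure UO (Q : QuadraticForm F V) (h : V →ₛₗ[σ] V →ₗ[K] K) (τ : Dual F K) : Prop where
  tr : UTr Q.polarBilin h τ
  hs : ∀ k, τ (σ k) = τ k
  q : ∃ k₀, τ k₀ ≠ 0 ∧ ∀ v, Q v = τ (k₀ * h v v)

omit [IsScalarTower F K V] in
theorem UO.mk' [Nontrivial V] [FiniteDimensional F V] (hQ : Orth.ND Q)
    (H : UTr Q.polarBilin h τ) (hs : ∀ k, τ (σ k) = τ k)
    (hc : ∀ k : K, ∃ c : F, ∀ v, Q (k • v) = c * Q v) : UO Q h τ := by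
  have e : ∀ x y, polar Q x y = τ (h x y) := H.eq
  have k1 : ∀ (k : K) (n : F), algebraMap F K n = σ k * k → ∀ v, Q (k • v) = n * Q v :=
    fun k n hn v => by
      obtain ⟨c, hc⟩ := hc k
      obtain ⟨x, hx⟩ := exists_ne (0 : V)
      obtain ⟨y, hy⟩ := hQ.exists_polar_one hx
      have a1 : polar Q (k • x) (k • y) = c * polar Q x y := by
        simp only [polar, ← smul_add, hc]; ring
      rw [e (k • x), b_smul_left, b_smul_right, ← mul_assoc, ← hn, ← Algebra.smul_def, map_smul,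
        ← e, hy] at a1
      rw [hc, ← mul_one c, ← a1, smul_eq_mul, mul_one]
  obtain ⟨k, hk⟩ := H.fx.exists_trace_one
  obtain ⟨n, hn⟩ := (H.fx.fix_iff (σ k * k)).1 (by rw [map_mul, H.fx.invol, mul_comm])
  have k2 : ∀ v, Q v = τ (k * h v v) := fun v => by
    have a1 := k1 (1 + k) (2 + n) (by
      rw [map_add, hn, map_ofNat, map_add, map_one]; linear_combination -hk) v
    rw [add_smul, one_smul, Orth.q_add, k1 k n hn, e, b_smul_right] at a1
    linear_combination -a1
  refine ⟨H, hs, k, fun e0 => ?_, k2⟩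
  obtain ⟨v, hv⟩ := hQ.exists_nonsingular
  obtain ⟨c, hc⟩ := (H.fx.fix_iff _).1 (H.hf.fix v)
  rw [k2, ← hc, mul_comm, ← Algebra.smul_def, map_smul, e0, smul_zero] at hv
  exact hv rfl

namespace UO

variable (H : UO Q h τ)
include H

omit [IsScalarTower F K V] in
theorem eq (x y : V) : polar Q x y = τ (h x y) := H.tr.eq x y

omit [IsScalarTower F K V] in
theorem iso_iff {v : V} : Q v = 0 ↔ h v v = 0 := by
  obtain ⟨k, hk, e⟩ := H.q
  obtain ⟨c, hc⟩ := (H.tr.fx.fix_iff _).1 (H.tr.hf.fix v)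
  rw [e, ← hc, mul_comm, ← Algebra.smul_def, map_smul]
  simp [hk]

omit [IsScalarTower F K V] in
theorem nd : Orth.ND Q := (Orth.nd_iff Q).2 H.tr.nd

/-- Restriction of scalars. -/
def res : UG h →* Orth.OG Q where
  toFun g := ⟨g.1.restrictScalars F, fun v => by
    obtain ⟨k, -, e⟩ := H.q
    rw [e, e, LinearEquiv.restrictScalars_apply, UG.map_b]⟩
  map_one' := rfl
  map_mul' _ _ := rfl

@[simp] theorem res_apply (g : UG h) (v : V) : (H.res g).1 v = g.1 v := rfl

omit [IsScalarTower F K V] in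
theorem tau_eq : ∃ l : F, ∀ a, algebraMap F K (τ a) = algebraMap F K l * (a + σ a) := by
  obtain ⟨k, hk⟩ := H.tr.fx.exists_trace_one
  refine ⟨τ k, fun a => ?_⟩
  obtain ⟨t, ht⟩ := H.tr.fx.exists_tr a
  obtain ⟨b, hb⟩ := H.tr.fx.exists_sub (c := a - t • k) (by
    rw [map_sub, H.tr.fx.map_smul, Algebra.smul_def, Algebra.smul_def, ht]
    linear_combination (-(a + σ a)) * hk)
  have := congrArg τ hb
  rw [map_sub, H.hs, sub_self, map_sub, map_smul, eq_comm, sub_eq_zero] at this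
  rw [this, ← ht, smul_eq_mul, map_mul, mul_comm]

variable [Finite K] [FiniteDimensional F K] [FiniteDimensional K V]

omit [FiniteDimensional F K] in
theorem res_mem (hn : 4 ≤ finrank K V) {g : UG h} (hg : g ∈ SUG h) :
    H.res g ∈ commutator (Orth.OG Q) := by
  have : Finite F := Finite.of_injective _ (algebraMap F K).injective
  have := H.tr.fx.finrank_eq
  have : FiniteDimensional F K := Module.finite_of_finrank_eq_succ this
  have e : Nat.card K = Nat.card F ^ 2 := by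
    rw [Module.natCard_eq_pow_finrank (K := F) (V := K), H.tr.fx.finrank_eq]
  exact Orth.map_mem_commutator (H.res.comp (SUG h).subtype) (x := ⟨g, hg⟩)
    (by rw [H.tr.hf.SUG_perfect e (by omega) (by omega)]; trivial)

variable (hH : ∀ g ∈ SUG h, H.res g ∈ M)
include hH

omit [Finite K] [FiniteDimensional F K] in
theorem oe_line {u : V} (hu : h u u = 0) (k : K) : k • u ∈ OE M u := by
  have a0 : ∀ k : K, polar Q u (k • u) = 0 := fun k => by simp [H.eq, hu]
  have key : ∀ k : K, Orth.eich Q u (k • u) ∈ M := fun k => by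
    obtain ⟨l, hl⟩ := H.tau_eq
    have hd : algebraMap F K l * (σ k - k) + σ (algebraMap F K l * (σ k - k)) = 0 := by
      rw [map_mul, H.tr.fx.map_alg, map_sub, H.tr.fx.invol]; ring
    convert hH _ (H.tr.hf.tv_mem_SUG hu (algebraMap F K l * (σ k - k))) using 1
    refine Orth.OG.ext fun x => ?_
    rw [Orth.eich_apply (H.iso_iff.2 hu) (a0 k), H.res_apply, H.tr.hf.tv_apply hu hd,
      H.iso_iff.2 (show h (k • u) (k • u) = 0 by simp [hu]), zero_mul, sub_zero, H.eq, H.eq,
      ← algebraMap_smul K, ← algebraMap_smul K (τ (h u x)), hl, hl, b_smul_left, map_mul,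
      H.tr.fx.invol]
    module
  exact ⟨a0 k, fun c => by rw [← smul_assoc]; exact key _⟩

omit [FiniteDimensional F K] in
theorem oe_perp (hn : 5 ≤ finrank K V) {u y : V} (hu0 : u ≠ 0) (hu : h u u = 0)
    (hy : y ∈ OE M u) (hyu : y ∉ line F K u) {w : V} (hw : h u w = 0) : w ∈ OE M u := by
  by_cases h1 : h u y = 0
  · obtain ⟨f, huf, hf⟩ := H.tr.hf.exists_hyp hu0 hu
    have hW : NDU h (perp h (Submodule.span K {u, f})) := fun x hx hx' =>
      congrArg Subtype.val ((H.tr.hf.res_perp_hyp hu hf huf).nd' ⟨x, hx⟩ fun z => hx' z z.2)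
    have a1 := H.tr.hf.finrank_perp_hyp hu hf huf
    have := un_irr H.tr.hf hW (by omega) (OE M u).toAddSubgroup (y := y) (fun e he w hw l y hy =>
      OE.map_fix hy (hH _ (H.tr.hf.eich_mem_SUG e w l)) (H.tr.hf.eich_apply_of_orth l
        (H.tr.hf.zero_symm (mem_perp_pair.1 he).1) (H.tr.hf.zero_symm (mem_perp_pair.1 hw).1))) hy
      (by
        by_contra hc
        push Not at hc
        have := hW _ (H.tr.hf.hyp_proj_mem hu hf huf y) fun x hx => by
          simp [H.tr.hf.zero_symm (hc x hx), H.tr.hf.zero_symm (mem_perp_pair.1 hx).1,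
            H.tr.hf.zero_symm (mem_perp_pair.1 hx).2]
        rw [h1, zero_smul, sub_zero, sub_eq_zero] at this
        exact hyu (this ▸ smul_mem_line _ _))
      _ (H.tr.hf.hyp_proj_mem hu hf huf w)
    simpa [hw] using (OE M u).add_mem this (H.oe_line hH hu (h f w))
  · obtain ⟨l, hl⟩ := H.tr.hf.exists_trace (H.tr.hf.fix ((h u y)⁻¹ • w))
    have a1 : h u ((h u y)⁻¹ • w) = 0 := by simp [hw]
    have := (OE M u).sub_mem ((OE M u).add_mem hy (H.oe_line hH hu
      (h ((h u y)⁻¹ • w) y - l * h u y))) (OE.map_fix hy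
        (hH _ (H.tr.hf.eich_mem_SUG u ((h u y)⁻¹ • w) l)) (H.tr.hf.eich_apply_left _ _ _))
    rw [H.res_apply, H.tr.hf.eich_apply hu a1 hl] at this
    simpa [smul_smul, h1] using this

theorem om_u (hn : 5 ≤ finrank K V) {g : Orth.OG Q} (hg : g ∈ M) (hgH : ¬ Semi K g.1) :
    commutator (Orth.OG Q) ≤ M := by
  have : FiniteDimensional F V := Module.Finite.trans K V
  have : Finite F := Finite.of_injective _ (algebraMap F K).injective
  obtain ⟨v, hv, k, hk⟩ : ∃ v, h v v = 0 ∧ ∃ k : K, g.1 (k • v) ∉ line F K (g.1 v) := by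
    by_contra hc
    push Not at hc
    exact hgH (semi_of_iso H.tr.hf (by omega) fun v hv k => by
      obtain ⟨k', hk'⟩ := mem_line.1 (hc v hv k); exact ⟨k', hk'.symm⟩)
  have hv0 : g.1 v ≠ 0 := fun e => by
    rw [Orth.OG.apply_eq_zero] at e
    simp [e] at hk
  have hu : h (g.1 v) (g.1 v) = 0 := H.iso_iff.1 (by rw [Orth.OG.map_Q]; exact H.iso_iff.2 hv)
  have k1 : ∀ z, h z z = 0 → ∀ w, h z w = 0 → w ∈ OE M z := fun z hz w hw => by
    by_cases hz0 : z = 0
    · exact ⟨by simp [hz0], fun c => by simp [hz0]⟩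
    obtain ⟨t, ht, rfl⟩ := H.tr.hf.SUG_trans_iso (by omega) hv0 hz0 hu hz
    have := OE.map (H.oe_perp hH hn hv0 hu (OE.map (H.oe_line hH hv k) hg) hk (w := (t⁻¹).1 w)
      (by rwa [UG.b_inv_right])) (hH t ht)
    rwa [H.res_apply, H.res_apply, UG.apply_inv_self] at this
  have k2 : ∀ z, z ≠ 0 → h z z = 0 → OP M z := fun z hz0 hz => ⟨H.iso_iff.2 hz, fun x hx => by
    obtain ⟨f, hzf, hf⟩ := H.tr.hf.exists_hyp hz0 hz
    obtain ⟨w, a1, a2, a3⟩ := exists_perp_norm H.tr.hf (by omega) hz hf (by simp [hzf]) (map_one σ)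
    obtain ⟨c, hc⟩ := exists_apply_one H.tr.ne
    have a4 : h (h z x • f) (h z x • f) = 0 := by simp [hf]
    have := OE.grow (k1 z hz (c • w) (by simp [a1])) (H.iso_iff.2 a4)
      (k1 _ a4 w (by simp [a2])) (by rw [polar_comm, H.eq]; simpa [hzf, H.eq] using hx)
      (by rw [polar_comm, H.eq, a1, map_zero])
    simpa [H.eq, a2, a3, hc] using (OE M z).add_mem this (k1 z hz (x - h z x • f) (by simp [hzf]))⟩
  obtain ⟨f, hzf, hf⟩ := H.tr.hf.exists_hyp hv0 hu
  obtain ⟨c, hc⟩ := exists_apply_one H.tr.ne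
  have e := H.tr.fx.finrank_res (V := V)
  refine om_le_of_pair H.nd (by omega) (k2 _ hv0 hu) (k2 (c • f) (fun e => ?_) (by simp [hf]))
    (by simp [H.eq, hzf, hc])
  have := congrArg (fun x => τ (h (g.1 v) x)) e
  simp [hzf, hc] at this

omit hH in
theorem om_not_semi (hn : 3 ≤ finrank K V) :
    ∃ g ∈ commutator (Orth.OG Q), ¬ Semi K g.1 := by
  have : FiniteDimensional F V := Module.Finite.trans K V
  have e := H.tr.fx.finrank_res (V := V)
  obtain ⟨u, f, hu, hf, huf⟩ := H.tr.hf.exists_hyp_pair (by omega)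
  obtain ⟨w, a1, -, a3⟩ := exists_perp_norm H.tr.hf hn hu hf (by simp [huf]) (map_one σ)
  obtain ⟨d, hd0, hd⟩ := H.tr.fx.exists_skew
  obtain ⟨c, hc⟩ := exists_apply_one H.tr.ne
  obtain ⟨l, hl⟩ := H.tau_eq
  have a4 : τ d = 0 := (algebraMap F K).injective (by rw [hl, hd, mul_zero, map_zero])
  exact ⟨_, H.nd.eich_mem_commutator (Orth.good_of_five_le (by omega)) u w,
    not_semi_eich (y := d • w) (k := c / d) (ne_zero_of_b (huf ▸ one_ne_zero)) (H.iso_iff.2 hu)
      (by simp [H.eq, a1]) (by simp [H.eq, hu]) (by simp [H.eq, H.tr.hf.zero_symm a1])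
      (by simp [H.eq, a1]) (by simp [H.eq, a3, a4]) (by simp [H.eq, a1])
      (by simp [H.eq, a3, hd0, hc])⟩

end UO

open Geo Asch Matrix in
theorem max_om_u [Finite F] {ι : Type} [Fintype ι] [DecidableEq ι] {Q : QuadraticForm F (ι → F)}
    (hQ : Orth.ND Q) (hn : 10 ≤ Fintype.card ι) {K : Subalgebra F (Matrix ι ι F)}
    (hK : IsFieldSubalgebra 2 K) (hac : IsAdjointClosedFor (polar Q) K)
    (hnsa : ¬ IsSelfAdjointFor (polar Q) K) (hsc : ∀ k ∈ K, ∃ c : F, ∀ v, Q (k *ᵥ v) = c * Q v) :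
    IsMaximalIn (omegaGL ⇑Q) (subalgebraNormalizer K ⊓ omegaGL ⇑Q) := by
  have : Nonempty ι := Fintype.card_pos_iff.1 (by omega)
  let := (isField_of hK.comm hK.inv).toField
  have : FiniteDimensional K (ι → F) := Module.Finite.of_restrictScalars_finite F K _
  have : Finite K := Module.finite_of_finite F
  obtain ⟨σ, h, τ, H, hs⟩ := exists_uTr (K := K) hK.finrank_eq hQ.nondeg
    (Or.inl rfl) (fun x y => by simp [polar_comm])
    (fun k => by
      obtain ⟨k', h1, h2⟩ := hac k.1 k.2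
      exact ⟨⟨k', h1⟩, h2⟩)
    fun e => hnsa fun k hk => e ⟨k, hk⟩
  have H' := UO.mk' hQ H (fun k => by simpa using hs k) fun k => hsc k.1 k.2
  have e := Module.finrank_mul_finrank F K (ι → F)
  rw [Module.finrank_fintype_fun_eq_card, hK.finrank_eq] at e
  exact isMaximalIn_Om (Semi K) mem_normalizer_iff (H'.om_not_semi (by omega))
    fun M h1 _ ⟨g, hg, h3⟩ => H'.om_u (fun g hg => h1 _ (H'.res_mem (by omega) hg)
      (semi_restrict g.1)) (by omega) hg h3

end Cfsg.Agent.Max2
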