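import Mathlib
import Cfsg.Agent.Max2.UOm

/-!
# Orthogonal geometry for extension-field subgroups: preliminaries
-/

set_option autoImplicit false

namespace Cfsg.Agent.Max2

open Module Cfsg.Agent.Max QuadraticMap Orth

/-- Chevalley–Warning for quadratic polynomials without constant term. -/
theorem cw_quad {F V ι : Type*} [Field F] [Finite F] [AddCommGroup V] [Module F V]
    [FiniteDimensional F V] [Fintype ι] (b : ι → LinearMap.BilinForm F V) (l : ι → Dual F V)
    (hn : 2 * Fintype.card ι < finrank F V) : ∃ v, v ≠ 0 ∧ ∀ i, b i v v + l i v = 0 := by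
  classical
  have := Fintype.ofFinite F
  let e := Module.finBasis F V
  let P : ι → MvPolynomial (Fin (finrank F V)) F := fun k =>
    ∑ i, ∑ j, MvPolynomial.C (b k (e i) (e j)) * (MvPolynomial.X i * MvPolynomial.X j) +
      ∑ i, MvPolynomial.C (l k (e i)) * MvPolynomial.X i
  have hdeg : ∀ k, (P k).totalDegree ≤ 2 := fun k =>
    (MvPolynomial.totalDegree_add _ _).trans (max_le
      (MvPolynomial.totalDegree_finsetSum_le fun i _ =>
        MvPolynomial.totalDegree_finsetSum_le fun j _ =>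
          (MvPolynomial.totalDegree_mul _ _).trans (by
            have := MvPolynomial.totalDegree_mul (MvPolynomial.X i : MvPolynomial _ F)
              (MvPolynomial.X j)
            simp only [MvPolynomial.totalDegree_X, MvPolynomial.totalDegree_C] at this ⊢
            omega))
      (MvPolynomial.totalDegree_finsetSum_le fun i _ =>
        (MvPolynomial.totalDegree_mul _ _).trans (by simp)))
  have heval : ∀ k x, MvPolynomial.eval x (P k) =
      b k (∑ i, x i • e i) (∑ i, x i • e i) + l k (∑ i, x i • e i) := fun k x => by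
    simp only [P, map_add, map_sum, map_mul, MvPolynomial.eval_C, MvPolynomial.eval_X,
      map_smul, LinearMap.sum_apply, LinearMap.smul_apply, smul_eq_mul, Finset.mul_sum]
    congr 1
    · rw [Finset.sum_comm]
      exact Finset.sum_congr rfl fun i _ => Finset.sum_congr rfl fun j _ => by ring
    · exact Finset.sum_congr rfl fun i _ => by ring
  obtain ⟨p, hp⟩ := CharP.exists F
  have hpp : p.Prime := CharP.char_is_prime F p
  have h := char_dvd_card_solutions_of_fintype_sum_lt p (f := P) (by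
    have := Finset.sum_le_card_nsmul Finset.univ (fun k => (P k).totalDegree) 2 fun k _ => hdeg k
    rw [Finset.card_univ, smul_eq_mul] at this
    rw [Fintype.card_fin]; omega)
  by_contra hc
  push Not at hc
  have h1 : Fintype.card {x : Fin (finrank F V) → F // ∀ k, MvPolynomial.eval x (P k) = 0} = 1 := by
    rw [Fintype.card_eq_one_iff]
    refine ⟨⟨0, fun k => by rw [heval]; simp⟩, fun x => Subtype.ext ?_⟩
    obtain ⟨x, h3⟩ := x
    have h5 : ∑ i, x i • e i = 0 := by
      by_contra h5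
      obtain ⟨k, hk⟩ := hc _ h5
      exact hk (heval k x ▸ h3 k)
    exact funext (Fintype.linearIndependent_iff.mp e.linearIndependent x h5)
  rw [h1] at h
  exact hpp.one_lt.ne' (Nat.dvd_one.mp h)

section K

variable {K V : Type*} [Field K] [AddCommGroup V] [Module K V] [FiniteDimensional K V]
  {P : QuadraticForm K V}

theorem exists_sing_opp (hP : ND P) {x y : V} (hx0 : x ≠ 0) (hy0 : y ≠ 0) (hy : P y = 0)
    (hxy : polar P x y = 0) : ∃ z, P z = 0 ∧ polar P x z ≠ 0 ∧ polar P y z ≠ 0 := by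
  by_cases h : y ∈ K ∙ x
  · obtain ⟨c, rfl⟩ := Submodule.mem_span_singleton.1 h
    obtain ⟨z, h1, h2⟩ := hP.exists_hyp hy0 hy
    exact ⟨z, h2, fun e => by simp [e] at h1, by simp [h1]⟩
  · obtain ⟨z, h1, h2, h3⟩ := hP.exists_singular_polar_pair hx0 hy hxy h 1
    exact ⟨z, h1, by simp [h2], by simp [h3]⟩

variable [Finite K]

theorem exists_perp_Q (hP : ND P) (hn : 4 ≤ finrank K V) {x y : V} (hx : P x = 0) (hy : P y = 0)
    (h : polar P x y ≠ 0) (c : K) : ∃ w, polar P x w = 0 ∧ polar P y w = 0 ∧ P w = c := by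
  have a1 : P ((polar P x y)⁻¹ • y) = 0 := by simp [q_smul, hy]
  have a2 : polar P x ((polar P x y)⁻¹ • y) = 1 := by simp [h]
  have a3 := hP.finrank_perp_hyp hx a1 a2
  have a4 : NDS P (perp P (Submodule.span K {x, (polar P x y)⁻¹ • y})) := fun w hw e =>
    congrArg Subtype.val (hP.nd_perp_hyp hx a1 a2 ⟨w, hw⟩ fun z => e z z.2)
  obtain ⟨w, hw, e⟩ := a4.exists_Q_eq (by omega) c
  rw [mem_perp_pair] at hw
  exact ⟨w, hw.1, by simpa [h] using hw.2, e⟩

theorem sing_trans (hP : ND P) (hg : Good K V) (hn : 4 ≤ finrank K V) {x y : V} (hx0 : x ≠ 0)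
    (hy0 : y ≠ 0) (hx : P x = 0) (hy : P y = 0) : ∃ g ∈ commutator (OG P), g.1 x = y := by
  have key : ∀ x y, P x = 0 → P y = 0 → polar P x y ≠ 0 →
      ∃ g ∈ commutator (OG P), g.1 x = y := fun x y hx hy h => by
    obtain ⟨w, a1, a2, a3⟩ := exists_perp_Q hP hn hx hy h (-polar P x y)
    have b1 : polar P (x + y + w) x = polar P x y := by
      simp [hx, polar_comm P w, polar_comm P y, a1]
    have b2 : polar P (x + y + w) y = polar P x y := by simp [hy, polar_comm P w, a2]
    obtain ⟨v, -, e⟩ := eich_trans_opp (u := x + y + w) (by simp [q_add, hx, hy, a1, a2, a3]) hy hx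
      (b2 ▸ h) (b1 ▸ h)
    rw [b1, b2, div_self h, one_smul] at e
    exact ⟨_, hP.eich_mem_commutator hg _ _, e⟩
  by_cases h : polar P x y = 0
  · obtain ⟨z, h1, h2, h3⟩ := exists_sing_opp hP hx0 hy0 hy h
    obtain ⟨g, hg, e⟩ := key x z hx h1 h2
    obtain ⟨g', hg', e'⟩ := key z y h1 hy (by rwa [polar_comm])
    exact ⟨g' * g, mul_mem hg' hg, by rw [OG.mul_apply, e, e']⟩
  · exact key x y hx hy h

theorem orth_irr (h2 : (2 : K) ≠ 0) {W : Submodule K V} (hW : NDS P W) (h3 : 3 ≤ finrank K W)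
    (A : AddSubgroup V) (hA : ∀ e ∈ W, ∀ w ∈ W, ∀ y ∈ A, (eich P e w).1 y ∈ A) {y : V}
    (hy : y ∈ A) (hyW : ∃ x ∈ W, polar P y x ≠ 0) : ∀ w ∈ W, w ∈ A := by
  have key : ∀ y ∈ A, ∀ e ∈ W, P e = 0 → polar P e y ≠ 0 → ∀ w ∈ W, polar P e w = 0 → w ∈ A := by
    intro y hy e he he0 hey
    have d : ∀ w ∈ W, polar P e w = 0 →
        (polar P w y - P w * polar P e y) • e - polar P e y • w ∈ A := fun w hw hew => by
      have := A.sub_mem (hA e he w hw y hy) hy
      rw [eich_apply he0 hew] at this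
      convert this using 1
      abel
    obtain ⟨f, -, -, -, U, hU, hU1, hU2, hU3⟩ :=
      hW.exists_hyp he (by rintro rfl; simp at hey) he0
    obtain ⟨b, hb, hb1⟩ := hU1.exists_nonsing (by omega)
    have hbe := (hU3 b hb).1
    have k1 : ∀ c : K, c • e ∈ A := fun c => by
      set a := c / (2 * P b * polar P e y)
      have := A.sub_mem (A.add_mem (d b (hU hb) hbe)
        (d (a • b) (W.smul_mem _ (hU hb)) (by simp [hbe])))
        (d (b + a • b) (W.add_mem (hU hb) (W.smul_mem _ (hU hb))) (by simp [hbe]))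
      convert this using 1
      have : c = a * (2 * P b * polar P e y) := by simp [a, hey, h2, hb1]
      simp only [polar_add_left, q_add, p_smul_right, p_self]
      rw [this]
      module
    intro w hw hew
    have := A.sub_mem (k1 (polar P ((polar P e y)⁻¹ • w) y - P ((polar P e y)⁻¹ • w) * polar P e y))
      (d ((polar P e y)⁻¹ • w) (W.smul_mem _ hw) (by simp [hew]))
    rwa [sub_sub_cancel, smul_smul, mul_inv_cancel₀ hey, one_smul] at this
  obtain ⟨e, he, he0, hey⟩ := hW.exists_sing h3 (X := perp P (K ∙ y)) fun hc => by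
    obtain ⟨x, hx, hx'⟩ := hyW
    exact hx' (mem_perp_singleton.1 (hc hx))
  rw [mem_perp_singleton, polar_comm] at hey
  obtain ⟨f, hf, hf0, hef, -⟩ := hW.exists_hyp he (by rintro rfl; simp at hey) he0
  have k1 := key y hy e he he0 hey
  have k2 := key e (k1 e he (by simp [he0])) f hf hf0 (by simp [polar_comm P f, hef])
  intro w hw
  simpa using A.add_mem (k1 (w - polar P e w • f) (W.sub_mem hw (W.smul_mem _ hf)) (by simp [hef]))
    (k2 (polar P e w • f) (W.smul_mem _ hf) (by simp [hf0]))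

end K

section Heis

variable {F V : Type*} [Field F] [AddCommGroup V] [Module F V] {Q : QuadraticForm F V}

theorem heis_om (hQ : ND Q) {L : Submodule F V} (hL : Sing Q L) {g g' : OG Q}
    (a : ∀ v, g.1 v - v ∈ perp Q L) (b : ∀ v ∈ perp Q L, g.1 v - v ∈ L)
    (a' : ∀ v, g'.1 v - v ∈ perp Q L) (b' : ∀ v ∈ perp Q L, g'.1 v - v ∈ L) {s s' : V}
    (hs : s ∈ L) (hs' : s' ∈ L)
    (e : ∀ v w, polar Q (g.1 v - v) (g'.1 w - w) - polar Q (g'.1 v - v) (g.1 w - w) =
      polar Q s' v * polar Q s w - polar Q s v * polar Q s' w) :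
    g * g' = eich Q s s' * (g' * g) := by
  have key : ∀ g : OG Q, (∀ v, g.1 v - v ∈ perp Q L) → (∀ v ∈ perp Q L, g.1 v - v ∈ L) →
      ∀ y ∈ perp Q L, ∀ w, polar Q (g.1 y) w = polar Q y w - polar Q y (g.1 w - w) := by
    intro g a b y hy w
    have h1 := mem_perp.1 (a w) _ (b y hy)
    simp only [polar_sub_left, polar_sub_right, OG.map_polar] at h1 ⊢
    linear_combination -h1
  refine OG.ext fun v => sub_eq_zero.1 (hQ _ fun w => ?_)
  have h1 := key g a b _ (a' v) w
  have h2 := key g' a' b' _ (a v) w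
  have h3 : ∀ t ∈ L, polar Q t (g'.1 (g.1 v)) = polar Q t v := fun t ht => by
    have c1 := mem_perp.1 (a v) t ht
    have c2 := mem_perp.1 (a' (g.1 v)) t ht
    rw [polar_sub_right] at c1 c2
    linear_combination c1 + c2
  have h4 := e v w
  simp only [OG.mul_apply, eich_apply (hL s hs) (hL.polar hs hs'), hL s' hs', h3 s hs, h3 s' hs',
    map_sub, polar_sub_left, polar_add_left, p_smul_left] at h1 h2 h4 ⊢
  linear_combination h1 - h2 + h4

/-- The vectors `v ⊥ u` with `eich u v ∈ M`. -/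
def OA (M : Subgroup (OG Q)) (u : V) : AddSubgroup V where
  carrier := {v | polar Q u v = 0 ∧ eich Q u v ∈ M}
  zero_mem' := ⟨by simp, by simp⟩
  neg_mem' {v} hv := ⟨by simp [hv.1], by
    by_cases hu : Q u = 0
    · rw [← eich_inv hu hv.1]; exact inv_mem hv.2
    · rw [eich_of_not fun h => hu h.1]; exact one_mem M⟩
  add_mem' {v w} hv hw := ⟨by simp [hv.1, hw.1], by
    by_cases hu : Q u = 0
    · rw [← eich_mul hu hv.1 hw.1]; exact mul_mem hv.2 hw.2
    · rw [eich_of_not fun h => hu h.1]; exact one_mem M⟩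

theorem OA.map {M : Subgroup (OG Q)} {u v : V} (h : v ∈ OA M u) {g : OG Q} (hg : g ∈ M) :
    g.1 v ∈ OA M (g.1 u) :=
  ⟨by simp [h.1], by rw [← eich_conj]; exact mul_mem (mul_mem hg h.2) (inv_mem hg)⟩

end Heis

theorem Pair.of_fix {F V : Type*} [Field F] [AddCommGroup V] [Module F V] [FiniteDimensional F V]
    {M : Subgroup (V ≃ₗ[F] V)} {L : Submodule F V} {m : V ≃ₗ[F] V} (h : Pair M L m)
    {t : V ≃ₗ[F] V} (ht : t ∈ M) (hS : ∀ s ∈ L, t s = s) {x : V} (hx : x ∈ im L m)
    (htx : t x ∉ im L m) : Pair M L (m⁻¹ * t * m) := by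
  have e : L ⊓ im L m⁻¹ ≤ L ⊓ im L (m⁻¹ * t * m) := fun s hs => ⟨hs.1, by
    have h1 : m s ∈ L := (mem_im (g := m⁻¹)).1 hs.2
    have : s = (m⁻¹ * t * m) s := by simp [hS _ h1]
    rw [this]; exact apply_mem_im.2 hs.1⟩
  refine ⟨M.mul_mem (M.mul_mem (M.inv_mem h.mem) ht) h.mem, fun e' => htx ?_,
    fun e' => h.symm.int (le_bot_iff.1 (e' ▸ e)),
    fun g hg hne => (h.symm.max g hg hne).trans (Submodule.finrank_mono e)⟩
  have : (m⁻¹ * t * m) (m.symm x) ∈ im L (m⁻¹ * t * m) := apply_mem_im.2 (mem_im.1 hx)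
  rw [e'] at this
  simpa [mem_im] using this

end Cfsg.Agent.Max2
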