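import Mathlib
import Cfsg.Agent.Max2.OExt1

/-!
# Orthogonal extension-field subgroups: perpendicular pairs
-/

set_option autoImplicit false

namespace Cfsg.Agent.Max2

open Module Cfsg.Agent.Max QuadraticMap Orth

variable {F K V : Type*} [Field F] [Field K] [Algebra F K] [AddCommGroup V] [Module F V]
  [Module K V] [IsScalarTower F K V] {Q : QuadraticForm F V} {P : QuadraticForm K V}
  {τ : Dual F K} {M : Subgroup (OG Q)}

/-- `Q` is the trace form of `P`. -/
structure OTr (Q : QuadraticForm F V) (P : QuadraticForm K V) (τ : Dual F K) : Prop where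
  eq : ∀ v, Q v = τ (P v)
  ne : τ ≠ 0
  ndK : ND P
  two : (2 : F) ≠ 0

/-- The image of a subgroup of the orthogonal group in the general linear group. -/
abbrev gl (M : Subgroup (OG Q)) : Subgroup (V ≃ₗ[F] V) := M.map (OG Q).subtype

omit [Module K V] [IsScalarTower F K V] in
theorem mem_gl {g : OG Q} (hg : g ∈ M) : g.1 ∈ gl M := Subgroup.mem_map_of_mem _ hg

namespace OTr

variable (H : OTr Q P τ)
include H

omit [IsScalarTower F K V] in
theorem pol (x y : V) : polar Q x y = τ (polar P x y) := by simp [polar, H.eq]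

omit [IsScalarTower F K V] in
theorem twoK : (2 : K) ≠ 0 := UTr.two_ne H.two

omit [IsScalarTower F K V] in
theorem zero_of {x y : V} (e : ∀ k : K, polar Q (k • x) y = 0) : polar P x y = 0 :=
  eq_zero_of_tr H.ne fun k => by simpa [H.pol] using e k

omit [IsScalarTower F K V] in
theorem nd : ND Q := fun x hx => H.ndK x fun y => by
  rw [polar_comm]; exact H.zero_of fun k => by rw [polar_comm]; exact hx _

theorem zero_of' {x y : V} (e : ∀ l ∈ line F K x, polar Q l y = 0) : polar P x y = 0 :=
  H.zero_of fun k => e _ (smul_mem_line k x)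

omit H in
theorem p_line {u v w : V} (e : polar P u w = 0) (hv : v ∈ line F K u) : polar P v w = 0 := by
  obtain ⟨k, rfl⟩ := mem_line.1 hv
  simp [e]

theorem q_line {u v w : V} (e : polar P u w = 0) (hv : v ∈ line F K u) : polar Q v w = 0 := by
  rw [H.pol, p_line e hv, map_zero]

theorem mem_perp_line {u w : V} : w ∈ perp Q (line F K u) ↔ polar P u w = 0 :=
  ⟨fun e => H.zero_of' (mem_perp.1 e), fun e => mem_perp.2 fun _ hl => H.q_line e hl⟩

theorem sing {u : V} (hu : P u = 0) : Sing Q (line F K u) := fun v hv => by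
  obtain ⟨k, rfl⟩ := mem_line.1 hv
  simp [H.eq, q_smul, hu]

/-- Restriction of scalars. -/
def res : OG P →* OG Q where
  toFun g := ⟨g.1.restrictScalars F, fun v => by
    rw [H.eq, H.eq, LinearEquiv.restrictScalars_apply, OG.map_Q]⟩
  map_one' := rfl
  map_mul' _ _ := rfl

@[simp] theorem res_apply (g : OG P) (v : V) : (H.res g).1 v = g.1 v := rfl

omit [IsScalarTower F K V] in
theorem good : Good K V := Or.inl ⟨-1, by simp, fun e => H.twoK (by linear_combination -e)⟩

variable [Finite K] [FiniteDimensional F K] [FiniteDimensional K V]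

theorem semi_of_sing (hn : 3 ≤ finrank K V) (g : OG Q)
    (hg : ∀ v, P v = 0 → ∀ k : K, ∃ k' : K, g.1 (k • v) = k' • g.1 v) : Semi K g.1 := by
  have : FiniteDimensional F V := Module.Finite.trans K V
  have orth : ∀ v, v ≠ 0 → P v = 0 → ∀ w, polar P v w = 0 → polar P (g.1 v) (g.1 w) = 0 :=
    fun v h0 hv w hw => H.zero_of' fun l hl => by
      rw [← im_line_eq h0 (hg v hv)] at hl
      rw [← OG.apply_inv_self g l, OG.map_polar]
      exact H.q_line hw (mem_im.1 hl)
  intro k
  choose! c hc using fun v hv => hg v hv k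
  have opp : ∀ e f, P e = 0 → P f = 0 → polar P e f ≠ 0 → c e = c f := fun e f he hf h1 => by
    have he0 : e ≠ 0 := by rintro rfl; simp at h1
    have hf0 : f ≠ 0 := by rintro rfl; simp at h1
    have a1 : P ((polar P e f)⁻¹ • f) = 0 := by simp [q_smul, hf]
    have a2 : polar P e ((polar P e f)⁻¹ • f) = 1 := by simp [h1]
    have a3 := H.ndK.finrank_perp_hyp he a1 a2
    have a4 : NDS P (perp P (Submodule.span K {e, (polar P e f)⁻¹ • f})) := fun w hw e' =>
      congrArg Subtype.val (H.ndK.nd_perp_hyp he a1 a2 ⟨w, hw⟩ fun z => e' z z.2)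
    obtain ⟨w, hw, hw0⟩ := a4.exists_nonsing (by omega)
    rw [mem_perp_pair] at hw
    have hw2 : polar P f w = 0 := by simpa [h1] using hw.2
    have key : ∀ e f, P e = 0 → P f = 0 → polar P e w = 0 → polar P f w = 0 →
        polar P e f = -P w → g.1 (k • w) = c e • g.1 w := fun e f he hf h2 h3 h4 => by
      have h5 : polar P e f ≠ 0 := by simp [h4, hw0]
      have he0 : e ≠ 0 := by rintro rfl; simp at h5
      have hf0 : f ≠ 0 := by rintro rfl; simp at h5
      have b1 := hc (e + f + w) (by simp [q_add, he, hf, h2, h3, h4])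
      rw [smul_add, smul_add, map_add, map_add, hc e he, hc f hf, map_add, map_add, smul_add,
        smul_add] at b1
      have b2 : polar P (g.1 e) (g.1 f) ≠ 0 := fun e' => h5 (H.zero_of fun a => by
        obtain ⟨a', ha⟩ := hg e he a
        rw [← OG.map_polar g, ha, H.pol]; simp [e'])
      have b3 := congrArg (polar P (g.1 f)) b1
      have b4 := congrArg (polar P (g.1 e)) b1
      simp only [polar_add_right, p_smul_right, orth f hf0 hf f (by simp [hf]),
        orth f hf0 hf w h3, orth f hf0 hf (k • w) (by simp [h3]), orth e he0 he e (by simp [he]),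
        orth e he0 he w h2, orth e he0 he (k • w) (by simp [h2]), mul_zero, add_zero, zero_add,
        polar_comm P (g.1 f) (g.1 e)] at b3 b4
      rw [mul_right_cancel₀ b2 b3] at b1 ⊢
      rw [mul_right_cancel₀ b2 b4] at b1
      exact add_left_cancel b1
    have b1 := key e ((-P w / polar P e f) • f) he (by simp [q_smul, hf]) hw.1 (by simp [hw2])
      (by simp [h1])
    rw [key f ((-P w / polar P e f) • e) hf (by simp [q_smul, he]) hw2 (by simp [hw.1])
      (by simp [h1, polar_comm P f])] at b1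
    exact (smul_left_injective K (by rw [Ne, OG.apply_eq_zero]; rintro rfl; simp at hw0) b1).symm
  obtain ⟨e, he0, he⟩ := exists_singular P hn
  refine ⟨c e, H.ndK.singular_induction he0 he _ (fun v hv => ?_) fun x y hx hy => by
    rw [smul_add, map_add, hx, hy, map_add, smul_add]⟩
  by_cases h0 : v = 0
  · simp [h0]
  rw [hc v hv]
  congr 1
  by_cases h1 : polar P v e = 0
  · obtain ⟨z, a1, a2, a3⟩ := exists_sing_opp H.ndK h0 he0 he h1
    rw [opp v z hv a1 a2, opp e z he a1 a3]
  · exact opp v e hv he h1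

omit [Finite K] in
theorem not_le_sup (hn : 4 ≤ finrank K V) {N : Subgroup (V ≃ₗ[F] V)} {u : V} (hu0 : u ≠ 0)
    {m : V ≃ₗ[F] V} (hp : Pair N (line F K u) m) (p : V) : ∃ y, polar P u y = 0 ∧
      polar P p y = 0 ∧ y ∉ line F K u ⊔ im (line F K u) m := by
  have : FiniteDimensional F V := Module.Finite.trans K V
  by_contra hc
  push Not at hc
  have a1 : (perp P (Submodule.span K {u, p})).restrictScalars F ≤
      line F K u ⊔ im (line F K u) m := fun y hy => hc y (mem_perp_pair.1 hy).1 (mem_perp_pair.1 hy).2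
  have a2 := Submodule.finrank_mono a1
  have a3 := Submodule.finrank_sup_add_finrank_inf_eq (line F K u) (im (line F K u) m)
  have a4 : finrank F ↥(line F K u ⊓ im (line F K u) m) ≠ 0 := fun e =>
    hp.int (Submodule.finrank_eq_zero.1 e)
  have a5 := H.ndK.finrank_perp_add (Submodule.span K {u, p})
  have a6 := Max.finrank_span_pair_le (F := K) u p
  have a7 : finrank F ((perp P (Submodule.span K {u, p})).restrictScalars F) =
      finrank F K * finrank K (perp P (Submodule.span K {u, p})) :=
    (Module.finrank_mul_finrank F K (perp P (Submodule.span K {u, p}))).symm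
  rw [finrank_im, finrank_line hu0] at a3
  have a8 : finrank F K * 2 ≤ finrank F K * finrank K (perp P (Submodule.span K {u, p})) :=
    Nat.mul_le_mul_left _ (by omega)
  omega

variable (hH : ∀ g ∈ commutator (OG P), H.res g ∈ M)
include hH

omit [Finite K] [FiniteDimensional F K] in
theorem ke (u w : V) : H.res (eich P u w) ∈ M := hH _ (H.ndK.eich_mem_commutator H.good u w)

theorem exists_pair (hn : 4 ≤ finrank K V) {g : OG Q} (hg : g ∈ M) (hgH : ¬ Semi K g.1) :
    ∃ u m, u ≠ 0 ∧ P u = 0 ∧ Pair (gl M) (line F K u) m := by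
  have : FiniteDimensional F V := Module.Finite.trans K V
  obtain ⟨v, hv, k, hk⟩ : ∃ v, P v = 0 ∧ ∃ k : K, g.1 (k • v) ∉ line F K (g.1 v) := by
    by_contra hc
    push Not at hc
    exact hgH (H.semi_of_sing (by omega) g fun v hv k => by
      obtain ⟨k', hk'⟩ := mem_line.1 (hc v hv k); exact ⟨k', hk'.symm⟩)
  have hv0 : v ≠ 0 := by rintro rfl; simp at hk
  have hv1 : g.1 v ≠ 0 := by rwa [Ne, OG.apply_eq_zero]
  by_cases h1 : P (g.1 v) = 0
  · obtain ⟨t, ht, e⟩ := sing_trans H.ndK H.good hn hv1 hv0 h1 hv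
    obtain ⟨m, hm⟩ := exists_pair_of (mem_gl hg) hv0 hk (t := t.1) (mem_gl (hH t ht)) e
    exact ⟨_, m, hv1, h1, hm⟩
  have a0 : NDS P (K ∙ g.1 v) := fun w hw e => by
    obtain ⟨c, rfl⟩ := Submodule.mem_span_singleton.1 hw
    have := e _ (Submodule.mem_span_singleton_self _)
    simp only [p_smul_left, p_self, mul_eq_zero, H.twoK, h1, or_self, or_false] at this
    simp [this]
  have a1 := a0.perp H.ndK
  have a2 := H.ndK.finrank_perp_add (K ∙ g.1 v)
  rw [finrank_span_singleton hv1] at a2
  obtain ⟨e, he, w, hw, y, hy, hy'⟩ : ∃ e ∈ perp P (K ∙ g.1 v), ∃ w ∈ perp P (K ∙ g.1 v),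
      ∃ y ∈ im (line F K v) g.1, (eich P e w).1 y ∉ im (line F K v) g.1 := by
    by_contra hc
    push Not at hc
    obtain ⟨c, hc'⟩ := exists_apply_one H.ne
    obtain ⟨w, hw, e⟩ := a1.exists_Q_eq (by omega) c
    have := orth_irr H.twoK a1 (by omega) (im (line F K v) g.1).toAddSubgroup hc
      (apply_mem_im.2 (smul_mem_line k v)) (by
        by_contra hd
        push Not at hd
        exact hk (H.ndK.perp_perp (K ∙ g.1 v) ▸ mem_perp'.2 hd :)) w hw
    have h3 := H.sing hv _ (mem_im.1 this)
    rw [← OG.map_Q g, LinearEquiv.apply_symm_apply, H.eq, e, hc'] at h3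
    exact one_ne_zero h3
  have a3 : (eich P e w).1 (g.1 v) = g.1 v := by
    by_cases h : P e = 0 ∧ polar P e w = 0
    · exact eich_apply_of_orth h.1 h.2 (mem_perp'.1 he _ (Submodule.mem_span_singleton_self _))
        (mem_perp'.1 hw _ (Submodule.mem_span_singleton_self _))
    · rw [eich_of_not h]; rfl
  set t := g⁻¹ * H.res (eich P e w) * g
  have ht : ∀ z, t.1 z = g.1.symm ((eich P e w).1 (g.1 z)) := fun z => rfl
  obtain ⟨m, hm⟩ := Max2.exists_pair (mem_gl (mul_mem (mul_mem (inv_mem hg) (H.ke hH e w)) hg))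
    (L := line F K v) (fun e' => hy' (by
      have : t.1 (g.1.symm y) ∈ im (line F K v) t.1 := apply_mem_im.2 (mem_im.1 hy)
      rw [e', ht, LinearEquiv.apply_symm_apply] at this
      exact mem_im.2 this))
    fun e' => hv0 (by
      rw [← Submodule.mem_bot F, ← e']
      have : t.1 v ∈ im (line F K v) t.1 := apply_mem_im.2 (self_mem_line v)
      rw [ht, a3, LinearEquiv.symm_apply_apply] at this
      exact ⟨self_mem_line v, this⟩)
  exact ⟨v, m, hv0, hv, hm⟩

omit [Finite K] [FiniteDimensional F K] [FiniteDimensional K V] hH in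
theorem ke_fix {u w l : V} (hu : P u = 0) (hw : polar P u w = 0) (hl : l ∈ line F K u) :
    (H.res (eich P u w)).1 l = l :=
  eich_apply_of_orth hu hw (by rw [polar_comm]; exact p_line (by simp [hu]) hl)
    (by rw [polar_comm]; exact p_line hw hl)

omit [Finite K] in
theorem perp_of_one (hn : 4 ≤ finrank K V) {u : V} (hu0 : u ≠ 0) (hu : P u = 0) {m : V ≃ₗ[F] V}
    (hp : Pair (gl M) (line F K u) m) {x : V} (hx : x ∈ im (line F K u) m) (hxL : x ∉ line F K u)
    (hux : polar P u x = 0) : ∀ z ∈ im (line F K u) m, polar P u z = 0 := by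
  have : FiniteDimensional F V := Module.Finite.trans K V
  intro z hz
  by_contra hc
  obtain ⟨y, h1, h2, h3⟩ := H.not_le_sup hn hu0 hp x
  have a1 : polar P u ((polar P u z)⁻¹ • y) = 0 := by simp [h1]
  have := hp.stabX (mem_gl (H.ke hH u ((polar P u z)⁻¹ • y)))
    (fun s hs hs' => by rwa [H.ke_fix hu a1 hs]) hx hxL (by
      rwa [H.res_apply, eich_apply_of_orth hu a1 hux (by simp [polar_comm P y, h2])]) z hz
  rw [H.res_apply, eich_apply hu a1, smul_smul, mul_inv_cancel₀ hc, one_smul] at this
  refine h3 ?_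
  have := Submodule.sub_mem _ (Submodule.add_mem_sup (smul_mem_line (polar P ((polar P u z)⁻¹ • y) z
    - P ((polar P u z)⁻¹ • y) * polar P u z) u) hz) (Submodule.mem_sup_right this)
  convert this using 1
  abel

theorem exists_perp_pair (hn : 4 ≤ finrank K V) {u : V} (hu0 : u ≠ 0) (hu : P u = 0)
    {m : V ≃ₗ[F] V} (hp : Pair (gl M) (line F K u) m) : ∃ m : OG Q, m ∈ M ∧
      Pair (gl M) (line F K u) m.1 ∧ ∀ z ∈ im (line F K u) m.1, polar P u z = 0 := by
  have : FiniteDimensional F V := Module.Finite.trans K V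
  have : Finite F := Finite.of_injective _ (algebraMap F K).injective
  obtain ⟨m, hm, rfl⟩ := hp.mem
  by_cases hc : ∃ x ∈ im (line F K u) m.1, x ∉ line F K u ∧ polar P u x = 0
  · obtain ⟨x, h1, h2, h3⟩ := hc
    exact ⟨m, hm, hp, H.perp_of_one hH hn hu0 hu hp h1 h2 h3⟩
  push Not at hc
  obtain ⟨x, hx, hxL⟩ := hp.exists_X
  obtain ⟨s, hs0, hsL, hsX⟩ := hp.exists_S
  obtain ⟨φ, hφ⟩ := exists_dual_one (F := F) hs0
  obtain ⟨f, huf, hf⟩ := H.ndK.exists_hyp hu0 hu
  set X := im (line F K u) m.1
  have sX : Sing Q X := fun v hv => by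
    rw [← OG.apply_inv_self m v, OG.map_Q]; exact H.sing hu _ (mem_im.1 hv)
  set X' := X ⊓ LinearMap.ker φ
  set W := (perp P (Submodule.span K {u, f})).restrictScalars F
  have d1 : finrank F X' < finrank F K := by
    rw [← finrank_line (F := F) hu0, ← finrank_im (line F K u) m.1]
    exact Submodule.finrank_lt_finrank_of_lt (lt_of_le_of_ne inf_le_left fun e => by
      have : s ∈ X' := e ▸ hsX
      simpa [hφ] using this.2)
  have d2 : finrank F W = finrank F K * finrank K (perp P (Submodule.span K {u, f})) :=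
    (Module.finrank_mul_finrank F K (perp P (Submodule.span K {u, f}))).symm
  have d3 := H.ndK.finrank_perp_hyp hu hf huf
  have d4 : finrank F K * 2 ≤ finrank F K * finrank K (perp P (Submodule.span K {u, f})) :=
    Nat.mul_le_mul_left _ (by omega)
  let b := Module.finBasis F X'
  obtain ⟨⟨w, hw⟩, hw0, e⟩ := cw_quad (V := W)
    (fun i => Q.polarBilin.compl₁₂ W.subtype
      ((-(polar P u x * polar P u (b i) / 2) • (LinearMap.id : V →ₗ[K] V)).restrictScalars F ∘ₗ
        W.subtype))
    (fun i => Q.polarBilin (polar P u (b i) • x - polar P u x • (b i : V)) ∘ₗ W.subtype)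
    (by rw [Fintype.card_fin]; omega)
  have hw' := mem_perp_pair.1 hw
  set t := H.res (eich P u w)
  have a1 : ∀ y ∈ X, polar Q (t.1 x) y = 0 := by
    have a2 : ∀ y : X', polar Q (t.1 x) y = 0 := fun y => by
      suffices (Q.polarBilin (t.1 x)) ∘ₗ X'.subtype = 0 from LinearMap.congr_fun this y
      refine b.ext fun i => ?_
      have a3 := e i
      have a4 := sX.polar hx (b i).2.1
      simp only [LinearMap.compl₁₂_apply, Submodule.subtype_apply, LinearMap.comp_apply,
        LinearMap.restrictScalars_apply, LinearMap.smul_apply, LinearMap.id_apply,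
        polarBilin_apply_apply, H.pol, t, H.res_apply, eich_apply hu hw'.1, polar_sub_left,
        polar_add_left, p_smul_left, p_smul_right, p_self, LinearMap.zero_apply, ← map_add,
        polar_comm P x w, polar_comm P (b i : V) w] at a3 a4 ⊢
      have a5 := congrArg₂ (· + ·) a3 a4
      simp only [← map_add, add_zero] at a5
      rw [← a5]
      congr 1
      field_simp [H.twoK]
      ring
    intro y hy
    have a3 := a2 ⟨y - φ y • s, sub_mem hy (X.smul_mem _ hsX), by simp [hφ]⟩
    have a4 : polar Q (t.1 x) s = 0 := by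
      rw [← H.ke_fix hu hw'.1 hsL, OG.map_polar]; exact sX.polar hx hsX
    simpa [a4] using a3
  have a2 : t.1 x ∉ X := fun e' => by
    have a3 := sub_mem e' hx
    have a4 : t.1 x - x ∈ line F K u := by
      by_contra h
      exact hc _ a3 h (by simp [t, eich_apply hu hw'.1, hu, hw'.1])
    rw [H.res_apply, eich_apply hu hw'.1] at a4
    have a5 := sub_mem (smul_mem_line (polar P w x - P w * polar P u x) u) a4
    obtain ⟨k, hk⟩ := mem_line.1 (line_smul a5 (polar P u x)⁻¹)
    have a6 : k • u = w := by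
      rw [hk, show ∀ a b c : V, a - (b + a - c - b) = c from fun a b c => by abel, smul_smul,
        inv_mul_cancel₀ (hc x hx hxL), one_smul]
    have := hw'.2
    rw [← a6, p_smul_right, polar_comm, huf, mul_one] at this
    exact hw0 (Subtype.ext (by simp [← a6, this]))
  have hp' := hp.of_fix (mem_gl (H.ke hH u w)) (fun s hs => H.ke_fix hu hw'.1 hs) hx a2
  refine ⟨m⁻¹ * t * m, mul_mem (mul_mem (inv_mem hm) (H.ke hH u w)) hm, hp',
    H.perp_of_one hH hn hu0 hu hp' (x := m.1.symm (t.1 x)) ?_ (fun e' => a2 (mem_im.2 e'))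
      (H.zero_of' fun l hl => ?_)⟩
  · have : (m⁻¹ * t * m).1 (m.1.symm x) ∈ im (line F K u) (m⁻¹ * t * m).1 :=
      apply_mem_im.2 (mem_im.1 hx)
    simpa using this
  · rw [← OG.map_polar m, LinearEquiv.apply_symm_apply, polar_comm]
    exact a1 _ (apply_mem_im.2 hl)

omit [Finite K] in
theorem codim (hr : (finrank F K).Prime) {u : V} (hu : P u = 0) {m : V ≃ₗ[F] V}
    (hp : Pair (gl M) (line F K u) m) (h1 : ∀ z ∈ im (line F K u) m, polar P u z = 0) :
    ∃ x ∈ im (line F K u) m, x ∉ line F K u ∧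
      ∀ z ∈ im (line F K u) m, ∃ c : F, z - c • x ∈ line F K u := by
  have : FiniteDimensional F V := Module.Finite.trans K V
  obtain ⟨x, hx, hxL⟩ := hp.exists_X
  refine ⟨x, hx, hxL, fun z hz => codim_of_key hr.two_le hxL fun ψ e0 e1 =>
    hp.phi_mem hr hx hxL e1 (fun s hs _ => ?_) hz⟩
  obtain ⟨k, rfl⟩ := mem_line.1 hs
  obtain ⟨v, hv⟩ := H.ndK.exists_polar_eq ψ
  have a1 : polar P u (k • v) = 0 := by simp [polar_comm P u, hv, e0]
  exact ⟨_, mem_gl (H.ke hH u (k • v)), fun l hl => H.ke_fix hu a1 hl, fun z hz => by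
    simp [eich_apply hu a1, h1 z hz, hv, smul_smul, mul_comm]⟩

end OTr

end Cfsg.Agent.Max2
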