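import Mathlib
import Cfsg.Agent.Max2.OExt2

/-!
# Maximality of orthogonal extension-field subgroups in `Ω_n(q)`, `q` odd, `n / r ≥ 4`
-/

set_option autoImplicit false

namespace Cfsg.Agent.Max2

open Module Cfsg.Agent.Max QuadraticMap Orth

variable {F K V : Type*} [Field F] [Field K] [Algebra F K] [AddCommGroup V] [Module F V]
  [Module K V] [IsScalarTower F K V] {Q : QuadraticForm F V} {P : QuadraticForm K V}
  {τ : Dual F K} {M : Subgroup (OG Q)}

namespace OTr

variable (H : OTr Q P τ) [FiniteDimensional F K] [FiniteDimensional K V]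
  (hH : ∀ g ∈ commutator (OG P), H.res g ∈ M)
include H hH

omit [FiniteDimensional F K] in
theorem root_of {u : V} (hu : P u = 0) {a : OG Q} (ha : a ∈ M)
    (h1 : ∀ l ∈ line F K u, a.1 l = l) {x y w : V} (hw : polar P u w = 0)
    (hxw : polar P w x = 1)
    (h2 : ∀ z z', polar P u z = 0 → polar P u z' = 0 → polar Q (a.1 z) z' - polar Q z (a.1 z') =
      2 * (polar Q z' x * polar Q y z - polar Q z x * polar Q y z')) :
    eich Q u ((2 * polar P w y) • u) ∈ M := by
  set b := H.res (eich P u w)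
  have hb : ∀ v, b.1 v - v = (polar P w v - P w * polar P u v) • u - polar P u v • w := fun v => by
    rw [H.res_apply, eich_apply hu hw]; abel
  have a1 : ∀ v, polar P u (a.1 v) = polar P u v := fun v => by
    rw [← sub_eq_zero, ← polar_sub_right]
    exact H.zero_of' fun l hl => by rw [polar_sub_right, ← h1 l hl, OG.map_polar, h1 l hl, sub_self]
  have a2 : ∀ v, polar P u ((a⁻¹).1 v) = polar P u v := fun v => by
    rw [← a1, OG.apply_inv_self]
  have hc : ∀ v, (a * b * a⁻¹).1 v - v = (polar P w ((a⁻¹).1 v) - P w * polar P u v) • u -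
      a.1 (polar P u v • w) := fun v => by
    have := congrArg a.1 (hb ((a⁻¹).1 v))
    rwa [map_sub, OG.apply_inv_self, map_sub, h1 _ (smul_mem_line _ _), a2] at this
  have := heis_om H.nd (H.sing hu) (g := a * b * a⁻¹) (g' := b) (s := u)
    (s' := (2 * polar P w y) • u)
    (fun v => by rw [H.mem_perp_line, hc]; simp [hu, a1, hw])
    (fun v hv => by rw [H.mem_perp_line] at hv; rw [hc]; simp [hv, smul_mem_line])
    (fun v => by rw [H.mem_perp_line, hb]; simp [hu, hw])
    (fun v hv => by rw [H.mem_perp_line] at hv; rw [hb]; simp [hv, smul_mem_line])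
    (self_mem_line u) (smul_mem_line _ u) fun v v' => by
      have e := h2 (polar P u v • w) (polar P u v' • w) (by simp [hw]) (by simp [hw])
      have e1 : ∀ (k : K) (z : V), polar P u z = 0 → polar Q (k • u) z = 0 := fun k z hz =>
        H.q_line hz (smul_mem_line k u)
      have e2 : ∀ (k : K) (z : V), polar P u z = 0 → polar Q z (k • u) = 0 := fun k z hz => by
        rw [polar_comm, e1 k z hz]
      have e3 : ∀ k : K, τ (2 * k) = 2 * τ k := fun k => by rw [two_mul, map_add, two_mul]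
      simp only [hb, hc, polar_sub_left, polar_sub_right]
      rw [e1 _ _ (by simp [hu]), e1 _ _ (by simp [hw]), e2 _ _ (by simp [a1, hw]),
        e1 _ _ (by simp [hu]), e1 _ _ (by simp [a1, hw]), e2 _ _ (by simp [hw])]
      simp only [zero_sub, sub_neg_eq_add, zero_add, sub_self, e]
      simp only [H.pol, p_smul_left, p_smul_right, hxw, polar_comm P y w, mul_one, mul_assoc, e3,
        mul_comm (polar P w y)]
      ring
  have hb' : b ∈ M := H.ke hH u w
  have hc' : a * b * a⁻¹ ∈ M := mul_mem (mul_mem ha hb') (inv_mem ha)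
  exact (mul_mem_cancel_right (mul_mem hb' hc')).1 (this ▸ mul_mem hc' hb')

variable [Finite K]

theorem exists_root (hr : (finrank F K).Prime) (hn : 4 ≤ finrank K V) {g : OG Q} (hg : g ∈ M)
    (hgH : ¬ Semi K g.1) : ∃ u, u ≠ 0 ∧ P u = 0 ∧ ∃ c : K, (∀ d : F, algebraMap F K d ≠ c) ∧
      eich Q u (c • u) ∈ M := by
  have : FiniteDimensional F V := Module.Finite.trans K V
  obtain ⟨u, m, hu0, hu, hp⟩ := H.exists_pair hH hn hg hgH
  obtain ⟨m, hm, hp, h1⟩ := H.exists_perp_pair hH hn hu0 hu hp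
  have mi : ∀ z, z ∈ im (line F K u) m.1⁻¹ ↔ m.1 z ∈ line F K u := fun z => mem_im (g := m.1⁻¹)
  have h1' : ∀ z ∈ im (line F K u) m.1⁻¹, polar P u z = 0 := fun z hz => H.zero_of' fun l hl => by
    rw [← OG.map_polar m, polar_comm]
    exact H.q_line (h1 _ (apply_mem_im.2 hl)) ((mi _).1 hz)
  obtain ⟨x, hx, hxL, h2⟩ := H.codim hH hr hu hp h1
  obtain ⟨p, hp1, -, h3⟩ := H.codim hH hr hu hp.symm h1'
  obtain ⟨y, y1, y2, y3⟩ := H.not_le_sup hn hu0 hp.symm p
  obtain ⟨f, f1, f2⟩ := H.nd.exists_orth_polar_one (im (line F K u) m.1⁻¹) (u := m.1.symm x)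
    fun e => hxL (by simpa using (mi _).1 e)
  have a1 : ∀ z, (∀ l ∈ im (line F K u) m.1⁻¹, polar Q l z = 0) →
      polar P u z = polar Q (m.1.symm x) z • polar P u f := fun z hz => by
    rw [← algebraMap_smul K, smul_eq_mul, ← p_smul_right, algebraMap_smul, ← sub_eq_zero,
      ← polar_sub_right]
    refine H.zero_of' fun l hl => ?_
    obtain ⟨c, hc⟩ := h2 _ (apply_mem_im.2 hl)
    have b1 : l - c • m.1.symm x ∈ im (line F K u) m.1⁻¹ := (mi _).2 (by simpa using hc)
    have b2 := hz _ b1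
    have b3 := f1 _ b1
    simp only [polar_sub_left, polar_sub_right, p_smul_left, p_smul_right, f2] at b2 b3 ⊢
    linear_combination b2 - polar Q (m.1.symm x) z * b3
  have a2 : polar P u f ≠ 0 := fun e => by
    rw [H.q_line e (mem_im.1 hx)] at f2; exact zero_ne_one f2
  set w := (polar P u f)⁻¹ • y
  have w1 : polar P u w = 0 := by simp [w, y1]
  have w2 : ∀ z ∈ im (line F K u) m.1⁻¹, polar P w z = 0 := fun z hz => by
    obtain ⟨c, hc⟩ := h3 z hz
    have := p_line (F := F) w1 hc
    rw [polar_sub_left, ← algebraMap_smul K c] at this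
    simpa [w, y2, polar_comm P y, a2] using this
  have w3 : y = polar P u f • w := by simp [w, smul_smul, a2]
  obtain ⟨ψ, ψ1, ψ2, ψ3⟩ : ∃ ψ : Dual K V, ψ u = 0 ∧ ψ x = 1 ∧
      ∀ c : F, algebraMap F K c ≠ ψ (m.1 y) := by
    by_contra hc
    push Not at hc
    obtain ⟨c, hc⟩ := codim_of_key hr.two_le hxL hc
    refine y3 ?_
    have : m.1.symm (m.1 y - c • x) ∈ im (line F K u) m.1⁻¹ :=
      (mi _).2 (by simpa using hc)
    simpa using Submodule.add_mem_sup (Submodule.smul_mem _ c (mem_im.1 hx)) this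
  obtain ⟨v, hv⟩ := H.ndK.exists_polar_eq ψ
  refine ⟨u, hu0, hu, 2 * polar P v (m.1 y), fun d e => ψ3 (d / 2) ?_, H.root_of hH hu
    (a := m * H.res (eich P u w) * m⁻¹) (mul_mem (mul_mem hm (H.ke hH u w)) (inv_mem hm))
    (fun l hl => ?_) (x := x) (by rw [polar_comm, hv, ψ1]) (by rw [hv, ψ2])
    fun z z' hz hz' => ?_⟩
  · rw [map_div₀, e, map_ofNat, hv]; field_simp [H.twoK]
  · have : (m⁻¹).1 l ∈ im (line F K u) m.1⁻¹ := apply_mem_im.2 hl
    rw [OG.mul_apply, OG.mul_apply, H.res_apply, eich_apply_of_orth hu w1 (h1' _ this) (w2 _ this),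
      OG.apply_inv_self]
  · have b1 : ∀ z, polar P u z = 0 → polar P u ((m⁻¹).1 z) = polar Q z x • polar P u f :=
      fun z hz => by
        rw [a1 _ fun l hl => by
          rw [OG.polar_inv_right]; exact H.q_line hz ((mi _).1 hl)]
        congr 1
        rw [OG.polar_inv_right, LinearEquiv.apply_symm_apply, polar_comm]
    have b2 : ∀ z, polar Q (m.1 y) z = τ (polar P u f * polar P w ((m⁻¹).1 z)) := fun z => by
      rw [← OG.polar_inv_right, H.pol, ← p_smul_left, ← w3]
    rw [OG.mul_apply, OG.mul_apply, OG.mul_apply, OG.mul_apply, ← OG.polar_inv_right m,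
      ← OG.polar_inv_left m, b2, b2]
    simp only [H.res_apply, eich_apply hu w1, H.pol, polar_sub_left, polar_sub_right,
      polar_add_left, polar_add_right, p_smul_left, p_smul_right, polar_comm P _ u,
      polar_comm P ((m⁻¹).1 z) w, b1 z hz, b1 z' hz', ← map_sub]
    rw [← H.pol, ← H.pol, ← smul_eq_mul (polar Q z' x), ← smul_eq_mul (polar Q z x), ← map_smul,
      ← map_smul, ← map_sub, two_mul, ← map_add]
    congr 1
    simp only [Algebra.smul_def]
    ring

theorem om_gen (hn : 4 ≤ finrank K V) {u : V} (hu0 : u ≠ 0) (hu : P u = 0)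
    {c : K} (hc : ∀ d : F, algebraMap F K d ≠ c) (h : eich Q u (c • u) ∈ M) :
    commutator (OG Q) ≤ M := by
  have : FiniteDimensional F V := Module.Finite.trans K V
  have : Finite F := Finite.of_injective _ (algebraMap F K).injective
  have sq : ∀ v, P v = 0 → Q v = 0 := fun v hv => by rw [H.eq, hv, map_zero]
  have k1 : ∀ v, P v = 0 → c • v ∈ OA M v := fun v hv => ⟨by simp [H.pol, hv], by
    by_cases h0 : v = 0
    · simp [h0]
    obtain ⟨t, ht, rfl⟩ := sing_trans H.ndK H.good hn hu0 h0 hu hv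
    rw [← map_smul, ← H.res_apply, ← H.res_apply, ← eich_conj]
    exact mul_mem (mul_mem (hH t ht) h) (inv_mem (hH t ht))⟩
  have hc0 : c ≠ 0 := fun e => hc 0 (by rw [e, map_zero])
  obtain ⟨γ, γ1, γ2⟩ : ∃ γ : K, τ γ = 1 ∧ τ (c * γ) = 0 := by
    obtain ⟨φ, h1, h2⟩ := exists_dual_two (F := F) (a := c) (x := (1 : K)) fun e => by
      obtain ⟨d, hd⟩ := Submodule.mem_span_singleton.1 e
      exact hc d⁻¹ (by
        rw [Algebra.smul_def] at hd; rw [map_inv₀]; exact inv_eq_of_mul_eq_one_right hd)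
    obtain ⟨ψ, hψ⟩ := exists_dual_comp (V := K) H.ne φ
    exact ⟨ψ 1, by rw [← hψ, h2], by rw [← smul_eq_mul, ← map_smul, ← hψ]; simpa using h1⟩
  have γ0 : γ ≠ 0 := by rintro rfl; simp at γ1
  have k2 : ∀ u f, P u = 0 → P f = 0 → polar P u f = 1 → ∀ w, polar P u w = 0 → polar P f w = 0 →
      w ∈ OE M u := fun u f hu hf huf w h1 h2 => by
    have b1 : P (γ • f) = 0 := by simp [q_smul, hf]
    have b2 := k1 _ b1
    set ζ := eich Q (γ • f) (c • γ • f)
    have hζ : ∀ v, ζ.1 v = v + τ (c * γ * polar P f v) • γ • f - τ (γ * polar P f v) • c • γ • f :=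
      fun v => by
        rw [eich_apply (sq _ b1) b2.1, sq (c • γ • f) (by simp [q_smul, hf])]
        simp [H.pol, mul_assoc]
    have b3 : ζ.1 u = u - (c * γ) • f := by simp [hζ, polar_comm P f, huf, γ1, γ2, mul_smul]
    have b4 : P (ζ.1 u) ≠ 0 := by simp [b3, q_sub, q_smul, hu, hf, huf, hc0, γ0]
    have a0 : NDS P (K ∙ ζ.1 u) := fun w hw e => by
      obtain ⟨c, rfl⟩ := Submodule.mem_span_singleton.1 hw
      have := e _ (Submodule.mem_span_singleton_self _)
      simp only [p_smul_left, p_self, mul_eq_zero, H.twoK, b4, or_self, or_false] at this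
      simp [this]
    have a2 := H.ndK.finrank_perp_add (K ∙ ζ.1 u)
    rw [finrank_span_singleton (ne_zero_of_Q_ne_zero b4)] at a2
    have a3 := orth_irr H.twoK (a0.perp H.ndK) (by omega) (OA M (ζ.1 u)) (fun e he w hw y hy => by
      have := OA.map hy (H.ke hH e w)
      by_cases h : P e = 0 ∧ polar P e w = 0
      · rwa [H.res_apply, eich_apply_of_orth h.1 h.2
          (mem_perp'.1 he _ (Submodule.mem_span_singleton_self _))
          (mem_perp'.1 hw _ (Submodule.mem_span_singleton_self _))] at this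
      · rwa [eich_of_not h]) (OA.map (k1 u hu) b2.2) ⟨u + (c * γ) • f, by
        simp [mem_perp_singleton, b3, hu, hf, huf, polar_comm P f], fun e => by
        simp only [hζ, p_smul_right, polar_comm P f, huf, mul_one, mul_comm γ c, γ2, zero_smul,
          sub_zero, polar_add_left, polar_add_right, ← algebraMap_smul K (τ _), p_smul_left, p_self,
          hu, hf, mul_zero, zero_add, add_zero] at e
        have e1 : c * c = algebraMap F K (-τ (c * γ * c)) := by
          rw [map_neg]; exact mul_right_cancel₀ γ0 (by linear_combination e)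
        have e2 : τ (c * γ * c) = -τ (c * γ * c) := by
          conv_lhs => rw [mul_right_comm, e1, ← Algebra.smul_def, map_smul, γ1, smul_eq_mul, mul_one]
        have e3 : τ (c * γ * c) = 0 :=
          (mul_eq_zero.1 (show 2 * τ (c * γ * c) = 0 by linear_combination e2)).resolve_left H.two
        rw [e3, neg_zero, map_zero] at e1
        exact hc0 (mul_self_eq_zero.1 e1)⟩
    refine ⟨by simp [H.pol, h1], fun d => ?_⟩
    have a4 := OA.map (a3 (d • w) (by
      rw [mem_perp_singleton, b3, ← algebraMap_smul K d]; simp [h1, h2])) (inv_mem b2.2)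
    rw [OG.inv_apply_self] at a4
    have a5 : ζ.1 (d • w) = d • w := by rw [map_smul, hζ]; simp [h2]
    rw [← a5, OG.inv_apply_self] at a4
    exact a4.2
  have k3 : ∀ u, P u = 0 → ∀ w, polar P u w = 0 → w ∈ OE M u := fun u hu w hw => by
    by_cases h0 : u = 0
    · exact ⟨by simp [h0], fun c => by simp [h0]⟩
    obtain ⟨f, huf, hf⟩ := H.ndK.exists_hyp h0 hu
    obtain ⟨b, b1, b2, b3⟩ := exists_perp_Q H.ndK hn hu hf (by simp [huf]) 1
    have b4 : polar P u ((polar P f w / 2) • b) = 0 := by simp [b1]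
    have := OE.map_fix (k2 u f hu hf huf b b1 b2) (H.ke hH u ((polar P f w / 2) • b))
      (eich_apply_left hu b4)
    rw [H.res_apply, eich_apply hu b4] at this
    have := (OE M u).add_mem ((OE M u).sub_mem this (k2 u f hu hf huf b b1 b2))
      (k2 u f hu hf huf (w - polar P f w • u) (by simp [hw, hu]) (by simp [polar_comm P f u, huf]))
    simpa [b1, b3, H.twoK] using this
  obtain ⟨k, hk⟩ := exists_apply_one H.ne
  have k4 : ∀ z, z ≠ 0 → P z = 0 → OP M z := fun z hz0 hz => ⟨sq z hz, fun x hx => by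
    obtain ⟨f, hzf, hf⟩ := H.ndK.exists_hyp hz0 hz
    obtain ⟨w, a1, a2, a3⟩ := exists_perp_Q H.ndK hn hz hf (by simp [hzf]) 1
    have a4 : P (polar P z x • f) = 0 := by simp [q_smul, hf]
    have := OE.grow (k3 z hz ((k / 2) • w) (by simp [a1])) (sq _ a4)
      (k3 _ a4 w (by simp [a2])) (by rw [polar_comm, H.pol]; simpa [hzf, H.pol] using hx)
      (by rw [polar_comm, H.pol, a1, map_zero])
    simpa [H.pol, a2, a3, hk, H.twoK] using (OE M z).add_mem this
      (k3 z hz (x - polar P z x • f) (by simp [hzf]))⟩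
  obtain ⟨f, hzf, hf⟩ := H.ndK.exists_hyp hu0 hu
  have e := Module.finrank_mul_finrank F K V
  have e2 : 2 ≤ finrank F K := by
    by_contra hn'
    have : finrank F K = 1 := by have := Module.finrank_pos (R := F) (M := K); omega
    obtain ⟨d, hd⟩ := (finrank_eq_one_iff_of_nonzero' (1 : K) one_ne_zero).1 this c
    exact hc d (by rw [← hd, Algebra.smul_def, mul_one])
  refine om_le_of_pair H.nd (by nlinarith) (k4 _ hu0 hu)
    (k4 (k • f) (fun e => ?_) (by simp [q_smul, hf])) (by simp [H.pol, hzf, hk])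
  have := congrArg (fun x => τ (polar P u x)) e
  simp [hzf, hk] at this

omit hH in
theorem om_not_semi (hr : 2 ≤ finrank F K) (hn : 4 ≤ finrank K V) :
    ∃ g ∈ commutator (OG Q), ¬ Semi K g.1 := by
  have : FiniteDimensional F V := Module.Finite.trans K V
  have e := Module.finrank_mul_finrank F K V
  obtain ⟨u, hu0, hu⟩ := exists_singular P (by omega)
  obtain ⟨f, huf, hf⟩ := H.ndK.exists_hyp hu0 hu
  obtain ⟨w, a1, -, a3⟩ := exists_perp_Q H.ndK hn hu hf (by simp [huf]) 1
  obtain ⟨d, hd, hd0⟩ := Submodule.exists_mem_ne_zero_of_ne_bot (p := LinearMap.ker τ) fun e => by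
    have := LinearMap.finrank_range_add_finrank_ker τ
    have h2 := Submodule.finrank_le (LinearMap.range τ)
    rw [e, finrank_bot] at this
    rw [Module.finrank_self] at h2
    omega
  obtain ⟨c, hc⟩ := exists_apply_one H.ne
  exact ⟨_, H.nd.eich_mem_commutator (good_of_five_le (by nlinarith)) u w,
    not_semi_eich (y := (d / 2) • w) (k := c / d) hu0 (by rw [H.eq, hu, map_zero])
      (by simp [H.pol, a1]) (by simp [H.pol, hu]) (by simp [H.pol, polar_comm P w, a1])
      (by simp [H.pol, a1]) (by simpa [H.pol, a3, H.twoK] using hd) (by simp [H.pol, a1])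
      (by simp [H.pol, a3, hd0, hc, H.twoK])⟩

end OTr

theorem exists_oTr [FiniteDimensional F K] [FiniteDimensional K V] (hQ : ND Q) (h2 : (2 : F) ≠ 0)
    (h1 : ∀ (k : K) x y, polar Q (k • x) y = polar Q x (k • y)) :
    ∃ (P : QuadraticForm K V) (τ : Dual F K), OTr Q P τ := by
  obtain ⟨τ, hτ⟩ := exists_dual_one (F := F) (one_ne_zero (α := K))
  have hτ0 : τ ≠ 0 := by rintro rfl; simp at hτ
  obtain ⟨β, hβ⟩ := exists_tr hτ0 Q.polarBilin (RingHom.id K) h1
  have h2' : (2 : K) ≠ 0 := UTr.two_ne h2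
  have hs : ∀ x y, β y x = β x y := fun x y => eq_of_tr hτ0 fun k => by
    have a := hβ y (k • x)
    have b := hβ x (k • y)
    simp only [map_smul, smul_eq_mul, polarBilin_apply_apply] at a b
    rw [← a, ← b, ← h1, polar_comm]
  have hp : ∀ x y, polar (((2 : K)⁻¹ • LinearMap.BilinMap.toQuadraticMap β : QuadraticForm K V)) x y
      = β x y := fun x y => by
    simp only [polar, smul_apply, LinearMap.BilinMap.toQuadraticMap_apply, map_add,
      LinearMap.add_apply, hs x y, smul_eq_mul]
    field_simp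
    ring
  refine ⟨(2 : K)⁻¹ • LinearMap.BilinMap.toQuadraticMap β, τ, fun v => ?_, hτ0,
    fun x hx => hQ x fun y => ?_, h2⟩
  · have := hβ v v
    rw [polarBilin_apply_apply, p_self] at this
    rw [smul_apply, LinearMap.BilinMap.toQuadraticMap_apply,
      show (2 : K)⁻¹ = algebraMap F K 2⁻¹ by rw [map_inv₀, map_ofNat], algebraMap_smul, map_smul,
      ← this, smul_eq_mul, inv_mul_cancel_left₀ h2]
  · rw [← polarBilin_apply_apply, hβ, ← hp, hx, map_zero]

open Geo Asch Matrix in
theorem max_om_ext [Finite F] {ι : Type} [Fintype ι] [DecidableEq ι] {Q : QuadraticForm F (ι → F)}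
    (hQ : ND Q) (h2 : (2 : F) ≠ 0) {r : ℕ} (hr : r.Prime) (hn : 3 * r < Fintype.card ι)
    {K : Subalgebra F (Matrix ι ι F)} (hK : IsFieldSubalgebra r K)
    (hsa : IsSelfAdjointFor (polar Q) K) :
    IsMaximalIn (omegaGL ⇑Q) (subalgebraNormalizer K ⊓ omegaGL ⇑Q) := by
  have : Nonempty ι := Fintype.card_pos_iff.1 (by omega)
  let := (isField_of hK.comm hK.inv).toField
  have : FiniteDimensional K (ι → F) := Module.Finite.of_restrictScalars_finite F K _
  have : Finite K := Module.finite_of_finite F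
  obtain ⟨P, τ, H⟩ := exists_oTr (K := K) hQ h2 fun k => hsa k.1 k.2
  have e := Module.finrank_mul_finrank F K (ι → F)
  rw [Module.finrank_fintype_fun_eq_card, hK.finrank_eq] at e
  have hn' : 4 ≤ finrank K (ι → F) := by
    by_contra hc
    have : r * finrank K (ι → F) ≤ r * 3 := Nat.mul_le_mul_left _ (by omega)
    omega
  refine isMaximalIn_Om (Semi K) mem_normalizer_iff
    (H.om_not_semi (hK.finrank_eq ▸ hr.two_le) hn') fun M h1 _ ⟨g, hg, h3⟩ => ?_
  have hH : ∀ g ∈ commutator (OG P), H.res g ∈ M := fun g hg =>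
    h1 _ (map_mem_commutator H.res hg) (semi_restrict g.1)
  obtain ⟨u, hu0, hu, c, hc, h⟩ := H.exists_root hH (hK.finrank_eq ▸ hr) hn' hg h3
  exact H.om_gen hH hn' hu0 hu hc h

end Cfsg.Agent.Max2
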