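import Mathlib
import Cfsg.Agent.Max2.TenSL
import Cfsg.Agent.Max2.SpCore
import Cfsg.Agent.Asch.TForm

/-!
# Tensor products of forms
-/

set_option autoImplicit false

namespace Cfsg.Agent.Max2

open Module Cfsg.Agent.Max TensorProduct Classical.SpWitt

variable {F U W : Type*} [Field F] [AddCommGroup U] [Module F U] [AddCommGroup W] [Module F W]

theorem cU_sub (φ φ' : Dual F U) (x : U ⊗[F] W) : cU W (φ - φ') x = cU W φ x - cU W φ' x := by
  rw [eq_sub_iff_add_eq, ← cU_add, sub_add_cancel]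

theorem congr_one_apply (b : W ≃ₗ[F] W) (φ : Dual F W) (x : U ⊗[F] W) :
    cW U φ (TensorProduct.congr (1 : U ≃ₗ[F] U) b x) = cW U (φ ∘ₗ (b : W →ₗ[F] W)) x := by
  induction x with
  | zero => simp
  | tmul u w => simp
  | add x y hx hy => simp only [map_add, hx, hy]

theorem cW_congr (a : U ≃ₗ[F] U) (φ : Dual F W) (x : U ⊗[F] W) :
    cW U φ (TensorProduct.congr a (1 : W ≃ₗ[F] W) x) = a (cW U φ x) := by
  induction x with
  | zero => simp
  | tmul u w => simp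
  | add x y hx hy => simp only [map_add, hx, hy]

/-- The decomposable maps form a subgroup. -/
def tSub (F U W : Type*) [Field F] [AddCommGroup U] [Module F U] [AddCommGroup W] [Module F W] :
    Subgroup ((U ⊗[F] W) ≃ₗ[F] (U ⊗[F] W)) where
  carrier := {g | IsT g}
  mul_mem' := by
    rintro g h ⟨a, b, e⟩ ⟨a', b', e'⟩
    exact ⟨a * a', b * b', fun u w => by simp [e, e']⟩
  one_mem' := ⟨1, 1, fun _ _ => rfl⟩
  inv_mem' := by
    rintro g ⟨a, b, e⟩
    exact ⟨a⁻¹, b⁻¹, fun u w => by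
      rw [LinearEquiv.coe_inv, LinearEquiv.symm_apply_eq, e]; simp⟩

theorem mem_tSub {g : (U ⊗[F] W) ≃ₗ[F] (U ⊗[F] W)} : g ∈ tSub F U W ↔ IsT g := Iff.rfl

theorem IsT.im_LW {g : (U ⊗[F] W) ≃ₗ[F] (U ⊗[F] W)} (h : IsT g) (w : W) :
    ∃ w', im (LW F U w) g = LW F U w' := by
  obtain ⟨a, b, e⟩ := h
  refine ⟨b w, le_antisymm ?_ ?_⟩
  · rintro _ ⟨_, ⟨u, rfl⟩, rfl⟩
    exact ⟨a u, (e u w).symm⟩
  · rintro _ ⟨u, rfl⟩
    exact ⟨a.symm u ⊗ₜ w, tmul_mem_LW _ _, by simp [e]⟩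

theorem eq_zero_of_ker {V : Type*} [AddCommGroup V] [Module F V] {f : U ⊗[F] W →ₗ[F] V}
    {φ : Dual F W} (hφ : φ ≠ 0) (h : ∀ u v, φ v = 0 → f (u ⊗ₜ v) = 0) {x : U ⊗[F] W}
    (hx : cW U φ x = 0) : f x = 0 := by
  obtain ⟨y, hy⟩ := exists_apply_one hφ
  have : ∀ x, f x = f (cW U φ x ⊗ₜ y) := fun x => by
    induction x with
    | zero => simp
    | tmul u w =>
      have := h u (w - φ w • y) (by simp [hy])
      rw [tmul_sub, map_sub, sub_eq_zero] at this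
      rw [this, cW_tmul, smul_tmul]
    | add x z hx hz => rw [map_add, hx, hz, map_add, add_tmul, map_add]
  rw [this, hx]; simp

theorem eq_zero_of_ker' {V : Type*} [AddCommGroup V] [Module F V] {f : U ⊗[F] W →ₗ[F] V}
    {φ : Dual F U} (hφ : φ ≠ 0) (h : ∀ u v, φ u = 0 → f (u ⊗ₜ v) = 0) {x : U ⊗[F] W}
    (hx : cU W φ x = 0) : f x = 0 := by
  obtain ⟨y, hy⟩ := exists_apply_one hφ
  have : ∀ x, f x = f (y ⊗ₜ cU W φ x) := fun x => by
    induction x with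
    | zero => simp
    | tmul u w =>
      have := h (u - φ u • y) w (by simp [hy])
      rw [sub_tmul, map_sub, sub_eq_zero] at this
      rw [this, cU_tmul, smul_tmul]
    | add x z hx hz => rw [map_add, hx, hz, map_add, tmul_add, map_add]
  rw [this, hx]; simp

/-- Quadratic decomposable elements in odd characteristic. -/
theorem IsT.quad (h2 : (2 : F) ≠ 0) [Nontrivial U] [Nontrivial W]
    {g : (U ⊗[F] W) ≃ₗ[F] (U ⊗[F] W)} (h : IsT g) {N : U ⊗[F] W →ₗ[F] U ⊗[F] W}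
    (e : ∀ x, g x = x + N x) (hN : ∀ x, N (N x) = 0) :
    (∃ ν : W →ₗ[F] W, ∀ u w, N (u ⊗ₜ w) = u ⊗ₜ ν w) ∨
      ∃ α : U →ₗ[F] U, ∀ u w, N (u ⊗ₜ w) = α u ⊗ₜ w := by
  obtain ⟨a, b, h⟩ := h
  have h1 : ∀ u w, N (u ⊗ₜ w) = a u ⊗ₜ b w - u ⊗ₜ w := fun u w => by rw [← h, e]; simp
  by_cases ha : ∃ c : F, (a : U →ₗ[F] U) = c • LinearMap.id
  · obtain ⟨c, hc⟩ := ha
    refine Or.inl ⟨c • (b : W →ₗ[F] W) - LinearMap.id, fun u w => ?_⟩
    have : a u = c • u := LinearMap.congr_fun hc u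
    simp [h1, this, tmul_sub, smul_tmul']
  by_cases hb : ∃ c : F, (b : W →ₗ[F] W) = c • LinearMap.id
  · obtain ⟨c, hc⟩ := hb
    refine Or.inr ⟨c • (a : U →ₗ[F] U) - LinearMap.id, fun u w => ?_⟩
    have : b w = c • w := LinearMap.congr_fun hc w
    simp [h1, this, sub_tmul, smul_tmul']
  push Not at ha hb
  obtain ⟨u, hu⟩ := exists_not_eigen ha
  obtain ⟨w, hw⟩ := exists_not_eigen hb
  have hu0 : u ≠ 0 := by rintro rfl; simp at hu
  have hw0 : w ≠ 0 := by rintro rfl; simp at hw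
  obtain ⟨ψ, a1, a2⟩ := exists_dual_two hu
  obtain ⟨ψ', a3, a4⟩ := exists_dual_two (not_mem_span_symm hu hu0)
  obtain ⟨φ, b1, b2⟩ := exists_dual_two hw
  obtain ⟨φ', b3, b4⟩ := exists_dual_two (not_mem_span_symm hw hw0)
  have h3 := hN (u ⊗ₜ w)
  rw [h1, map_sub, h1, h1] at h3
  simp only [LinearEquiv.coe_coe] at a2 a3 b2 b3
  have c1 := congrArg (fun x => φ (cU W ψ x)) h3
  have c2 := congrArg (fun x => φ' (cU W ψ' x)) h3
  have c3 := congrArg (fun x => φ (cU W ψ' x)) h3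
  have c4 := congrArg (fun x => φ' (cU W ψ x)) h3
  simp only [map_sub, cU_tmul, map_smul, a1, a2, a3, a4, b1, b2, b3, b4, smul_eq_mul,
    map_zero] at c1 c2 c3 c4
  exact absurd (by
    linear_combination (ψ' (a (a u)) * φ' (b (b w))) * c1 + 2 * c2 -
      (ψ (a (a u)) * φ' (b (b w))) * c3) h2

/-- `B` is the tensor product of `β₁` and `β₂`. -/
def TB (B : LinearMap.BilinForm F (U ⊗[F] W)) (β₁ : LinearMap.BilinForm F U)
    (β₂ : LinearMap.BilinForm F W) : Prop :=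
  ∀ u w u' w', B (u ⊗ₜ w) (u' ⊗ₜ w') = β₁ u u' * β₂ w w'

namespace TB

variable {B : LinearMap.BilinForm F (U ⊗[F] W)} {β₁ : LinearMap.BilinForm F U}
  {β₂ : LinearMap.BilinForm F W} (h : TB B β₁ β₂)
include h

theorem left (u : U) (w : W) (x : U ⊗[F] W) : B (u ⊗ₜ w) x = β₁ u (cW U (β₂ w) x) := by
  induction x with
  | zero => simp
  | tmul u' w' => simp [h u w, mul_comm]
  | add x y hx hy => simp only [map_add, hx, hy]

theorem right (u : U) (w : W) (x : U ⊗[F] W) : B (u ⊗ₜ w) x = β₂ w (cU W (β₁ u) x) := by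
  rw [h.left, dual_cU]

theorem congr_mem {a : U ≃ₗ[F] U} {b : W ≃ₗ[F] W} {μ : F}
    (ha : ∀ u v, μ * β₁ (a u) (a v) = β₁ u v) (hb : ∀ u v, β₂ (b u) (b v) = μ * β₂ u v) :
    TensorProduct.congr a b ∈ SG B := fun x y => by
  induction x with
  | zero => simp
  | tmul u w =>
    induction y with
    | zero => simp
    | tmul u' w' => rw [congr_tmul, congr_tmul, h, h, hb, ← ha u u']; ring
    | add y z hy hz => simp only [map_add, hy, hz]
  | add x z hx hz => simp only [map_add, LinearMap.add_apply, hx, hz]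

theorem nd [FiniteDimensional F W] (h1 : β₁.Nondegenerate) (h2 : β₂.Nondegenerate)
    (hr : B.IsRefl) : B.Nondegenerate := by
  have : ∀ x, (∀ y, B y x = 0) → x = 0 := fun x hx => eq_zero_of_cW fun φ => by
    obtain ⟨w, rfl⟩ := sp_exists_dual h2 φ
    exact h1.2 _ fun u => by rw [← h.left, hx]
  exact ⟨fun x hx => this x fun y => hr _ _ (hx y), this⟩

theorem of_pure {ε : F} (e : ∀ u w u' w', β₁ u' u * β₂ w' w = ε * (β₁ u u' * β₂ w w'))
    (x y : U ⊗[F] W) : B y x = ε * B x y := by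
  induction x with
  | zero => simp
  | tmul u w =>
    induction y with
    | zero => simp
    | tmul u' w' => rw [h, h, e]
    | add y z hy hz => simp only [map_add, LinearMap.add_apply, hy, hz, mul_add]
  | add x z hx hz => simp only [map_add, LinearMap.add_apply, hx, hz, mul_add]

end TB

section Mat

open Geo Asch Matrix Classical.SpMat
open scoped Kronecker

/-- A bilinear form given as a function. -/
def bilOf {κ : Type} {f : (κ → F) → (κ → F) → F} (h : IsBilinearForm f) :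
    LinearMap.BilinForm F (κ → F) :=
  LinearMap.mk₂ F f h.add_left h.smul_left h.add_right h.smul_right

theorem bilOf_apply {κ : Type} {f : (κ → F) → (κ → F) → F} (h : IsBilinearForm f) (x y : κ → F) :
    bilOf h x y = f x y := rfl

theorem bilOf_nd {κ : Type} {f : (κ → F) → (κ → F) → F} (h : IsBilinearForm f)
    (h' : IsNondegenerateForm f) : (bilOf h).Nondegenerate :=
  ⟨fun x hx => by
    by_contra h0
    obtain ⟨y, hy⟩ := (h' x h0).2
    exact hy (hx y), fun x hx => by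
    by_contra h0
    obtain ⟨y, hy⟩ := (h' x h0).1
    exact hy (hx y)⟩

theorem formOfGram_gram {κ : Type} [Fintype κ] [DecidableEq κ] {σ : F →+* F}
    {f : (κ → F) → (κ → F) → F} (B : (κ → F) →ₗ[F] (κ → F) →ₛₗ[σ] F) (h : ∀ x y, f x y = B x y)
    (x y : κ → F) : formOfGram σ (gramMatrix f) x y = f x y := by
  rw [h]
  conv_rhs => rw [← (Pi.basisFun F κ).sum_repr x, ← (Pi.basisFun F κ).sum_repr y]
  simp only [formOfGram, gramMatrix, h, map_sum, LinearMap.sum_apply, map_smul,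
    LinearMap.smul_apply, LinearMap.map_smulₛₗ, smul_eq_mul, Pi.basisFun_repr, Pi.basisFun_apply]
  rw [Finset.sum_comm]
  refine Finset.sum_congr rfl fun _ _ => ?_
  rw [Finset.mul_sum]
  exact Finset.sum_congr rfl fun _ _ => by ring

theorem formOfGram_kron {n₁ n₂ : ℕ} (σ : F →+* F) (G₁ : Matrix (Fin n₁) (Fin n₁) F)
    (G₂ : Matrix (Fin n₂) (Fin n₂) F) (u u' : Fin n₁ → F) (w w' : Fin n₂ → F) :
    formOfGram σ (G₁ ⊗ₖ G₂) (fun p => u p.1 * w p.2) (fun p => u' p.1 * w' p.2) =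
      formOfGram σ G₁ u u' * formOfGram σ G₂ w w' := by
  simp only [formOfGram, Fintype.sum_prod_type, kroneckerMap_apply, Finset.sum_mul_sum, map_mul]
  refine Finset.sum_congr rfl fun _ _ => Finset.sum_congr rfl fun _ _ =>
    Finset.sum_congr rfl fun _ _ => Finset.sum_congr rfl fun _ _ => by ring

variable {ι : Type} [Fintype ι] [DecidableEq ι] {n₁ n₂ : ℕ}

theorem tensor_form {σ : F →+* F} {f : (ι → F) → (ι → F) → F}
    {f₁ : (Fin n₁ → F) → (Fin n₁ → F) → F} {f₂ : (Fin n₂ → F) → (Fin n₂ → F) → F}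
    {e : ι ≃ Fin n₁ × Fin n₂} {P : GL ι F} (h : IsTensorFormStructure σ f f₁ f₂ e P)
    (B₁ : (Fin n₁ → F) →ₗ[F] (Fin n₁ → F) →ₛₗ[σ] F) (h₁ : ∀ x y, f₁ x y = B₁ x y)
    (B₂ : (Fin n₂ → F) →ₗ[F] (Fin n₂ → F) →ₛₗ[σ] F) (h₂ : ∀ x y, f₂ x y = B₂ x y) :
    ∃ c : F, c ≠ 0 ∧ ∀ u w u' w', f ((tenE e P).symm (u ⊗ₜ w)) ((tenE e P).symm (u' ⊗ₜ w')) =
      c * (f₁ u u' * f₂ w w') := by
  obtain ⟨c, hc, h⟩ := h
  exact ⟨c, hc, fun u w u' w' => by
    rw [tenE_symm, tenE_symm, h, formOfGram_kron, formOfGram_gram B₁ h₁, formOfGram_gram B₂ h₂]⟩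

theorem tenE_swap (e : ι ≃ Fin n₁ × Fin n₂) (P : GL ι F) (u : Fin n₁ → F) (w : Fin n₂ → F) :
    (tenE (e.trans (Equiv.prodComm _ _)) P).symm (w ⊗ₜ u) = (tenE e P).symm (u ⊗ₜ w) := by
  rw [tenE_symm, tenE_symm]
  congr 1
  funext i
  exact mul_comm _ _

/-- Transport of a bilinear form. -/
abbrev trB {V V' : Type*} [AddCommGroup V] [Module F V] [AddCommGroup V'] [Module F V']
    (B : LinearMap.BilinForm F V) (E : V ≃ₗ[F] V') : LinearMap.BilinForm F V' :=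
  B.comp (E.symm : V' →ₗ[F] V) (E.symm : V' →ₗ[F] V)

theorem mem_SG_cong {V V' : Type*} [AddCommGroup V] [Module F V] [AddCommGroup V'] [Module F V']
    (B : LinearMap.BilinForm F V) (E : V ≃ₗ[F] V') (g : V ≃ₗ[F] V) :
    g ∈ SG B ↔ cong E g ∈ SG (trB B E) :=
  ⟨fun h x y => by simp [cong_apply, h _ _], fun h x y => by
    simpa [cong_apply] using h (E x) (E y)⟩

theorem isMaximalIn_Sp' {m : ℕ} {V : Type*} [AddCommGroup V] [Module F V]
    (E : (Fin m ⊕ Fin m → F) ≃ₗ[F] V) {H : Subgroup (GL (Fin m ⊕ Fin m) F)}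
    (P : (V ≃ₗ[F] V) → Prop) (hH : ∀ g, g ∈ H ↔ P (cong E (Orth.glEquiv _ F g)))
    (h1 : ∃ g, g ∈ SG (trB (sB (Fin m) F) E) ∧ ¬ P g)
    (h2 : ∀ M : Subgroup (V ≃ₗ[F] V), (∀ g, g ∈ SG (trB (sB (Fin m) F) E) → P g → g ∈ M) →
      (∀ g ∈ M, g ∈ SG (trB (sB (Fin m) F) E)) → (∃ g ∈ M, ¬ P g) →
      SG (trB (sB (Fin m) F) E) ≤ M) : IsMaximalIn (spGL m F) (H ⊓ spGL m F) :=
  isMaximalIn_of_equiv ((Orth.glEquiv _ F).trans (cong E)) (· ∈ SG (trB (sB (Fin m) F) E)) P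
    (fun g => (mem_spGL g).trans (mem_SG_cong _ E _)) hH h1
    fun M a b c _ hg => h2 M a b c hg

end Mat

end Cfsg.Agent.Max2
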