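import Mathlib
import Cfsg.Agent.Max2.TenF
import Cfsg.Agent.Max.Om
import Cfsg.Agent.Max.Sp3

/-!
# `O(U) ⊗ Sp(W)` in `Sp(U ⊗ W)`: finding transvections
-/

set_option autoImplicit false

namespace Cfsg.Agent.Max2

open Module Cfsg.Agent.Max TensorProduct Classical.SpWitt Cfsg.Agent.Orth QuadraticMap

section Orth

variable {F U : Type*} [Field F] [AddCommGroup U] [Module F U] {Q : QuadraticForm F U}

theorem ns_le (h2 : (2 : F) ≠ 0) {W X : Submodule F U} (h : NDS Q W)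
    (hX : ∀ a ∈ W, Q a ≠ 0 → a ∈ X) : W ≤ X := by
  intro x hx
  by_cases he : ∃ e ∈ W, Q e ≠ 0
  · obtain ⟨e, he, he0⟩ := he
    by_cases h0 : Q x = 0
    · by_cases h1 : Q (x + e) = 0
      · have : Q (x - e) ≠ 0 := fun h3 => he0 (mul_left_cancel₀ h2 (by
          rw [q_add] at h1; rw [q_sub] at h3; linear_combination h1 + h3 - 2 * h0))
        simpa using X.add_mem (hX _ (W.sub_mem hx he) this) (hX e he he0)
      · simpa using X.sub_mem (hX _ (W.add_mem hx he) h1) (hX e he he0)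
    · exact hX x hx h0
  · push Not at he
    rw [h x hx fun y hy => Sing.polar he hx hy]
    exact X.zero_mem

theorem nds_top (hQ : ND Q) : NDS Q ⊤ := fun w _ h => hQ w fun x => h x trivial

theorem nds_perp_one [FiniteDimensional F U] (h2 : (2 : F) ≠ 0) (hQ : ND Q) {v : U}
    (hv : Q v ≠ 0) : NDS Q (perp Q (F ∙ v)) := by
  refine NDS.perp hQ fun w hw h => ?_
  obtain ⟨c, rfl⟩ := Submodule.mem_span_singleton.1 hw
  have := h v (Submodule.mem_span_singleton_self v)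
  rw [p_smul_left, p_self] at this
  simp [show c = 0 by simpa [h2, hv] using this]

variable [FiniteDimensional F U]

theorem two_union (h2 : (2 : F) ≠ 0) {W X Y : Submodule F U} (h : NDS Q W)
    (hd : 3 ≤ finrank F W ∨ ∃ l : F, l ≠ 0 ∧ l ^ 2 ≠ 1)
    (hX : ∀ a ∈ W, Q a ≠ 0 → a ∈ X ∨ a ∈ Y) : W ≤ X ∨ W ≤ Y := by
  by_contra hc
  push Not at hc
  obtain ⟨a, ha, ha0, haX⟩ : ∃ a ∈ W, Q a ≠ 0 ∧ a ∉ X := by
    by_contra e; push Not at e; exact hc.1 (ns_le h2 h e)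
  obtain ⟨b, hb, hb0, hbY⟩ : ∃ a ∈ W, Q a ≠ 0 ∧ a ∉ Y := by
    by_contra e; push Not at e; exact hc.2 (ns_le h2 h e)
  have haY := (hX a ha ha0).resolve_left haX
  have hbX := (hX b hb hb0).resolve_right hbY
  have key : ∀ l : F, l ≠ 0 → Q a + l ^ 2 * Q b + l * polar Q a b = 0 := fun l hl => by
    by_contra e
    rcases hX (a + l • b) (W.add_mem ha (W.smul_mem l hb))
      (by rwa [q_add, q_smul, p_smul_right]) with e | e
    · exact haX ((X.add_mem_iff_left (X.smul_mem l hbX)).1 e)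
    · exact hbY ((Y.smul_mem_iff hl).1 ((Y.add_mem_iff_right haY).1 e))
  have k1 := key 1 one_ne_zero
  have k2 := key (-1) (by simp)
  have p0 : polar Q a b = 0 := mul_left_cancel₀ h2 (by linear_combination k1 - k2)
  rcases hd with hd | ⟨l, hl, hl'⟩
  · obtain ⟨c, hc, hc0⟩ : ∃ c ∈ W ⊓ LinearMap.ker (Q.polarBilin a) ⊓
        LinearMap.ker (Q.polarBilin b), Q c ≠ 0 := by
      by_contra e
      push Not at e
      obtain ⟨u, hu, hu0, u1, u2⟩ := exists_ne_zero_two_ker hd (Q.polarBilin a) (Q.polarBilin b)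
      refine hu0 (h u hu fun x hx => ?_)
      have u1' : polar Q u a = 0 := by rw [polar_comm]; exact u1
      have u2' : polar Q u b = 0 := by rw [polar_comm]; exact u2
      have := Sing.polar e (x := u) (y := x - (polar Q a x / (2 * Q a)) • a -
        (polar Q b x / (2 * Q b)) • b) ⟨⟨hu, u1⟩, u2⟩
        ⟨⟨W.sub_mem (W.sub_mem hx (W.smul_mem _ ha)) (W.smul_mem _ hb), by
          simp [p0, h2, ha0]⟩, by simp [polar_comm _ b a, p0, h2, hb0]⟩
      simpa [u1', u2'] using this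
    have c1 : polar Q a c = 0 := hc.1.2
    have c2 : polar Q b c = 0 := hc.2
    have hab : Q (a + b) = 0 := by rw [q_add]; linear_combination k1
    have e1 := hX (a + b + c) (W.add_mem (W.add_mem ha hb) hc.1.1)
      (by rw [q_add, hab]; simpa [c1, c2])
    have e2 := hX (a + b - c) (W.sub_mem (W.add_mem ha hb) hc.1.1)
      (by rw [q_sub, hab]; simpa [c1, c2])
    have nX : a + b ∉ X := fun e => haX ((X.add_mem_iff_left hbX).1 e)
    have nY : a + b ∉ Y := fun e => hbY ((Y.add_mem_iff_right haY).1 e)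
    have sm : ∀ Z : Submodule F U, a + b + c ∈ Z → a + b - c ∈ Z → a + b ∈ Z := fun Z f1 f2 =>
      (Z.smul_mem_iff h2).1 (by convert Z.add_mem f1 f2 using 1; module)
    rcases hX c hc.1.1 hc0 with e | e
    · exact nY (sm Y (e1.resolve_left fun f => nX ((X.add_mem_iff_left e).1 f))
        (e2.resolve_left fun f => nX (by simpa using X.add_mem f e)))
    · exact nX (sm X (e1.resolve_right fun f => nY ((Y.add_mem_iff_left e).1 f))
        (e2.resolve_right fun f => nY (by simpa using Y.add_mem f e)))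
  · have := key l hl
    exact hl' (sub_eq_zero.1 ((mul_eq_zero.1 (show (l ^ 2 - 1) * Q b = 0 by
      linear_combination this - k1 - (l - 1) * p0)).resolve_right hb0))

theorem irrR (h2 : (2 : F) ≠ 0) {W X : Submodule F U} (h : NDS Q W)
    (hd : 3 ≤ finrank F W ∨ ∃ l : F, l ≠ 0 ∧ l ^ 2 ≠ 1)
    (hr : ∀ a ∈ W, Q a ≠ 0 → ∀ x ∈ X, x ∈ W → polar Q a x ≠ 0 → a ∈ X)
    {x : U} (hx : x ∈ X) (hxW : x ∈ W) (hx0 : x ≠ 0) : W ≤ X :=
  (two_union h2 h hd (Y := perp Q (X ⊓ W)) fun a ha ha0 => or_iff_not_imp_left.2 fun e =>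
    mem_perp'.2 fun z hz => by_contra fun e' => e (hr a ha ha0 z hz.1 hz.2 e')).resolve_right
    fun e => hx0 (h x hxW fun _ hy => mem_perp.1 (e hy) x ⟨hx, hxW⟩)

theorem exists_ns_not_eigen (h2 : (2 : F) ≠ 0) (hQ : ND Q) (hd : 3 ≤ finrank F U)
    {γ : U →ₗ[F] U} (hs : ∀ u v, polar Q (γ u) v = polar Q u (γ v))
    (h : ∀ c : F, γ ≠ c • LinearMap.id) : ∃ v, Q v ≠ 0 ∧ γ v ∉ F ∙ v := by
  by_contra hc
  push Not at hc
  have : Nontrivial U := Module.nontrivial_of_finrank_pos (R := F) (by omega)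
  obtain ⟨e, he⟩ := hQ.exists_nonsingular
  obtain ⟨c, hc'⟩ := Submodule.mem_span_singleton.1 (hc e he)
  have := irrR h2 (nds_top hQ) (X := LinearMap.ker (γ - c • LinearMap.id))
    (Or.inl (by rwa [finrank_top])) (fun a _ ha x hx _ hp => by
      obtain ⟨d, hd⟩ := Submodule.mem_span_singleton.1 (hc a ha)
      have h1 : γ x = c • x := by simpa [sub_eq_zero] using hx
      have := hs a x
      rw [← hd, h1, p_smul_left, p_smul_right] at this
      simp [← hd, mul_right_cancel₀ hp this])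
    (x := e) (by simp [hc']) trivial (ne_zero_of_Q_ne_zero he)
  exact h c (sub_eq_zero.1 (LinearMap.ker_eq_top.1 (top_le_iff.1 this)))

end Orth

section Heis

variable {F V : Type*} [Field F] [AddCommGroup V] [Module F V] {M : Subgroup (V ≃ₗ[F] V)}
  {B : LinearMap.BilinForm F V}

/-- Commutators in the unipotent radical of the stabiliser of `X`. -/
theorem heisX (hR : B.IsRefl) {X : Submodule F V} {g g' : V ≃ₗ[F] V} (hg : g ∈ M)
    (hg1 : g ∈ SG B) (hg' : g' ∈ M) (hg1' : g' ∈ SG B) (f : ∀ x ∈ X, g x = x)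
    (f' : ∀ x ∈ X, g' x = x) (e : ∀ y, (∀ x ∈ X, B x y = 0) → g y - y ∈ X)
    (e' : ∀ y, (∀ x ∈ X, B x y = 0) → g' y - y ∈ X) :
    ∃ N : V →ₗ[F] V, R M N ∧ (∀ x, N x ∈ X) ∧ (∀ y, (∀ x ∈ X, B x y = 0) → N y = 0) ∧
      ∀ x y, B y (N x) = B (g' y - y) (g x - x) - B (g y - y) (g' x - x) := by
  have o : ∀ {g : V ≃ₗ[F] V}, g ∈ SG B → (∀ x ∈ X, g x = x) → ∀ y, ∀ x ∈ X,
      B x (g y - y) = 0 := fun hg f y x hx => by
    rw [map_sub, ← hg x y, f x hx, sub_self]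
  have k : ∀ {g : V ≃ₗ[F] V}, g ∈ SG B → (∀ x ∈ X, g x = x) →
      (∀ y, (∀ x ∈ X, B x y = 0) → g y - y ∈ X) → ∀ y z, (∀ x ∈ X, B x z = 0) →
      B y (g z - z) = - B (g y - y) z := fun {g} hg f e y z hz => by
    have h1 := hg y z
    have h2 := hR _ _ (o hg f y _ (e z hz))
    simp only [map_sub, LinearMap.sub_apply] at h2 ⊢
    linear_combination h1 - h2
  let n : V →ₗ[F] V := (g : V →ₗ[F] V) - LinearMap.id
  let n' : V →ₗ[F] V := (g' : V →ₗ[F] V) - LinearMap.id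
  have hn : ∀ x, n x = g x - x := fun _ => rfl
  have hn' : ∀ x, n' x = g' x - x := fun _ => rfl
  have h0 : ∀ y, (∀ x ∈ X, B x y = 0) → (n ∘ₗ n' - n' ∘ₗ n) y = 0 := fun y hy => by
    simp only [LinearMap.sub_apply, LinearMap.comp_apply, hn, hn']
    rw [f _ (e' y hy), f' _ (e y hy)]; simp
  refine ⟨n ∘ₗ n' - n' ∘ₗ n, ⟨g * g' * (g' * g)⁻¹, M.mul_mem (M.mul_mem hg hg')
    (M.inv_mem (M.mul_mem hg' hg)), fun x => ?_⟩,
    fun x => X.sub_mem (e _ (o hg1' f' x)) (e' _ (o hg1 f x)), h0, fun x y => ?_⟩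
  · obtain ⟨x, rfl⟩ := (g' * g).surjective x
    have h1 := h0 ((g' * g) x - x) (o ((SG B).mul_mem hg1' hg1)
      (fun x hx => by simp [f x hx, f' x hx]) x)
    rw [map_sub, sub_eq_zero] at h1
    rw [h1]
    simp [hn, hn']; abel
  · rw [LinearMap.sub_apply, map_sub, LinearMap.comp_apply, LinearMap.comp_apply, hn, hn' x,
      hn' (n x), hn x, k hg1 f e _ _ (o hg1' f' x), k hg1' f' e' _ _ (o hg1 f x)]
    ring

end Heis

variable {F U W : Type*} [Field F] [AddCommGroup U] [Module F U] [AddCommGroup W] [Module F W]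

/-- The subspace `u ⊗ W`. -/
noncomputable def RW (F : Type*) {U : Type*} (W : Type*) [Field F] [AddCommGroup U] [Module F U]
    [AddCommGroup W] [Module F W] (u : U) : Submodule F (U ⊗[F] W) :=
  LinearMap.range (TensorProduct.mk F U W u)

theorem tmul_mem_RW (u : U) (w : W) : u ⊗ₜ w ∈ RW F W u := ⟨w, rfl⟩

/-- An overgroup `M` of `O(U) ⊗ Sp(W)` in the symplectic group. -/
structure SpO (Q : QuadraticForm F U) (β : LinearMap.BilinForm F W)
    (B : LinearMap.BilinForm F (U ⊗[F] W)) (M : Subgroup ((U ⊗[F] W) ≃ₗ[F] (U ⊗[F] W))) :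
    Prop where
  two : (2 : F) ≠ 0
  nd : ND Q
  ndW : β.Nondegenerate
  alt : β.IsAlt
  tb : TB B Q.polarBilin β
  k3 : 3 ≤ finrank F U
  hH : ∀ g ∈ SG B, IsT g → g ∈ M
  hM : ∀ g ∈ M, g ∈ SG B

namespace SpO

variable {Q : QuadraticForm F U} {β : LinearMap.BilinForm F W}
  {B : LinearMap.BilinForm F (U ⊗[F] W)} {M : Subgroup ((U ⊗[F] W) ≃ₗ[F] (U ⊗[F] W))}
  (h : SpO Q β B M)
include h

theorem altB : B.IsAlt := fun x => by
  have := h.tb.of_pure (ε := -1) (fun u w u' w' => by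
    rw [← h.alt.neg_eq w w']; simp [polar_comm _ u' u]) x x
  exact mul_left_cancel₀ h.two (by linear_combination this)

theorem pure (u u' : U) (w w' : W) : B (u ⊗ₜ w) (u' ⊗ₜ w') = polar Q u u' * β w w' :=
  h.tb u w u' w'

theorem left (u : U) (w : W) (x : U ⊗[F] W) : B (u ⊗ₜ w) x = polar Q u (cW U (β w) x) :=
  h.tb.left u w x

theorem right (u : U) (w : W) (x : U ⊗[F] W) :
    B (u ⊗ₜ w) x = β w (cU W (Q.polarBilin u) x) := h.tb.right u w x

theorem sgO (a : OG Q) : TensorProduct.congr a.1 (1 : W ≃ₗ[F] W) ∈ SG B :=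
  h.tb.congr_mem (μ := 1) (fun u v => by simp [OG.map_polar]) (by simp)

theorem memO (a : OG Q) : TensorProduct.congr a.1 (1 : W ≃ₗ[F] W) ∈ M :=
  h.hH _ (h.sgO a) (isT_congr _ _)

theorem memW {b : W ≃ₗ[F] W} (hb : b ∈ SG β) : TensorProduct.congr (1 : U ≃ₗ[F] U) b ∈ M :=
  h.hH _ (h.tb.congr_mem (μ := 1) (by simp) (fun u v => by simp [hb u v])) (isT_congr _ _)

theorem perpL {w : W} {x : U ⊗[F] W} : (∀ y ∈ LW F U w, B y x = 0) ↔ cW U (β w) x = 0 :=
  ⟨fun e => h.nd _ fun u => by rw [polar_comm, ← h.left]; exact e _ (tmul_mem_LW _ _), by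
    rintro e _ ⟨u, rfl⟩; rw [inW_apply, h.left, e, polar_zero_right]⟩

theorem perpR {u : U} {x : U ⊗[F] W} :
    (∀ y ∈ RW F W u, B y x = 0) ↔ cU W (Q.polarBilin u) x = 0 :=
  ⟨fun e => h.ndW.2 _ fun w => by rw [← h.right]; exact e _ (tmul_mem_RW _ _), by
    rintro e _ ⟨w, rfl⟩; rw [mk_apply, h.right, e, map_zero]⟩

theorem AA (γ γ' : U →ₗ[F] U) (w : W) (x : U ⊗[F] W) :
    Dm γ (β w) w (Dm γ' (β w) w x) = 0 := Dm_Dm _ _ _ _ (h.alt w) x

theorem cjW {γ : U →ₗ[F] U} {w : W} (e : R M (Dm γ (β w) w)) {b : W ≃ₗ[F] W} (hb : b ∈ SG β) :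
    R M (Dm γ (β (b w)) (b w)) :=
  e.conj' (h.memW hb) fun x => by
    rw [Dm_apply, Dm_apply, congr_one_apply, congr_tmul,
      show β (b w) ∘ₗ (b : W →ₗ[F] W) = β w from LinearMap.ext (hb w)]
    rfl

theorem cjO {γ : U →ₗ[F] U} {w : W} (e : R M (Dm γ (β w) w)) (a : OG Q) :
    R M (Dm (cjm a.1 γ) (β w) w) :=
  e.conj' (h.memO a) fun x => by
    rw [Dm_apply, Dm_apply, cW_congr, congr_tmul, cjm_apply, LinearEquiv.symm_apply_apply]
    rfl

theorem rootT (w : W) (c : F) : ∃ g ∈ M, IsT g ∧ ∀ x, g x = x + c • Dm LinearMap.id (β w) w x := by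
  refine ⟨_, h.memW (tv_mem_SG h.alt w c (by simp [h.alt w])), isT_congr _ _, fun x => ?_⟩
  induction x with
  | zero => simp
  | tmul u v => simp [Max.tv_apply, Dm_apply, tmul_add, smul_tmul', smul_smul]
  | add x y hx hy => simp only [map_add, hx, hy]; module

theorem root (w : W) (c : F) : R M (c • Dm LinearMap.id (β w) w) :=
  let ⟨g, hg, _, e⟩ := h.rootT w c
  ⟨g, hg, e⟩

variable [FiniteDimensional F W]

theorem ndB : B.Nondegenerate := h.tb.nd h.nd.nondeg h.ndW h.altB.isRefl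

theorem memL {w : W} (hw : w ≠ 0) {x : U ⊗[F] W} (e : ∀ v, β v w = 0 → cW U (β v) x = 0) :
    x ∈ LW F U w :=
  mem_LW_of hw fun φ hφ => by
    obtain ⟨v, rfl⟩ := sp_exists_dual h.ndW φ
    exact e v hφ

theorem zform {w : W} (hw : w ≠ 0) {g : (U ⊗[F] W) ≃ₗ[F] (U ⊗[F] W)} (hg : g ∈ SG B)
    (e : ∀ x, cW U (β w) x = 0 → g x = x) : ∃ γ : U →ₗ[F] U,
      (∀ u v, polar Q (γ u) v = polar Q u (γ v)) ∧ ∀ x, g x = x + Dm γ (β w) w x := by
  obtain ⟨y, hy⟩ := exists_one h.ndW h.alt.isRefl hw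
  obtain ⟨χ, hχ⟩ := exists_dual_one (F := F) hw
  have h1 : ∀ x, g x - x ∈ LW F U w := fun x => h.memL hw fun v hv => h.nd _ fun u => by
    have := hg (u ⊗ₜ v) x
    rw [e _ (by simp [h.alt.isRefl _ _ hv])] at this
    rw [polar_comm, ← h.left, map_sub, this, sub_self]
  let γ : U →ₗ[F] U := cW U χ ∘ₗ ((g : _ →ₗ[F] _) - LinearMap.id) ∘ₗ inW F U y
  have h2 : ∀ u, g (u ⊗ₜ y) = u ⊗ₜ y + γ u ⊗ₜ w := fun u => by
    rw [← sub_eq_iff_eq_add', ← eq_of_mem_LW hχ (h1 _)]; rfl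
  refine ⟨γ, fun u v => ?_, fun x => ?_⟩
  · have := hg (u ⊗ₜ y) (v ⊗ₜ y)
    rw [h2, h2] at this
    simp only [map_add, LinearMap.add_apply, h.pure, h.alt.self_eq_zero, ← h.alt.neg_eq w y,
      hy] at this
    linear_combination this
  · have := e (x - cW U (β w) x ⊗ₜ y) (by simp [hy])
    rw [map_sub, h2] at this
    rw [Dm_apply, sub_eq_iff_eq_add.1 this]; abel

/-- The maps `γ` with `1 + γ ⊗ A_w` in `M`. -/
def DD (w : W) : Submodule F (U →ₗ[F] U) where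
  carrier := {γ | R M (Dm γ (β w) w)}
  add_mem' := fun {a b} ha hb => (ha.add hb (h.AA _ _ w)).congr
    fun x => by simp [Dm_apply, add_tmul]
  zero_mem' := R.zero.congr fun x => by simp [Dm_apply]
  smul_mem' := fun c a ha => by
    have sq : ∀ μ : F, R M (Dm (μ ^ 2 • a) (β w) w) := fun μ => by
      by_cases h0 : μ • w = 0
      · refine R.zero.congr fun x => ?_
        rw [Dm_apply, LinearMap.smul_apply, smul_tmul, pow_two, mul_smul, h0]; simp
      obtain ⟨b, hb⟩ := Classical.SpWitt.witt_one h.ndW h.alt (right_ne_zero_of_smul h0) h0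
      refine (h.cjW ha b.2).congr fun x => ?_
      simp [hb, Dm_apply, cW_smul, smul_tmul', smul_smul, pow_two]
    refine ((sq ((c + 1) / 2)).sub (sq ((c - 1) / 2)) (h.AA _ _ w) (h.AA _ _ w)).congr fun x => ?_
    have : ((c + 1) / 2) ^ 2 - ((c - 1) / 2) ^ 2 = c := by field_simp [h.two]; ring
    simp only [LinearMap.sub_apply, Dm_apply, LinearMap.smul_apply, ← sub_tmul, ← sub_smul, this]

omit [FiniteDimensional F W] in
theorem cj_sS {w : W} {u v : U} (e : R M (Dm (sS Q.polarBilin u v) (β w) w)) (a : OG Q) :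
    R M (Dm (sS Q.polarBilin (a.1 u) (a.1 v)) (β w) w) := by
  convert h.cjO e a using 2
  ext x
  obtain ⟨x, rfl⟩ := a.1.surjective x
  simp [cjm_apply, sS_apply, OG.map_polar]

variable [Finite F] [FiniteDimensional F U]

theorem le_of_spP {n : U} {w : W} (hn : Q n = 0) (hn0 : n ≠ 0) (hw : w ≠ 0)
    (e : SpP B M (n ⊗ₜ w)) : SG B ≤ M := by
  have hA := h.altB
  have all : ∀ m, Q m = 0 → ∀ v, SpP B M (m ⊗ₜ v) := fun m hm v => by
    by_cases h0 : m = 0
    · simpa [h0] using SpP.zero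
    by_cases h1 : v = 0
    · simpa [h1] using SpP.zero
    obtain ⟨a, ha⟩ := Orth.witt_one h.nd hn0 h0 (hn.trans hm.symm)
    obtain ⟨b, hb⟩ := Classical.SpWitt.witt_one h.ndW h.alt hw h1
    have := (e.map (h.memO a) (h.sgO a)).map (h.memW b.2) (h.hM _ (h.memW b.2))
    simpa [ha, hb] using this
  obtain ⟨f, hf, hf0⟩ := h.nd.exists_hyp hn0 hn
  obtain ⟨y, hy⟩ := exists_one h.ndW h.alt.isRefl hw
  have p : B (f ⊗ₜ y) (n ⊗ₜ w) = -1 := by
    rw [h.pure, polar_comm, hf, ← h.alt.neg_eq, hy]; simp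
  obtain ⟨Z, hZ, h1, h2⟩ := sp_max (M := M) hA (U₀ := Submodule.span F {n ⊗ₜ w, f ⊗ₜ y})
    (fun u hu => by
      obtain ⟨a, b, rfl⟩ := Submodule.mem_span_pair.1 hu
      by_cases ha : a = 0
      · simpa [ha] using (all f hf0 y).smul b
      · exact (e.smul a).add_smul hA (all f hf0 y) (by simp [p, ha]) b)
    (Or.inl (spGood_of_card hA ⟨1, one_ne_zero, fun e => h.two (by linear_combination e)⟩
      (x := n ⊗ₜ w) (y := f ⊗ₜ y) (Submodule.subset_span (by simp))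
      (Submodule.subset_span (by simp)) (by simp [p])))
  let X : Submodule F U := ⨅ v : W, Z.comap (inW F U v)
  let Y : Submodule F U := ⨅ v : W, ⨅ z ∈ Z, LinearMap.ker (B z ∘ₗ inW F U v)
  have hX : ∀ u, u ∈ X ↔ ∀ v, u ⊗ₜ v ∈ Z := fun u => by simp [X]
  have hY : ∀ u, u ∈ Y ↔ ∀ v, ∀ z ∈ Z, B z (u ⊗ₜ v) = 0 := fun u => by simp [Y]
  rcases (nds_top h.nd).sing_into (by rw [finrank_top]; exact h.k3) (X := X) (Y := Y)
    (fun a ha b hb _ _ => by simpa [h.pure, hy] using (hY b).1 hb y _ ((hX a).1 ha w))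
    (fun a _ ha => (le_or_orth (B := B) (U := Z) (X := RW F W a) (by
      rintro _ ⟨v, rfl⟩; exact h2 _ (all a ha v))).imp
      (fun e => (hX a).2 fun v => e (tmul_mem_RW a v))
      fun e => (hY a).2 fun v => e _ (tmul_mem_RW a v)) with e' | e'
  · refine sp_le h.ndB hA fun x => h1 x ?_
    induction x with
    | zero => exact Z.zero_mem
    | tmul u v => exact (hX u).1 (e' trivial) v
    | add x y hx hy => exact Z.add_mem hx hy
  · have := (hY n).1 (e' trivial) w (f ⊗ₜ y) (hZ (Submodule.subset_span (by simp)))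
    simp [p] at this

/-- The elements of `M` centralising `(U ⊗ w)^⊥` are the standard ones. -/
def Std (β : LinearMap.BilinForm F W) (M : Subgroup ((U ⊗[F] W) ≃ₗ[F] (U ⊗[F] W))) : Prop :=
  ∀ w ≠ 0, ∀ g ∈ M, (∀ x, cW U (β w) x = 0 → g x = x) →
    ∃ c : F, ∀ x, g x = x + c • Dm LinearMap.id (β w) w x

theorem le_of_not_std (hq : finrank F U = 3 → ∃ l : F, l ≠ 0 ∧ l ^ 2 ≠ 1) (hS : ¬ Std β M) :
    SG B ≤ M := by
  simp only [Std, not_forall, not_exists] at hS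
  obtain ⟨w, hw, g, hg, e, hS⟩ := hS
  obtain ⟨γ, hs, hγ⟩ := h.zform hw (h.hM g hg) e
  obtain ⟨v, hv, hv'⟩ := exists_ns_not_eigen h.two h.nd h.k3 hs fun c hc => by
    obtain ⟨x, hx⟩ := hS c
    exact hx (by simp [hγ, hc, Dm_apply, smul_tmul'])
  have all : ∀ v y, Q v ≠ 0 → y ≠ 0 → polar Q v y = 0 → sS Q.polarBilin v y ∈ h.DD w →
      ∀ y, polar Q v y = 0 → sS Q.polarBilin v y ∈ h.DD w := fun v y hv hy0 hy hD z hz => by
    let Y : Submodule F U := (h.DD w).comap (LinearMap.mk₂ F (fun y x => sS Q.polarBilin v y x)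
      (fun a b x => by simp [sS_apply]; module) (fun c a x => by simp [sS_apply]; module)
      (fun _ => map_add _) fun c _ => map_smul _ c)
    have hd := h.nd.finrank_perp_singleton (ne_zero_of_Q_ne_zero hv)
    have := h.k3
    refine irrR h.two (nds_perp_one h.two h.nd hv) (X := Y) (by
      by_cases h3 : finrank F U = 3
      exacts [Or.inr (hq h3), Or.inl (by omega)]) (fun a ha ha0 x hx _ hp => ?_) (x := y) hD
      (mem_perp_singleton.2 hy) hy0 (mem_perp_singleton.2 hz)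
    have h1 : (refl Q a).1 x ∈ Y := by
      have := h.cj_sS hx (refl Q a)
      rwa [refl_apply_of_orth (x := v) (by rw [polar_comm]; exact mem_perp_singleton.1 ha)] at this
    have h2 := Y.sub_mem hx h1
    rw [refl_apply, sub_sub_cancel] at h2
    exact (Y.smul_mem_iff (by simp [ha0, hp])).1 h2
  have h1 := all v (γ v - (polar Q v (γ v) / (2 * Q v)) • v) hv
    (fun e => hv' (Submodule.mem_span_singleton.2 ⟨_, (sub_eq_zero.1 e).symm⟩))
    (by simp [h.two, hv]) (by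
      have h0 : γ ∈ h.DD w := ⟨g, hg, hγ⟩
      convert (h.DD w).smul_mem (Q v) ((h.DD w).sub_mem h0 (h.cjO h0 (refl Q v))) using 1
      ext x
      have : (refl Q v).1.symm x = (refl Q v).1 x := by
        rw [LinearEquiv.symm_apply_eq, ← OG.mul_apply, refl_mul_self]; rfl
      have h2 := h.two
      simp only [sS_apply, LinearMap.smul_apply, LinearMap.sub_apply, cjm_apply, this, refl_apply,
        map_sub, map_smul, polarBilin_apply_apply, smul_eq_mul, hs v x]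
      match_scalars <;> field_simp <;> ring)
  obtain ⟨z, n, hz, hn, hn0, hzn, hD⟩ : ∃ z n, Q z ≠ 0 ∧ Q n = 0 ∧ n ≠ 0 ∧ polar Q z n = 0 ∧
      sS Q.polarBilin z n ∈ h.DD w := by
    by_cases hc : ∃ n, n ≠ 0 ∧ Q n = 0 ∧ polar Q v n = 0
    · obtain ⟨n, e1, e2, e3⟩ := hc
      exact ⟨v, n, hv, e2, e1, e3, h1 n e3⟩
    push Not at hc
    obtain ⟨n, hn0, hn⟩ := exists_singular Q h.k3
    obtain ⟨z, -, hz0, e1, e2⟩ := exists_ne_zero_two_ker (U := ⊤) (by rw [finrank_top]; exact h.k3)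
      (Q.polarBilin v) (Q.polarBilin n)
    have e3 : polar Q z n = 0 := by rw [polar_comm]; exact e2
    refine ⟨z, n, fun e => hc z hz0 e e1, hn, hn0, e3, all z v (fun e => hc z hz0 e e1)
      (ne_zero_of_Q_ne_zero hv) (by rw [polar_comm]; exact e1) ?_ n e3⟩
    convert h1 z e1 using 1
    ext x; simp [sS_apply, add_comm]
  have hnz : polar Q n z = 0 := by rwa [polar_comm]
  have h3 := (h.DD w).sub_mem (x := sS _ _ _) (h.cj_sS hD (eich Q n z)) hD
  rw [eich_apply_left hn hnz, eich_apply hn hnz] at h3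
  refine h.le_of_spP hn hn0 hw (spP_of_R h.altB fun c => ?_)
  refine R.congr ((h.DD w).smul_mem (c / (2 * 2 * Q z)) h3) fun x => ?_
  have h2 := h.two
  simp only [Dm_apply, LinearMap.smul_apply, LinearMap.sub_apply, sS_apply, hnz, p_self,
    LinearMap.smulRight_apply, h.left, smul_tmul', map_sub, map_add, map_smul,
    LinearMap.add_apply, polarBilin_apply_apply, smul_eq_mul]
  congr 1
  match_scalars <;> field_simp <;> ring

omit [FiniteDimensional F W] [Finite F] [FiniteDimensional F U] h in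
theorem eich_ten {n c : U} (hn : Q n = 0) (hc : polar Q n c = 0) (x : U ⊗[F] W) :
    TensorProduct.congr (eich Q n c).1 (1 : W ≃ₗ[F] W) x - x =
      n ⊗ₜ (cU W (Q.polarBilin c) x - Q c • cU W (Q.polarBilin n) x) -
        c ⊗ₜ cU W (Q.polarBilin n) x := by
  induction x with
  | zero => simp
  | tmul u v =>
    simp only [congr_tmul, eich_apply hn hc, cU_tmul, polarBilin_apply_apply, tmul_sub, tmul_smul,
      sub_tmul, add_tmul, ← smul_tmul', LinearEquiv.coe_one, id]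
    module
  | add x y hx hy =>
    simp only [map_add, tmul_add, tmul_sub, smul_add] at hx hy ⊢
    rw [sub_eq_iff_eq_add.1 hx, sub_eq_iff_eq_add.1 hy]; abel

theorem local_lem {n : U} (hn : Q n = 0) (hn0 : n ≠ 0) {κ : (U ⊗[F] W) ≃ₗ[F] (U ⊗[F] W)}
    (hκ : κ ∈ M) (e : ∀ v, κ (n ⊗ₜ v) = n ⊗ₜ v) {c c' : U} (hc : polar Q n c = 0)
    (hc' : polar Q n c' = 0) {w : W} (hne : B (κ (c ⊗ₜ w)) (c' ⊗ₜ w) ≠ 0) : SG B ≤ M := by
  have hA := h.altB
  have hκ' := h.hM κ hκ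
  have nn : polar Q n n = 0 := by simp [hn]
  have ρ : ∀ x, cU W (Q.polarBilin n) (κ.symm x) = cU W (Q.polarBilin n) x := fun x =>
    sub_eq_zero.1 (h.ndW.2 _ fun v => by
      rw [map_sub, ← h.right, ← h.right, SG_symm hκ', e, sub_self])
  have key : ∀ t : F, ∃ N, R M N ∧ (∀ x, N x ∈ RW F W n) ∧ ∀ x y, B y (N x) =
      t * (B (c' ⊗ₜ cU W (Q.polarBilin n) y) (κ (c ⊗ₜ cU W (Q.polarBilin n) x)) -
        B (κ (c ⊗ₜ cU W (Q.polarBilin n) y)) (c' ⊗ₜ cU W (Q.polarBilin n) x)) := fun t => by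
    have ht : polar Q n (t • c) = 0 := by simp [hc]
    have m1 := M.mul_mem (M.mul_mem hκ (h.memO (eich Q n (t • c)))) (M.inv_mem hκ)
    have d1 : ∀ x, ∃ v, (κ * TensorProduct.congr (eich Q n (t • c)).1 (1 : W ≃ₗ[F] W) * κ⁻¹) x -
        x = n ⊗ₜ v - t • κ (c ⊗ₜ cU W (Q.polarBilin n) x) := fun x => ⟨_, by
      have := congrArg κ (eich_ten hn ht (κ.symm x))
      rw [map_sub, map_sub, e, ρ, LinearEquiv.apply_symm_apply, ← smul_tmul', map_smul κ] at this
      exact this⟩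
    obtain ⟨N, h1, h2, -, h3⟩ := heisX hA.isRefl (X := RW F W n) m1 (h.hM _ m1)
      (h.memO (eich Q n c')) (h.sgO _)
      (by
        rintro _ ⟨v, rfl⟩
        have : κ.symm (n ⊗ₜ v) = n ⊗ₜ v := by rw [LinearEquiv.symm_apply_eq, e]
        simp [this, eich_apply_left hn ht, e])
      (by rintro _ ⟨v, rfl⟩; simp [eich_apply_left hn hc'])
      (fun y hy => by
        obtain ⟨v, hv⟩ := d1 y
        rw [hv, h.perpR.1 hy]; simpa using tmul_mem_RW _ _)
      (fun y hy => by rw [eich_ten hn hc', h.perpR.1 hy]; simpa using tmul_mem_RW _ _)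
    refine ⟨N, h1, h2, fun x y => ?_⟩
    obtain ⟨v, hv⟩ := d1 x
    obtain ⟨v', hv'⟩ := d1 y
    have k1 : ∀ a b, B (n ⊗ₜ a) (κ (c ⊗ₜ b)) = 0 := fun a b => by
      rw [← e, hκ', h.pure, hc, zero_mul]
    have k2 : ∀ a b, B (κ (c ⊗ₜ b)) (n ⊗ₜ a) = 0 := fun a b => hA.isRefl _ _ (k1 a b)
    rw [h3, hv, hv', eich_ten hn hc', eich_ten hn hc']
    simp only [map_sub, LinearMap.sub_apply, map_smul, LinearMap.smul_apply, k1, k2, h.pure, nn,
      hc', polar_comm _ c' n, smul_eq_mul]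
    ring
  obtain ⟨N, -, h2, h3⟩ := key 1
  obtain ⟨f, hf, -⟩ := h.nd.exists_hyp hn0 hn
  have hw : w ≠ 0 := by rintro rfl; simp at hne
  refine h.le_of_spP hn hn0 hw (spP_of_two h.ndB hA (X := RW F W n) (N := N) (a := f ⊗ₜ w)
    (by rintro _ ⟨a, rfl⟩ _ ⟨b, rfl⟩; simp [h.pure, hn]) (fun t => ?_) h2 (fun x y => ?_) ?_
    (tmul_mem_RW _ _) (fun t => ?_) (l := -1) (by simp)
    fun e => h.two (by linear_combination -e))
  · obtain ⟨N', k1, -, k3⟩ := key t
    exact k1.congr fun x => sub_eq_zero.1 (h.ndB.2 _ fun y => by simp [k3, h3])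
  · rw [← hA.neg_eq, ← hA.neg_eq x, h3, h3, ← hA.neg_eq (κ _), ← hA.neg_eq (κ (c ⊗ₜ cU W _ y))]
    ring
  · rw [h3, ← hA.neg_eq (κ _)]
    simp only [cU_tmul, polarBilin_apply_apply, hf, one_smul]
    exact fun e => hne (mul_left_cancel₀ h.two (by linear_combination -e))
  · obtain ⟨g, hg, -, e⟩ := h.rootT w t
    refine ⟨g, hg, h.hM g hg, ?_⟩
    rintro _ ⟨v, rfl⟩
    simp [e, Dm_apply, h.pure, polar_comm _ f n, hf, ← smul_tmul', smul_smul, mul_comm]

end SpO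

end Cfsg.Agent.Max2
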