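import Mathlib
import Cfsg.Agent.Max2.SpO1

/-!
# `O(U) ⊗ Sp(W)` in `Sp(U ⊗ W)`: the stabiliser of `U ⊗ w`
-/

set_option autoImplicit false

namespace Cfsg.Agent.Max2

open Module Cfsg.Agent.Max TensorProduct Classical.SpWitt Cfsg.Agent.Orth QuadraticMap

variable {F U W : Type*} [Field F] [AddCommGroup U] [Module F U] [AddCommGroup W] [Module F W]

theorem left_of_fix {g : (U ⊗[F] W) ≃ₗ[F] (U ⊗[F] W)} (h : IsT g) {w : W} (hw : w ≠ 0)
    (e : ∀ u, g (u ⊗ₜ w) = u ⊗ₜ w) (v : W) : ∃ v', ∀ u, g (u ⊗ₜ v) = u ⊗ₜ v' := by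
  obtain ⟨a, b, h⟩ := h
  obtain ⟨φ, hφ⟩ := exists_dual_one (F := F) (show b w ≠ 0 by simpa using hw)
  have : ∀ u, a u = φ w • u := fun u => by simpa [h, hφ] using congrArg (cW U φ) (e u)
  exact ⟨φ w • b v, fun u => by rw [h, this, smul_tmul]⟩

/-- `M` contains an element acting on `(U ⊗ w)^⊥` as `1 + γ ⊗ (β v ⊗ w)`. -/
def QD (β : LinearMap.BilinForm F W) (M : Subgroup ((U ⊗[F] W) ≃ₗ[F] (U ⊗[F] W)))
    (γ : U →ₗ[F] U) (w v : W) : Prop :=
  ∃ g ∈ M, ∀ x, cW U (β w) x = 0 → g x = x + Dm γ (β v) w x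

namespace SpO

variable {Q : QuadraticForm F U} {β : LinearMap.BilinForm F W}
  {B : LinearMap.BilinForm F (U ⊗[F] W)} {M : Subgroup ((U ⊗[F] W) ≃ₗ[F] (U ⊗[F] W))}
  (h : SpO Q β B M)
include h

theorem symA (v : W) (x y : U ⊗[F] W) :
    B (Dm LinearMap.id (β v) v x) y = B (Dm LinearMap.id (β v) v y) x := by
  simp [Dm_apply, h.left, polar_comm _ (cW U (β v) x)]

theorem nu {w v : W} (hv : β w v = 0) : ∃ g ∈ M, ∀ x,
    g x = x + (Dm LinearMap.id (β v) w x + Dm LinearMap.id (β w) v x) := by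
  refine ⟨_, h.memW (uni_sS_mem h.alt hv (sS_sq h.alt hv)), fun x => ?_⟩
  induction x with
  | zero => simp
  | tmul u z => simp [uni_apply, sS_apply, Dm_apply, tmul_add, smul_tmul']
  | add x y hx hy => simp only [map_add, hx, hy]; module

theorem qd_sub {γ γ' : U →ₗ[F] U} {w v : W} (hv : β v w = 0) (e : QD β M γ w v)
    (e' : QD β M γ' w v) : QD β M (γ - γ') w v := by
  obtain ⟨g, hg, e⟩ := e
  obtain ⟨g', hg', e'⟩ := e'
  refine ⟨g'⁻¹ * g, M.mul_mem (M.inv_mem hg') hg, fun x hx => ?_⟩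
  rw [LinearEquiv.mul_apply, LinearEquiv.coe_inv, LinearEquiv.symm_apply_eq, e x hx, map_add,
    e' x hx, e' _ (by simp [Dm_apply, h.alt w])]
  simp [Dm_apply, hv, sub_tmul]

theorem qd_id {w v : W} (hv : β v w = 0) (c : F) : QD β M (c • LinearMap.id) w v := by
  obtain ⟨g, hg, e⟩ := h.nu (w := w) (v := c • v) (by simp [h.alt.isRefl _ _ hv])
  exact ⟨g, hg, fun x hx => by simp [e, Dm_apply, hx, cW_smul]⟩

theorem qd_cj {γ : U →ₗ[F] U} {w v : W} (e : QD β M γ w v) (a : OG Q) :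
    QD β M (cjm a.1 γ) w v := by
  obtain ⟨g, hg, e⟩ := e
  refine ⟨_, M.mul_mem (M.mul_mem (h.memO a) hg) (M.inv_mem (h.memO a)), fun x hx => ?_⟩
  obtain ⟨x, rfl⟩ := (TensorProduct.congr a.1 (1 : W ≃ₗ[F] W)).surjective x
  rw [cW_congr, a.1.map_eq_zero_iff] at hx
  simp [e x hx, Dm_apply, cW_congr]

theorem qd_of {w v : W} {χ : Dual F W} (hχ : χ w = 1) (hv : β v w = 0)
    {g : (U ⊗[F] W) ≃ₗ[F] (U ⊗[F] W)} (hg : g ∈ M) (f : ∀ u, g (u ⊗ₜ w) = u ⊗ₜ w)
    (e : ∀ x, cW U (β w) x = 0 → g x - x ∈ LW F U w) :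
    QD β M (cW U χ ∘ₗ ((g : _ →ₗ[F] _) - LinearMap.id) ∘ₗ inW F U v) w v := by
  obtain ⟨t, ht, -, et⟩ := h.rootT v 1
  simp only [one_smul] at et
  refine ⟨(t * g)⁻¹ * (g * t), M.mul_mem (M.inv_mem (M.mul_mem ht hg)) (M.mul_mem hg ht),
    fun x hx => ?_⟩
  have e1 := eq_of_mem_LW hχ (e x hx)
  have e2 := eq_of_mem_LW hχ (e (cW U (β v) x ⊗ₜ v) (by simp [h.alt.isRefl _ _ hv]))
  have e3 : cW U (β v) (g x) = cW U (β v) x := by
    rw [← sub_eq_zero, ← map_sub, ← e1]; simp [hv]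
  rw [LinearEquiv.mul_apply, LinearEquiv.coe_inv, LinearEquiv.symm_apply_eq, map_add]
  simp only [LinearEquiv.mul_apply, Dm_apply, f, et, map_add, LinearMap.id_apply, cW_tmul, hv,
    zero_smul, zero_tmul, add_zero, LinearMap.comp_apply, inW_apply, LinearMap.sub_apply,
    LinearEquiv.coe_coe, e3]
  rw [e2]; abel

variable [FiniteDimensional F W]

theorem qd_comm (hS : Std β M) {γ γ' γs : U →ₗ[F] U} {w v v' : W} (hw : w ≠ 0) (hv : β v w = 0)
    (hv' : β v' w = 0) (hvv : β v v' = 1) (e : QD β M γ w v) (e' : QD β M γ' w v')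
    (hs : ∀ u u', polar Q u (γ' u') = polar Q (γs u) u') :
    ∃ c : F, ∀ u u', polar Q u' (γ (γs u)) + polar Q u (γ (γs u')) = c * polar Q u u' := by
  obtain ⟨g, hg, e⟩ := e
  obtain ⟨g', hg', e'⟩ := e'
  obtain ⟨y, hy⟩ := exists_one h.ndW h.alt.isRefl hw
  have hy' : β y w = -1 := by rw [← h.alt.neg_eq, hy]
  have fx : ∀ {g : (U ⊗[F] W) ≃ₗ[F] (U ⊗[F] W)} {γ : U →ₗ[F] U} {v : W}, β v w = 0 →
      (∀ x, cW U (β w) x = 0 → g x = x + Dm γ (β v) w x) → ∀ x ∈ LW F U w, g x = x := by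
    rintro g γ v hv e _ ⟨u, rfl⟩
    simp [e (u ⊗ₜ w) (by simp [h.alt w]), Dm_apply, hv]
  have fm : ∀ {g : (U ⊗[F] W) ≃ₗ[F] (U ⊗[F] W)} {γ : U →ₗ[F] U} {v : W}, g ∈ M → β v w = 0 →
      (∀ x, cW U (β w) x = 0 → g x = x + Dm γ (β v) w x) → ∀ u z, cW U (β w) z = 0 →
      cW U (β w) (g (u ⊗ₜ y) - u ⊗ₜ y) = 0 ∧
      B (g (u ⊗ₜ y) - u ⊗ₜ y) z = polar Q u (γ (cW U (β v) z)) := by
    intro g γ v hg hv e u z hz
    have h1 : ∀ u', B (u' ⊗ₜ w) (g (u ⊗ₜ y)) = B (u' ⊗ₜ w) (u ⊗ₜ y) := fun u' => by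
      rw [← h.hM g hg (u' ⊗ₜ w) (u ⊗ₜ y), fx hv e _ (tmul_mem_LW _ _)]
    refine ⟨h.perpL.1 (by rintro _ ⟨u', rfl⟩; simp [h1]), ?_⟩
    have h2 := h.hM g hg (u ⊗ₜ y) z
    rw [e z hz, map_add, Dm_apply, ← h.altB.neg_eq (_ ⊗ₜ w), h1, h.pure, hy, polar_comm] at h2
    simp only [map_sub, LinearMap.sub_apply]
    linear_combination h2
  obtain ⟨N, ⟨t, ht, h1⟩, -, h2, h3⟩ := heisX h.altB.isRefl (X := LW F U w) hg (h.hM g hg) hg'
    (h.hM g' hg') (fx hv e) (fx hv' e')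
    (fun y hy => by rw [e y (h.perpL.1 hy)]; simpa using Dm_mem _ _ _ _)
    (fun y hy => by rw [e' y (h.perpL.1 hy)]; simpa using Dm_mem _ _ _ _)
  obtain ⟨c, hc⟩ := hS w hw t ht fun x hx => by rw [h1, h2 x (h.perpL.2 hx), add_zero]
  have k : ∀ u u', B (g (u ⊗ₜ y) - u ⊗ₜ y) (g' (u' ⊗ₜ y) - u' ⊗ₜ y) = polar Q u (γ (γs u')) := by
    intro u u'
    rw [(fm hg hv e u _ (fm hg' hv' e' u' 0 (map_zero _)).1).2]
    congr 2
    refine sub_eq_zero.1 (h.nd _ fun a => ?_)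
    rw [polar_sub_left, polar_comm, ← h.left, ← h.altB.neg_eq,
      (fm hg' hv' e' u' (a ⊗ₜ v) (by simp [h.alt.isRefl _ _ hv])).2, cW_tmul, ← h.alt.neg_eq, hvv]
    simp [hs]
  refine ⟨c, fun u u' => ?_⟩
  have := h3 (u' ⊗ₜ y) (u ⊗ₜ y)
  rw [← h.altB.neg_eq (g _ - _), k, k, add_left_cancel ((h1 _).symm.trans (hc _))] at this
  simp only [Dm_apply, cW_tmul, hy, one_smul, LinearMap.id_apply, map_smul, h.pure, hy',
    smul_eq_mul] at this
  linear_combination this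

variable [FiniteDimensional F U]

theorem qd_scalar (hS : Std β M) {γ : U →ₗ[F] U} {w v : W} (hw : w ≠ 0) (hv : β v w = 0)
    (hv0 : v ∉ F ∙ w) (e : QD β M γ w v) : ∃ c : F, γ = c • LinearMap.id := by
  obtain ⟨v', h1, h2⟩ := exists_orth_one h.ndW h.alt.isRefl (F ∙ w) hv0
  have hv' : β v' w = 0 := h.alt.isRefl _ _ (h1 w (Submodule.mem_span_singleton_self w))
  obtain ⟨c, hc⟩ := h.qd_comm hS hw hv hv' h2 e (h.qd_id hv' 1) (γs := LinearMap.id) (by simp)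
  refine ⟨c / 2, sub_eq_zero.1 ?_⟩
  have e1 := h.qd_sub hv e (h.qd_id hv (c / 2))
  have h0 := h.two
  have sk : ∀ u u', polar Q u ((γ - (c / 2) • LinearMap.id : U →ₗ[F] U) u') =
      -polar Q ((γ - (c / 2) • LinearMap.id : U →ₗ[F] U) u) u' := fun u u' => by
    have := hc u u'
    simp only [LinearMap.sub_apply, LinearMap.smul_apply, LinearMap.id_apply, polar_sub_left,
      polar_sub_right, p_smul_left, p_smul_right, polar_comm _ (γ u)] at this ⊢
    field_simp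
    linear_combination 2 * this
  generalize γ - (c / 2) • LinearMap.id = δ at e1 sk
  refine LinearMap.ker_eq_top.1 (top_le_iff.1 (ns_le h0 (nds_top h.nd) fun z _ hz => ?_))
  have zz : polar Q z (δ z) = 0 := mul_left_cancel₀ h0 (by
    have := sk z z; rw [polar_comm _ (δ z)] at this; linear_combination this)
  have e2 := h.qd_sub hv e1 (h.qd_cj e1 (refl Q z))
  have d : ∀ x, (δ - cjm (refl Q z).1 δ) x =
      ((Q z)⁻¹ * polar Q z x) • δ z + ((Q z)⁻¹ * polar Q z (δ x)) • z := fun x => by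
    have : (refl Q z).1.symm x = (refl Q z).1 x := by
      rw [LinearEquiv.symm_apply_eq, ← OG.mul_apply, refl_mul_self]; rfl
    simp only [LinearMap.sub_apply, cjm_apply, this, refl_apply, map_sub, map_smul, zz]
    module
  generalize δ - cjm (refl Q z).1 δ = ε at e2 d
  have sk' : ∀ u u', polar Q u (ε u') = polar Q ((-ε) u) u' := fun u u' => by
    simp only [d, LinearMap.neg_apply, polar_neg_left, polar_add_left, p_smul_left, sk z,
      polar_comm _ u]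
    ring
  obtain ⟨χ, hχ⟩ := exists_dual_one (F := F) hw
  have e3 : QD β M ε w v' := by
    obtain ⟨g, hg, e⟩ := e2
    convert h.qd_of hχ hv' hg (fun u => by simp [e (u ⊗ₜ w) (by simp [h.alt w]), Dm_apply, hv])
      (fun x hx => by rw [e x hx]; simpa using Dm_mem _ _ _ _) using 1
    ext u
    simp [e (u ⊗ₜ v') (by simp [h1]), Dm_apply, h2, hχ]
  obtain ⟨c', hc'⟩ := h.qd_comm hS hw hv hv' h2 e2 e3 sk'
  replace hc' : ∀ u u', 2 * polar Q (ε u) (ε u') = c' * polar Q u u' := fun u u' => by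
    rw [← hc', sk' u', sk' u]; simp [polar_comm _ (ε u') (ε u), two_mul]
  obtain ⟨u, -, hu, u1, u2⟩ := exists_ne_zero_two_ker (U := ⊤) (by rw [finrank_top]; exact h.k3)
    (Q.polarBilin z) (Q.polarBilin (δ z))
  have c0 : c' = 0 := by
    obtain ⟨y, hy⟩ := h.nd.exists_polar_one hu
    have : ε u = 0 := by
      rw [d, sk z]; simp only [polarBilin_apply_apply] at u1 u2; simp [u1, u2]
    simpa [this, hy] using (hc' u y).symm
  have k : ∀ x, polar Q (ε x) (ε x) = 0 := fun x =>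
    mul_left_cancel₀ h0 (by linear_combination hc' x x + polar Q x x * c0)
  have k1 := k z
  refine h.nd _ fun x => ?_
  have k2 := k x
  simp only [d, polar_add_left, polar_add_right, p_smul_left, p_smul_right, zz,
    polar_comm _ (δ z) z, p_self Q z, sk z x] at k1 k2
  field_simp at k1 k2
  have k3 : polar Q (δ z) (δ z) = 0 := by simpa [h0, hz] using k1
  simpa [k3, h0, hz] using k2

theorem d1a (hS : Std β M) {w : W} (hw : w ≠ 0) {g : (U ⊗[F] W) ≃ₗ[F] (U ⊗[F] W)} (hg : g ∈ M)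
    (f : ∀ u, g (u ⊗ₜ w) = u ⊗ₜ w) (e : ∀ x, cW U (β w) x = 0 → g x - x ∈ LW F U w) :
    ∃ v, ∃ c : F, β w v = 0 ∧ ∀ x, g x = x + (Dm LinearMap.id (β v) w x +
      Dm LinearMap.id (β w) v x + c • Dm LinearMap.id (β w) w x) := by
  obtain ⟨χ, hχ⟩ := exists_dual_one (F := F) hw
  have : Nontrivial U := Module.nontrivial_of_finrank_pos (R := F) (by have := h.k3; omega)
  obtain ⟨u₀, hu₀⟩ := exists_ne (0 : U)
  obtain ⟨ψ, hψ⟩ := exists_dual_one (F := F) hu₀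
  obtain ⟨v, hv⟩ := sp_exists_dual h.ndW
    (ψ ∘ₗ cW U χ ∘ₗ ((g : _ →ₗ[F] _) - LinearMap.id) ∘ₗ TensorProduct.mk F U W u₀)
  have hv0 : β w v = 0 := h.alt.isRefl _ _ (by simp [hv, f])
  have e1 : ∀ x, cW U (β w) x = 0 → g x = x + Dm LinearMap.id (β v) w x := fun x hx => by
    have := eq_zero_of_ker (f := (g : _ →ₗ[F] _) - LinearMap.id - Dm LinearMap.id (β v) w)
      (φ := β w) (fun e => hw (h.ndW.1 w fun y => by simp [e])) (fun u z hz => ?_) hx
    · rw [← sub_eq_iff_eq_add']; exact sub_eq_zero.1 this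
    obtain ⟨c, hc⟩ : ∃ c : F, cW U χ ∘ₗ ((g : _ →ₗ[F] _) - LinearMap.id) ∘ₗ inW F U z =
        c • LinearMap.id := by
      by_cases hz' : z ∈ F ∙ w
      · obtain ⟨a, rfl⟩ := Submodule.mem_span_singleton.1 hz'
        exact ⟨0, by ext u; simp [f]⟩
      · exact h.qd_scalar hS hw (h.alt.isRefl _ _ hz) hz' (h.qd_of hχ (h.alt.isRefl _ _ hz) hg f e)
    have h1 : ∀ u, cW U χ (g (u ⊗ₜ z) - u ⊗ₜ z) = c • u := fun u => LinearMap.congr_fun hc u
    have h2 : β v z = c := by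
      rw [hv]; exact (congrArg ψ (h1 u₀)).trans (by simp [hψ])
    have h3 := eq_of_mem_LW hχ (e (u ⊗ₜ z) (by simp [hz]))
    simp only [LinearMap.sub_apply, LinearEquiv.coe_coe, LinearMap.id_apply, Dm_apply, cW_tmul, h2]
    rw [← h3, h1, sub_self]
  obtain ⟨q, hq, eq⟩ := h.nu hv0
  obtain ⟨c, hc⟩ := hS w hw (g * q⁻¹) (M.mul_mem hg (M.inv_mem hq)) fun x hx => by
    have : q.symm x = x - Dm LinearMap.id (β v) w x := by
      rw [LinearEquiv.symm_apply_eq, eq]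
      simp [Dm_apply, hx, h.alt w, h.alt.isRefl _ _ hv0]
    rw [LinearEquiv.mul_apply, LinearEquiv.coe_inv, this, map_sub, e1 x hx, Dm_apply, f]; simp
  refine ⟨v, c, hv0, fun x => ?_⟩
  have := hc (q x)
  rw [LinearEquiv.mul_apply, LinearEquiv.coe_inv, LinearEquiv.symm_apply_apply, eq] at this
  rw [this]
  simp [Dm_apply, h.alt w, hv0, add_assoc]

theorem cj_nu (hS : Std β M) {w : W} (hw : w ≠ 0) {g : (U ⊗[F] W) ≃ₗ[F] (U ⊗[F] W)} (hg : g ∈ M)
    (hL : im (LW F U w) g = LW F U w) {v : W} (hv : β w v = 0) :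
    ∃ v', ∃ c : F, β w v' = 0 ∧ ∀ x, g (Dm LinearMap.id (β v) w x + Dm LinearMap.id (β w) v x) =
      Dm LinearMap.id (β v') w (g x) + Dm LinearMap.id (β w) v' (g x) +
        c • Dm LinearMap.id (β w) w (g x) := by
  obtain ⟨q, hq, e⟩ := h.nu hv
  have h1 : ∀ x, g x ∈ LW F U w ↔ x ∈ LW F U w := fun x => by
    rw [← apply_mem_im (g := g) (v := x), hL]
  obtain ⟨v', c, h2, h3⟩ := h.d1a hS hw (M.mul_mem (M.mul_mem hg hq) (M.inv_mem hg))
    (fun u => by
      obtain ⟨u', hu'⟩ := (h1 (g.symm (u ⊗ₜ w))).1 (by simpa using tmul_mem_LW u w)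
      have : q (u' ⊗ₜ w) = u' ⊗ₜ w := by simp [e, Dm_apply, h.alt w, h.alt.isRefl _ _ hv]
      rw [inW_apply] at hu'
      rw [LinearEquiv.mul_apply, LinearEquiv.mul_apply, LinearEquiv.coe_inv, ← hu', this, hu',
        LinearEquiv.apply_symm_apply])
    (fun x hx => by
      have : cW U (β w) (g.symm x) = 0 := h.perpL.1 fun y hy => by
        rw [SG_symm (h.hM g hg)]; exact h.perpL.2 hx _ ((h1 y).2 hy)
      simpa [e, Dm_apply, this, h1] using tmul_mem_LW _ _)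
  refine ⟨v', c, h2, fun x => ?_⟩
  have := h3 (g x)
  simp only [LinearEquiv.mul_apply, LinearEquiv.coe_inv, LinearEquiv.symm_apply_apply, e] at this
  rw [map_add] at this
  exact add_left_cancel this

theorem std_of_left {w : W} (hw : w ≠ 0) {g : (U ⊗[F] W) ≃ₗ[F] (U ⊗[F] W)}
    (e : ∀ v, ∃ v', ∀ u, cjm g (Dm LinearMap.id (β w) w) (u ⊗ₜ v) = u ⊗ₜ v') :
    ∃ w', im (LW F U w) g = LW F U w' := by
  have : Nontrivial U := Module.nontrivial_of_finrank_pos (R := F) (by have := h.k3; omega)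
  obtain ⟨u₀, hu₀⟩ := exists_ne (0 : U)
  obtain ⟨y, hy⟩ := exists_one h.ndW h.alt.isRefl hw
  choose ν hν using e
  obtain ⟨v, hv⟩ : ∃ v, ν v ≠ 0 := by
    by_contra hn
    push Not at hn
    have : cjm g (Dm LinearMap.id (β w) w) = 0 := TensorProduct.ext' fun u v => by
      rw [hν, hn]; simp
    have := LinearMap.congr_fun this (g (u₀ ⊗ₜ y))
    simp [Dm_apply, hy, tmul_ne_zero hu₀ hw] at this
  refine ⟨ν v, (Submodule.eq_of_le_of_finrank_eq ?_
    (by rw [finrank_im, finrank_LW hw, finrank_LW hv])).symm⟩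
  rintro _ ⟨u, rfl⟩
  rw [inW_apply, ← hν]
  exact apply_mem_im.2 (Dm_mem _ _ _ _)

theorem d1b (hS : Std β M) {w : W} (hw : w ≠ 0) {g : (U ⊗[F] W) ≃ₗ[F] (U ⊗[F] W)} (hg : g ∈ M)
    (hL : im (LW F U w) g = LW F U w) {v : W} (hv0 : v ≠ 0) (hv : β w v = 0) :
    ∃ v', im (LW F U v) g = LW F U v' := by
  have h1 : ∀ x, g x ∈ LW F U w ↔ x ∈ LW F U w := fun x => by
    rw [← apply_mem_im (g := g) (v := x), hL]
  have hv' := h.alt.isRefl _ _ hv
  obtain ⟨y, hy⟩ := exists_one h.ndW h.alt.isRefl hw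
  obtain ⟨v', c', hw', e'⟩ := h.cj_nu hS hw hg hL hv
  set N := cjm g (Dm LinearMap.id (β v) v) with hN
  have N0 : ∀ u, N (u ⊗ₜ w) = 0 := fun u => by
    rw [hN, cjm_apply, Dm_LW _ _ hv' ((h1 _).1 (by simpa using tmul_mem_LW u w)), map_zero]
  have k1 : ∀ x, β w x = 0 → ∃ f : F, ∀ u, N (u ⊗ₜ x) - f • u ⊗ₜ v' ∈ LW F U w := fun x hx => by
    obtain ⟨x₁, c, e1, e2⟩ := h.cj_nu hS hw (M.inv_mem hg)
      (by rw [← hL, ← im_mul, inv_mul_cancel, im_one, hL]) hx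
    refine ⟨β v x₁, fun u => ?_⟩
    obtain ⟨z, hz⟩ := g.surjective (u ⊗ₜ y)
    have a1 := e2 (u ⊗ₜ y)
    have a2 := e' z
    rw [hz] at a2
    simp only [LinearEquiv.coe_inv, ← hz, LinearEquiv.symm_apply_apply] at a1
    have a3 : N (u ⊗ₜ x) = β v x₁ • g (cW U (β w) z ⊗ₜ v) := by
      have := congrArg (fun x => g (Dm LinearMap.id (β v) v x)) a1
      simp only [hz, Dm_apply (w := w), Dm_apply (w := x), Dm_apply (w := x₁), cW_tmul, hy,
        one_smul, LinearMap.id_apply, ← cjm_apply, ← hN] at this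
      simpa [N0, Dm_apply, hv', ← smul_tmul'] using this
    rw [a3, ← smul_sub]
    refine Submodule.smul_mem _ _ ?_
    rw [map_add, ← eq_sub_iff_add_eq'] at a2
    simp only [Dm_apply, cW_tmul, hy, one_smul, LinearMap.id_apply] at a2
    rw [a2]
    convert (LW F U w).sub_mem ((LW F U w).add_mem (tmul_mem_LW (β v' y • u) w)
      ((LW F U w).smul_mem c' (tmul_mem_LW u w))) ((h1 _).2 (tmul_mem_LW (cW U (β v) z) w)) using 1
    abel
  obtain ⟨c, k2⟩ : ∃ c : F, ∀ x, β w x = 0 → ∀ u,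
      N (u ⊗ₜ x) - (c * β v' x) • u ⊗ₜ v' ∈ LW F U w := by
    by_cases hv' : v' ∈ F ∙ w
    · obtain ⟨a, rfl⟩ := Submodule.mem_span_singleton.1 hv'
      refine ⟨0, fun x hx u => ?_⟩
      obtain ⟨f, hf⟩ := k1 x hx
      simpa [mul_smul] using
        (LW F U w).add_mem (hf u) ((LW F U w).smul_mem (f * a) (tmul_mem_LW u w))
    obtain ⟨y₁, e1, e2⟩ := exists_orth_one h.ndW h.alt.isRefl (F ∙ w) hv'
    have e3 := e1 w (Submodule.mem_span_singleton_self w)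
    obtain ⟨c, hc⟩ := k1 y₁ e3
    refine ⟨c, fun x hx u => ?_⟩
    obtain ⟨f, hf⟩ := k1 x hx
    have : Nontrivial U := Module.nontrivial_of_finrank_pos (R := F) (by have := h.k3; omega)
    obtain ⟨a, ha⟩ := exists_ne (0 : U)
    obtain ⟨b, hb⟩ := h.nd.exists_polar_one ha
    have s : B (N (a ⊗ₜ x)) (b ⊗ₜ y₁) = B (N (b ⊗ₜ y₁)) (a ⊗ₜ x) := by
      rw [hN, cjm_apply, cjm_apply, ← SG_symm (h.hM g hg), ← SG_symm (h.hM g hg), h.symA]
    have s1 := (h.perpL (x := b ⊗ₜ y₁)).2 (by simp [e3]) _ (hf a)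
    have s2 := (h.perpL (x := a ⊗ₜ x)).2 (by simp [hx]) _ (hc b)
    simp only [map_sub, map_smul, LinearMap.sub_apply, LinearMap.smul_apply, h.pure, hb, e2,
      polar_comm _ b a, smul_eq_mul] at s1 s2
    convert hf u using 3
    linear_combination s1 - s2 - s
  obtain ⟨t, ht, et⟩ := (h.root v 1).conj hg
  obtain ⟨t', ht', -, et'⟩ := h.rootT v' (-c)
  simp only [one_smul, ← hN] at et
  have hv'' := h.alt.isRefl _ _ hw'
  obtain ⟨v₂, c₂, -, e⟩ := h.d1a hS hw (M.mul_mem ht ht')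
    (fun u => by simp [et, et', Dm_apply, hv'', N0]) (fun x hx => by
      rw [← Submodule.Quotient.mk_eq_zero]
      refine eq_zero_of_ker (f := (LW F U w).mkQ ∘ₗ ((t * t').toLinearMap - LinearMap.id))
        (φ := β w) (fun e => hw (h.ndW.1 w fun y => by simp [e])) (fun u z hz => ?_) hx
      refine (Submodule.Quotient.mk_eq_zero _).2 ?_
      convert (LW F U w).sub_mem (k2 z hz u) ((LW F U w).smul_mem (c * β v' z) (k2 v' hw' u))
        using 1
      simp [et, et', Dm_apply, h.alt v', ← smul_tmul']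
      module)
  refine h.std_of_left hv0 fun x => ⟨(c * β v' x) • v' + β v₂ (x + (c * β v' x) • v') • w +
    β w x • v₂ + (c₂ * β w x) • w, fun u => ?_⟩
  have := e (u ⊗ₜ (x + (c * β v' x) • v'))
  have e5 : t' (u ⊗ₜ (x + (c * β v' x) • v')) = u ⊗ₜ x := by
    simp [et', Dm_apply, h.alt v', tmul_add, ← smul_tmul', smul_smul]
  rw [LinearEquiv.mul_apply, e5, et] at this
  rw [← hN, eq_sub_of_add_eq' this]
  simp only [Dm_apply, cW_tmul, LinearMap.id_apply, map_add, map_smul, hw', tmul_add, tmul_smul,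
    ← smul_tmul', smul_eq_mul]
  module

omit [FiniteDimensional F U] in
theorem span2 (hl : finrank F W ≤ 2) {w y : W} (hy : β w y = 1) (x : W) :
    x = β w x • y - β y x • w := by
  have h1 : Submodule.span F {w, y} = ⊤ := Submodule.eq_top_of_finrank_eq (le_antisymm
    (Submodule.finrank_le _) (by
      rw [finrank_span_pair_eq (pair_linearIndependent h.alt (by simp [hy]))]; exact hl))
  obtain ⟨a, b, rfl⟩ := Submodule.mem_span_pair.1 (h1 ▸ Submodule.mem_top (x := x))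
  simp [hy, h.alt w, h.alt y, ← h.alt.neg_eq w y, add_comm]

theorem isT_of_stab (hS : Std β M) {w w' : W} (hw : w ≠ 0) {g : (U ⊗[F] W) ≃ₗ[F] (U ⊗[F] W)}
    (hg : g ∈ M) (hL : im (LW F U w) g = LW F U w') : IsT g := by
  have : Nontrivial U := Module.nontrivial_of_finrank_pos (R := F) (by have := h.k3; omega)
  have red : ∀ {w w' : W}, w ≠ 0 → im (LW F U w) g = LW F U w' → ∃ b : W ≃ₗ[F] W,
      TensorProduct.congr 1 b * g ∈ M ∧
      im (LW F U w) (TensorProduct.congr 1 b * g) = LW F U w := fun {w w'} hw hL => by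
    have hw' : w' ≠ 0 := by
      rintro rfl
      obtain ⟨u, hu⟩ := exists_ne (0 : U)
      obtain ⟨u', e⟩ : g (u ⊗ₜ w) ∈ LW F U (0 : W) := hL ▸ apply_mem_im.2 (tmul_mem_LW u w)
      exact tmul_ne_zero hu hw (by simpa using e.symm)
    obtain ⟨b, hb⟩ := Classical.SpWitt.witt_one h.ndW h.alt hw' hw
    refine ⟨b.1, M.mul_mem (h.memW b.2) hg, ?_⟩
    rw [im_mul, hL]
    refine le_antisymm ?_ ?_
    · rintro _ ⟨_, ⟨u, rfl⟩, rfl⟩; exact ⟨u, by simp [hb]⟩
    · rintro _ ⟨u, rfl⟩; exact ⟨_, tmul_mem_LW u w', by simp [hb]⟩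
  by_cases hl : finrank F W ≤ 2
  · obtain ⟨b₀, hg, hL⟩ := red hw hL
    refine ((tSub F U W).mul_mem_cancel_left (isT_congr 1 b₀)).1 ?_
    generalize TensorProduct.congr 1 b₀ * g = g at hg hL
    have h1 : ∀ x, g x ∈ LW F U w ↔ x ∈ LW F U w := fun x => by
      rw [← apply_mem_im (g := g) (v := x), hL]
    obtain ⟨y, hy⟩ := exists_one h.ndW h.alt.isRefl hw
    obtain ⟨χ, hχ⟩ := exists_dual_one (F := F) hw
    obtain ⟨t, ht, et⟩ := (h.root w 1).conj hg
    obtain ⟨μ, hμ⟩ := hS w hw t ht fun x hx => by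
      have : cW U (β w) (g.symm x) = 0 := h.perpL.1 fun y hy => by
        rw [SG_symm (h.hM g hg)]; exact h.perpL.2 hx _ ((h1 y).2 hy)
      simp [et, Dm_apply, this]
    let a : U →ₗ[F] U := cW U χ ∘ₗ g.toLinearMap ∘ₗ inW F U w
    have ha : ∀ u, g (u ⊗ₜ w) = a u ⊗ₜ w := fun u =>
      (eq_of_mem_LW hχ ((h1 _).2 (tmul_mem_LW u w))).symm
    have ha' : ∀ u, a u = μ • cW U (β w) (g (u ⊗ₜ y)) := fun u => tmul_left_inj hw (by
      simpa [Dm_apply, hy, ha, smul_tmul'] using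
        add_left_cancel ((et (g (u ⊗ₜ y))).symm.trans (hμ _)))
    have ai : Function.Injective a := fun u u' e =>
      tmul_left_inj hw (g.injective (by rw [ha, ha, e]))
    have hμ0 : μ ≠ 0 := by
      rintro rfl
      obtain ⟨u, hu⟩ := exists_ne (0 : U)
      exact hu (ai (by simp [ha']))
    let b : W →ₗ[F] W := LinearMap.id + (μ⁻¹ - 1) • (β w).smulRight y
    have hb : ∀ x, b x = x + ((μ⁻¹ - 1) * β w x) • y := fun x => by simp [b, smul_smul]
    have bi : Function.Injective b := (injective_iff_map_eq_zero _).2 fun x hx => by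
      have h2 := congrArg (β w) hx
      rw [hb] at hx h2
      have : β w x = 0 := by simpa [hy, sub_mul, hμ0] using h2
      simpa [this] using hx
    have hk := h.tb.congr_mem (a := LinearEquiv.ofInjectiveEndo a ai)
      (b := LinearEquiv.ofInjectiveEndo b bi) (μ := μ⁻¹) (fun u v => by
        have := h.hM g hg (u ⊗ₜ w) (v ⊗ₜ y)
        rw [ha, h.left, h.pure, hy] at this
        simp [ha' v, hμ0, this]) fun u v => by
        have : β u v = β w u * β y v - β y u * β w v := by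
          conv_lhs => rw [h.span2 hl hy u]
          simp
        simp only [LinearEquiv.coe_ofInjectiveEndo, hb, map_add, map_smul, LinearMap.add_apply,
          LinearMap.smul_apply, h.alt.self_eq_zero, smul_eq_mul, this, ← h.alt.neg_eq y u]
        ring
    have hkT := isT_congr (LinearEquiv.ofInjectiveEndo a ai) (LinearEquiv.ofInjectiveEndo b bi)
    obtain ⟨c, hc⟩ := hS w hw _ (M.mul_mem (M.inv_mem (h.hH _ hk hkT)) hg) fun x hx => by
      obtain ⟨u, rfl⟩ := h.memL hw (x := x) fun v hv => by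
        rw [h.span2 hl hy v, h.alt.isRefl _ _ hv, map_sub, map_smul, map_smul, cW_sub]
        simp [cW_smul, hx]
      rw [LinearEquiv.mul_apply, LinearEquiv.coe_inv, LinearEquiv.symm_apply_eq]
      simp [ha, hb, h.alt w]
    obtain ⟨s, -, hs, es⟩ := h.rootT w c
    refine ((tSub F U W).mul_mem_cancel_left ((tSub F U W).inv_mem hkT)).1 ?_
    rwa [show _ * g = s from LinearEquiv.ext fun x => by rw [hc, es]]
  refine isT_of_lines (by omega) fun v => ?_
  by_cases hv : v = 0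
  · exact ⟨0, fun u => by simp [hv]⟩
  obtain ⟨w₁, -, hw₁, e1, e2⟩ := exists_ne_zero_two_ker (U := (⊤ : Submodule F W))
    (by rw [finrank_top]; omega) (β w) (β v)
  have step : ∀ {w w' v : W}, w ≠ 0 → v ≠ 0 → β w v = 0 → im (LW F U w) g = LW F U w' →
      ∃ v', im (LW F U v) g = LW F U v' := fun hw hv e hL => by
    obtain ⟨b, hg, hL⟩ := red hw hL
    obtain ⟨v', e⟩ := h.d1b hS hw hg hL hv e
    obtain ⟨v'', e'⟩ := IsT.im_LW ((tSub F U W).inv_mem (isT_congr 1 b)) v'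
    exact ⟨v'', by rw [← e', ← e, ← im_mul, inv_mul_cancel_left]⟩
  obtain ⟨w₂, e3⟩ := step hw hw₁ e1 hL
  obtain ⟨v', e4⟩ := step hw₁ hv (h.alt.isRefl _ _ e2) e3
  exact ⟨v', fun u => e4 ▸ apply_mem_im.2 (tmul_mem_LW u v)⟩

theorem ulem (hS : Std β M) (hk : finrank F U = 4 → 3 ≤ finrank F W) {w : W} (hw : w ≠ 0)
    {m t : (U ⊗[F] W) ≃ₗ[F] (U ⊗[F] W)} (hm : m ∈ M) (ht : IsT t)
    (e : ∀ x, t x = x + cjm m (Dm LinearMap.id (β w) w) x) : ∃ w', im (LW F U w) m = LW F U w' := by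
  have : Nontrivial U := Module.nontrivial_of_finrank_pos (R := F) (by have := h.k3; omega)
  have : Nontrivial W := ⟨⟨w, 0, hw⟩⟩
  have hm' := h.hM m hm
  rcases ht.quad h.two e (fun x => by simp [h.AA]) with ⟨ν, hν⟩ | ⟨α, hα⟩
  · exact h.std_of_left hw fun v => ⟨ν v, fun u => hν u v⟩
  exfalso
  obtain ⟨y, hy⟩ := exists_one h.ndW h.alt.isRefl hw
  have hX : ∀ u v, m.symm (α u ⊗ₜ v) ∈ LW F U w := fun u v => by
    rw [← hα]; simpa using Dm_mem _ _ _ _
  have hψ : ∀ (a : U) u, (∀ u, polar Q a (α u) = 0) → cU W (Q.polarBilin a) (m (u ⊗ₜ w)) = 0 :=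
    fun a u ha => by
      have : cU W (Q.polarBilin a) ∘ₗ cjm m (Dm LinearMap.id (β w) w) = 0 :=
        TensorProduct.ext' fun u v => by rw [LinearMap.comp_apply, hα]; simp [ha]
      simpa [Dm_apply, hy] using LinearMap.congr_fun this (m (u ⊗ₜ y))
  have iso : ∀ u u', polar Q (α u) (α u') = 0 := fun u u' => by
    obtain ⟨a, ha⟩ := hX u w
    obtain ⟨b, hb⟩ := hX u' y
    have := (SG B).inv_mem hm' (α u ⊗ₜ w) (α u' ⊗ₜ y)
    rw [LinearEquiv.coe_inv, ← ha, ← hb] at this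
    simpa [h.pure, hy, h.alt w] using this.symm
  have q0 : ∀ u, Q (α u) = 0 := fun u => by simpa [h.two] using iso u u
  have sk : ∀ u u', polar Q (α u) u' = -polar Q (α u') u := fun u u' => by
    have : B (cjm m (Dm LinearMap.id (β w) w) (u ⊗ₜ w)) (u' ⊗ₜ y) =
        B (cjm m (Dm LinearMap.id (β w) w) (u' ⊗ₜ y)) (u ⊗ₜ w) := by
      rw [cjm_apply, cjm_apply, ← SG_symm hm', ← SG_symm hm', h.symA]
    simpa [hα, h.pure, hy, ← h.alt.neg_eq w y] using this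
  obtain ⟨u₀, hu₀⟩ : ∃ u, α u ≠ 0 := by
    by_contra hn
    push Not at hn
    obtain ⟨u, hu⟩ := exists_ne (0 : U)
    have : cjm m (Dm LinearMap.id (β w) w) = 0 := TensorProduct.ext' fun u v => by
      rw [hα, hn]; simp
    have := LinearMap.congr_fun this (m (u ⊗ₜ y))
    simp [Dm_apply, hy, tmul_ne_zero hu hw] at this
  obtain ⟨u₁, hu₁⟩ : ∃ u, α u ∉ F ∙ α u₀ := by
    obtain ⟨f, hf⟩ := h.nd.exists_polar_one hu₀
    refine ⟨f, fun e => ?_⟩
    obtain ⟨c, hc⟩ := Submodule.mem_span_singleton.1 e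
    have h1 := sk f f
    have h2 := sk u₀ f
    rw [← hc, p_smul_left, hf] at h1
    rw [← hc, show c = 0 from mul_left_cancel₀ h.two (by linear_combination h1), hf] at h2
    simp at h2
  have key : ∀ c, (∀ u, polar Q c (α u) = 0) → ∀ x, cW U (β w) x = 0 →
      TensorProduct.congr (eich Q (α u₀) c).1 (1 : W ≃ₗ[F] W) (m x) = m x := fun c hc x hx => by
    have hc' : polar Q (α u₀) c = 0 := by rw [polar_comm, hc]
    have hE := M.mul_mem (M.mul_mem (M.inv_mem hm) (h.memO (eich Q (α u₀) c))) hm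
    have f : ∀ u, (m⁻¹ * TensorProduct.congr (eich Q (α u₀) c).1 (1 : W ≃ₗ[F] W) * m) (u ⊗ₜ w) =
        u ⊗ₜ w := fun u => by
      have := eich_ten (W := W) (q0 u₀) hc' (m (u ⊗ₜ w))
      rw [hψ c u hc, hψ _ u (iso u₀)] at this
      simp [show _ = m (u ⊗ₜ w) from sub_eq_zero.1 (by simpa using this)]
    have hT := h.isT_of_stab hS hw hE (w' := w) (le_antisymm
      (by rintro _ ⟨_, ⟨u, rfl⟩, rfl⟩; exact ⟨u, (f u).symm⟩)
      (by rintro _ ⟨u, rfl⟩; exact ⟨_, ⟨u, rfl⟩, f u⟩))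
    refine sub_eq_zero.1 (eq_zero_of_ker (f := (TensorProduct.congr (eich Q (α u₀) c).1
      (1 : W ≃ₗ[F] W)).toLinearMap ∘ₗ m.toLinearMap - m.toLinearMap) (φ := β w)
      (fun e => hw (h.ndW.1 w fun y => by simp [e])) (fun u v hv => ?_) hx)
    obtain ⟨v', hv'⟩ := left_of_fix hT hw f v
    have k1 : ∀ u, ∃ z, m (u ⊗ₜ (v' - v)) = α u₀ ⊗ₜ z := fun u => by
      have h1 := eich_ten (W := W) (q0 u₀) hc' (m (u ⊗ₜ v))
      have h2 : cU W (Q.polarBilin (α u₀)) (m (u ⊗ₜ v)) = 0 := h.perpR.1 (by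
        rintro _ ⟨z, rfl⟩
        rw [mk_apply, ← SG_symm' hm']
        exact (h.perpL (x := u ⊗ₜ v)).2 (by simp [hv]) _ (hX _ _))
      refine ⟨cU W (Q.polarBilin c) (m (u ⊗ₜ v)), ?_⟩
      rw [tmul_sub, map_sub, ← hv']
      simpa [h2] using h1
    by_cases h0 : v' - v = 0
    · have := hv' u
      rw [sub_eq_zero.1 h0, LinearEquiv.mul_apply, LinearEquiv.mul_apply, LinearEquiv.coe_inv,
        LinearEquiv.symm_apply_eq] at this
      exact sub_eq_zero.2 this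
    obtain ⟨z, hz⟩ := k1 u₀
    have h1 : LW F U w = LW F U (v' - v) := LW_eq_of (x := u₀ ⊗ₜ (v' - v))
      (by rw [← m.symm_apply_apply (u₀ ⊗ₜ _), hz]; exact hX _ _) (tmul_mem_LW _ _)
      (tmul_ne_zero (by rintro rfl; simp at hu₀) h0)
    obtain ⟨a, ha⟩ := h1 ▸ hX u₁ w
    obtain ⟨z', hz'⟩ := k1 a
    rw [inW_apply] at ha
    rw [ha, LinearEquiv.apply_symm_apply] at hz'
    exact absurd (mem_span_of_tmul_eq hw hz') hu₁
  have hI : perp Q (LinearMap.range α) = LinearMap.range α := by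
    refine le_antisymm ?_ (le_perp_of_singular (by rintro _ ⟨u, rfl⟩; exact q0 u))
    conv_rhs => rw [← h.nd.perp_perp (LinearMap.range α)]
    intro c' hc'
    refine mem_perp.2 fun c hc => ?_
    have h1 := key c (fun u => mem_perp'.1 hc _ ⟨u, rfl⟩) (m.symm (c' ⊗ₜ w)) (h.perpL.1 (by
      rintro _ ⟨u, rfl⟩
      rw [SG_symm hm', inW_apply, ← h.altB.neg_eq, h.right,
        hψ _ _ fun u => mem_perp'.1 hc' _ ⟨u, rfl⟩]
      simp))
    rw [LinearEquiv.apply_symm_apply, congr_tmul,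
      eich_apply (q0 u₀) (mem_perp.1 hc _ ⟨u₀, rfl⟩), mem_perp.1 hc' _ ⟨u₀, rfl⟩] at h1
    simpa [hu₀] using tmul_left_inj hw h1
  have hE := M.mul_mem (M.mul_mem (M.inv_mem hm) (h.memO (eich Q (α u₀) (α u₁)))) hm
  obtain ⟨c, hc⟩ := hS w hw _ hE fun x hx => by simp [key _ (iso u₁) x hx]
  have k2 : ∀ u, c • α u = polar Q (α u₁) u • α u₀ - polar Q (α u₀) u • α u₁ := fun u => by
    have := congrArg m (hc (m.symm (u ⊗ₜ w)))
    simp only [LinearEquiv.mul_apply, LinearEquiv.coe_inv, LinearEquiv.apply_symm_apply, map_add,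
      map_smul, ← cjm_apply, hα, congr_tmul, eich_apply (q0 u₀) (iso u₀ u₁), q0, smul_tmul',
      ← add_tmul, LinearEquiv.coe_one, id] at this
    rw [eq_sub_of_add_eq' (tmul_left_inj hw this).symm]; module
  have hc0 : c ≠ 0 := by
    rintro rfl
    obtain ⟨f, hf⟩ := h.nd.exists_polar_one hu₀
    have := k2 f
    rw [zero_smul, hf, one_smul, eq_comm, sub_eq_zero] at this
    exact hu₁ (Submodule.mem_span_singleton.2 ⟨_, this⟩)
  have d1 : finrank F (LinearMap.range α) ≤ 2 := by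
    refine le_trans (Submodule.finrank_mono ?_) (Max.finrank_span_pair_le (α u₀) (α u₁))
    rintro _ ⟨u, rfl⟩
    rw [← Submodule.smul_mem_iff _ hc0, k2]
    exact Submodule.mem_span_pair.2 ⟨polar Q (α u₁) u, -polar Q (α u₀) u, by module⟩
  have d2 := h.nd.finrank_perp_add (LinearMap.range α)
  rw [hI] at d2
  have := h.k3
  obtain ⟨v, hv, hv'⟩ := exists_ker_not_mem (hk (by omega)) (β w) w
  have : m.symm (m (u₀ ⊗ₜ v)) ∈ LW F U w := by
    rw [← sum_cW (finBasis F W) (m (u₀ ⊗ₜ v)), map_sum]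
    refine Submodule.sum_mem _ fun j _ => ?_
    obtain ⟨u, hu⟩ : cW U ((finBasis F W).coord j) (m (u₀ ⊗ₜ v)) ∈ LinearMap.range α := by
      rw [← hI]
      refine mem_perp.2 ?_
      rintro _ ⟨u, rfl⟩
      obtain ⟨z, hz⟩ := sp_exists_dual h.ndW ((finBasis F W).coord j)
      rw [← hz, ← h.left, ← SG_symm' hm']
      exact (h.perpL (x := u₀ ⊗ₜ v)).2 (by simp [hv]) _ (hX _ _)
    rw [← hu]; exact hX _ _
  obtain ⟨a, ha⟩ := this
  exact hv' (mem_span_of_tmul_eq' (u := u₀) (u' := a) (by rintro rfl; simp at hu₀)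
    (by simpa using ha.symm))

end SpO

end Cfsg.Agent.Max2
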