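import Mathlib
import Cfsg.Agent.PLocal.PStable
import Cfsg.Agent.Max2.SpCore

/-!
# Two quadratic elements in odd characteristic generate a `p`-group or a group with a central
involution
-/

set_option autoImplicit false

namespace Cfsg.Agent.Max2

open Module Cfsg.Agent.Max

theorem quad_trace {G R : Type*} [Group G] [Ring R] (ρ : G →* R) {s t : G} {a b : R}
    (hs : ρ s = 1 + a) (ht : ρ t = 1 + b) (ha : a * a = 0) (hb : b * b = 0) {g : G}
    (hg : g ∈ Subgroup.closure ({s, t} : Set G)) :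
    Commute a (ρ g + ρ g⁻¹) ∧ Commute b (ρ g + ρ g⁻¹) := by
  let C : Subring R := Subring.centralizer {a, b}
  have hC : ∀ r, r ∈ C ↔ a * r = r * a ∧ b * r = r * b := fun r => by
    simp [C, Subring.mem_centralizer_iff]
  have hz : a * b + b * a ∈ C := (hC _).2 ⟨by
    rw [mul_add, add_mul, ← mul_assoc, ha, mul_assoc b a a, ha, mul_assoc]; simp, by
    rw [mul_add, add_mul, ← mul_assoc b b, hb, mul_assoc a b b, hb, mul_assoc]; simp⟩
  let P : R → R → Prop := fun x y => ∃ r0 ∈ C, ∃ r1 ∈ C, ∃ r2 ∈ C, ∃ r3 ∈ C,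
    x = r0 + r1 * a + r2 * b + r3 * (a * b) ∧ y = r0 - r1 * a - r2 * b + r3 * (b * a)
  have Pa : ∀ x y, P x y → P (x * a) (-(a * y)) := by
    rintro _ _ ⟨r0, h0, r1, h1, r2, h2, r3, h3, rfl, rfl⟩
    refine ⟨r2 * (a * b + b * a), C.mul_mem h2 hz, r0 + r3 * (a * b + b * a),
      C.add_mem h0 (C.mul_mem h3 hz), 0, C.zero_mem, -r2, C.neg_mem h2, ?_, ?_⟩
    · simp only [add_mul, mul_add, mul_assoc, ha, mul_zero, zero_mul, neg_mul]; abel
    · simp only [add_mul, mul_add, mul_sub, ← mul_assoc, ((hC _).1 h0).1, ((hC _).1 h1).1,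
        ((hC _).1 h2).1, ((hC _).1 h3).1]
      simp only [mul_assoc, ha, mul_zero, zero_mul, neg_mul]; abel
  have Pb : ∀ x y, P x y → P (x * b) (-(b * y)) := by
    rintro _ _ ⟨r0, h0, r1, h1, r2, h2, r3, h3, rfl, rfl⟩
    refine ⟨0, C.zero_mem, 0, C.zero_mem, r0, h0, r1, h1, ?_, ?_⟩
    · simp only [add_mul, mul_assoc, hb, mul_zero, zero_mul]; abel
    · simp only [mul_add, mul_sub, ← mul_assoc, ((hC _).1 h0).2, ((hC _).1 h1).2,
        ((hC _).1 h2).2, ((hC _).1 h3).2]
      simp only [mul_assoc, hb, mul_zero, zero_mul]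
      abel
  have Padd : ∀ x y x' y', P x y → P x' y' → P (x + x') (y + y') := by
    rintro _ _ _ _ ⟨r0, h0, r1, h1, r2, h2, r3, h3, rfl, rfl⟩
      ⟨r0', h0', r1', h1', r2', h2', r3', h3', rfl, rfl⟩
    exact ⟨_, C.add_mem h0 h0', _, C.add_mem h1 h1', _, C.add_mem h2 h2', _, C.add_mem h3 h3',
      by simp only [add_mul]; abel, by simp only [add_mul]; abel⟩
  have Pneg : ∀ x y, P x y → P (-x) (-y) := by
    rintro _ _ ⟨r0, h0, r1, h1, r2, h2, r3, h3, rfl, rfl⟩
    exact ⟨_, C.neg_mem h0, _, C.neg_mem h1, _, C.neg_mem h2, _, C.neg_mem h3,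
      by simp only [neg_mul]; abel, by simp only [neg_mul]; abel⟩
  have inv : ∀ {s : G} {a : R}, ρ s = 1 + a → a * a = 0 → ρ s⁻¹ = 1 - a := fun {s a} hs ha => by
    have : ρ s⁻¹ * (ρ s * (1 - a)) = ρ s⁻¹ := by
      rw [hs, add_mul, mul_sub a, ha]; simp
    rw [← this, ← mul_assoc, ← map_mul]; simp
  have key : P (ρ g) (ρ g⁻¹) := by
    induction hg using Subgroup.closure_induction_right with
    | one => exact ⟨1, C.one_mem, 0, C.zero_mem, 0, C.zero_mem, 0, C.zero_mem, by simp, by simp⟩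
    | mul_right x hx y hy ih =>
      rw [mul_inv_rev, map_mul, map_mul]
      rcases hy with rfl | rfl
      · rw [hs, inv hs ha, mul_add, mul_one, sub_mul, one_mul, sub_eq_add_neg]
        exact Padd _ _ _ _ ih (Pa _ _ ih)
      · rw [ht, inv ht hb, mul_add, mul_one, sub_mul, one_mul, sub_eq_add_neg]
        exact Padd _ _ _ _ ih (Pb _ _ ih)
    | mul_inv_cancel x hx y hy ih =>
      rw [mul_inv_rev, inv_inv, map_mul, map_mul]
      rcases hy with rfl | rfl
      · rw [hs, inv hs ha, mul_sub, mul_one, add_mul, one_mul, sub_eq_add_neg]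
        simpa using Padd _ _ _ _ ih (Pneg _ _ (Pa _ _ ih))
      · rw [ht, inv ht hb, mul_sub, mul_one, add_mul, one_mul, sub_eq_add_neg]
        simpa using Padd _ _ _ _ ih (Pneg _ _ (Pb _ _ ih))
  obtain ⟨r0, h0, r1, h1, r2, h2, r3, h3, e1, e2⟩ := key
  have : ρ g + ρ g⁻¹ = r0 + r0 + r3 * (a * b + b * a) := by rw [e1, e2, mul_add]; abel
  rw [this]
  exact (hC _).1 (C.add_mem (C.add_mem h0 h0) (C.mul_mem h3 hz))

variable {F V : Type*} [Field F] [AddCommGroup V] [Module F V]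

theorem quad_cases [Finite F] [FiniteDimensional F V] (h2 : (2 : F) ≠ 0) {s t : V ≃ₗ[F] V}
    {A A' : V →ₗ[F] V} (hs : ∀ x, s x = x + A x) (ht : ∀ x, t x = x + A' x)
    (hA : ∀ x, A (A x) = 0) (hA' : ∀ x, A' (A' x) = 0) :
    IsPGroup (ringChar F) (Subgroup.closure ({s, t} : Set (V ≃ₗ[F] V))) ∨
      ∃ j ∈ Subgroup.closure ({s, t} : Set (V ≃ₗ[F] V)), j ≠ 1 ∧ (∀ x, j (j x) = x) ∧
        (∀ x, j (A x) = A (j x)) ∧ ∀ x, j (A' x) = A' (j x) := by
  have : Finite V := Module.finite_of_finite F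
  have : Finite (Module.End F V) := DFunLike.finite _
  have : Finite (V ≃ₗ[F] V) := DFunLike.finite _
  have : Fact (ringChar F).Prime := ⟨CharP.char_is_prime F _⟩
  let ρ : (V ≃ₗ[F] V) →* Module.End F V := LinearEquiv.automorphismGroup.toLinearMapMonoidHom
  have e1 : ρ s = 1 + A := LinearMap.ext hs
  have e2 : ρ t = 1 + A' := LinearMap.ext ht
  have e3 : A * A = 0 := LinearMap.ext hA
  have e4 : A' * A' = 0 := LinearMap.ext hA'
  rcases PLocal.quadPair_or_pow (ringChar F) (by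
      rw [← map_natCast (algebraMap F (Module.End F V)), ringChar.Nat.cast_ringChar, map_zero]) ρ
      (a := s) (b := t) (by simp [e1, e3]) (by simp [e2, e4]) with h | h
  · right
    obtain ⟨K, f, hf⟩ := h.isSectionOf (Orth.ringChar_ne_two h2)
    have hp2 := Orth.ringChar_ne_two h2
    have h3 : orderOf (-1 : Matrix.SpecialLinearGroup (Fin 2) (ZMod (ringChar F))) = 2 := by
      refine orderOf_eq_prime (by simp) fun e => hp2 ?_
      have := congrArg (fun g : Matrix.SpecialLinearGroup (Fin 2) (ZMod (ringChar F)) => g.1 0 0) e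
      simp only [Matrix.SpecialLinearGroup.coe_neg, Matrix.SpecialLinearGroup.coe_one,
        Matrix.neg_apply, Matrix.one_apply_eq] at this
      have h4 : ((2 : ℕ) : ZMod (ringChar F)) = 0 := by push_cast; linear_combination -this
      rw [ZMod.natCast_eq_zero_iff] at h4
      exact (Nat.prime_dvd_prime_iff_eq Fact.out Nat.prime_two).1 h4
    have h4 : 2 ∣ Nat.card (Subgroup.closure ({s, t} : Set (V ≃ₗ[F] V))) :=
      (h3 ▸ orderOf_dvd_natCard _).trans ((Subgroup.card_dvd_of_surjective f hf).trans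
        (Subgroup.card_subgroup_dvd_card K))
    obtain ⟨⟨j, hj⟩, h5⟩ := exists_prime_orderOf_dvd_card' 2 h4
    rw [← Subgroup.orderOf_coe] at h5
    have h6 : j * j = 1 := by rw [← sq, ← h5, pow_orderOf_eq_one]
    obtain ⟨c1, c2⟩ := quad_trace ρ e1 e2 e3 e4 hj
    rw [inv_eq_of_mul_eq_one_right h6] at c1 c2
    have k : ∀ B : V →ₗ[F] V, Commute B (ρ j + ρ j) → ∀ x, j (B x) = B (j x) := fun B c x => by
      have := LinearMap.congr_fun c.eq x
      change B (j x + j x) = j (B x) + j (B x) at this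
      rw [map_add, ← two_smul F, ← two_smul F] at this
      exact (smul_right_injective V h2 this).symm
    refine ⟨j, hj, fun e => ?_, fun x => LinearEquiv.congr_fun h6 x, k _ c1, k _ c2⟩
    subst e; simp at h5
  · left
    rintro ⟨g, hg⟩
    obtain ⟨k, hk⟩ := h g hg
    exact ⟨k, Subtype.ext (LinearEquiv.toLinearMap_injective hk)⟩

/-- A `p`-group containing `s` lies in `H` when every element conjugating `s` into `H` does. -/
theorem le_of_pgroup {G : Type*} [Group G] [Finite G] {p : ℕ} [Fact p.Prime] {P H : Subgroup G}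
    (hP : IsPGroup p P) {s : G} (hs : s ∈ P) (hsH : s ∈ H)
    (h : ∀ g ∈ P, g * s * g⁻¹ ∈ H → g ∈ H) : P ≤ H := by
  have := hP.isNilpotent
  by_contra hn
  have h1 : H.subgroupOf P < ⊤ := lt_top_iff_ne_top.2 fun e => hn (Subgroup.subgroupOf_eq_top.1 e)
  obtain ⟨g, hg, hg'⟩ := SetLike.exists_of_lt (normalizerCondition_of_isNilpotent _ h1)
  exact hg' (h g g.2 ((hg ⟨s, hs⟩).1 hsH))

end Cfsg.Agent.Max2
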