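import Mathlib
import Cfsg.Agent.Max2.SpO2
import Cfsg.Agent.Max2.Quad

/-!
# `O(U) ⊗ Sp(W)` in `Sp(U ⊗ W)`: the case `dim W > 2`, and a lemma on graphs
-/

set_option autoImplicit false

namespace Cfsg.Agent.Max2

open Module Cfsg.Agent.Max TensorProduct Classical.SpWitt Cfsg.Agent.Orth QuadraticMap

section Graph

variable {F U : Type*} [Field F] [AddCommGroup U] [Module F U] {Q : QuadraticForm F U}
  [FiniteDimensional F U]

theorem zero_of_perp3 (h2 : (2 : F) ≠ 0) (hk : finrank F U = 3) {s a b x : U} (hs : Q s ≠ 0)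
    (ha : polar Q s a = 0) (hb : polar Q s b = 0)
    (hg : polar Q a a * polar Q b b - polar Q a b ^ 2 ≠ 0) (e1 : polar Q s x = 0)
    (e2 : polar Q a x = 0) (e3 : polar Q b x = 0) : x = 0 := by
  let f : U →ₗ[F] F × F × F := (Q.polarBilin s).prod ((Q.polarBilin a).prod (Q.polarBilin b))
  have : Function.Injective f := (LinearMap.injective_iff_surjective_of_finrank_eq_finrank
    (by simp [hk])).2 fun ⟨p, q, r⟩ => ⟨(p / (2 * Q s)) • s +
      ((q * polar Q b b - r * polar Q a b) / (polar Q a a * polar Q b b - polar Q a b ^ 2)) • a +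
      ((r * polar Q a a - q * polar Q a b) / (polar Q a a * polar Q b b - polar Q a b ^ 2)) • b, by
      simp only [f, LinearMap.prod_apply, Function.prod, polarBilin_apply_apply, polar_add_right,
        p_smul_right, p_self Q s, ha, hb, polar_comm _ a s, polar_comm _ b s, polar_comm _ b a,
        Prod.mk.injEq]
      exact ⟨by field_simp; ring, by linear_combination q * mul_inv_cancel₀ hg,
        by linear_combination r * mul_inv_cancel₀ hg⟩⟩
  exact this (by simp [f, e1, e2, e3])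

theorem graph_case [Finite F] (h2 : (2 : F) ≠ 0) (hQ : ND Q) (hk : finrank F U = 3) {l : F}
    (hl : l ≠ 0) (hl' : l ^ 2 ≠ 1) {s : U} (hs : Q s ≠ 0) {G : Submodule F (U × U)}
    (ex : ∀ z, polar Q s z = 0 → ∃ a, polar Q s a = 0 ∧ (z, a) ∈ G)
    (sym : ∀ z a z' a', (z, a) ∈ G → (z', a') ∈ G → polar Q z' a = polar Q z a')
    (ker : ∀ a, ((0 : U), a) ∈ G → a ∈ F ∙ s)
    (st : ∀ e : OG Q, e.1 s = s → ∀ μ c : F, μ ≠ 0 → ∀ z₀ a₀, z₀ ≠ 0 → (z₀, a₀) ∈ G →
      (e.1 z₀, μ ^ 2 • e.1 a₀ + c • e.1 z₀) ∈ G →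
      ∀ z a, (z, a) ∈ G → (e.1 z, μ ^ 2 • e.1 a + c • e.1 z) ∈ G) :
    ∃ c : F, ∀ z, polar Q s z = 0 → (z, c • z) ∈ G := by
  have uq : ∀ z a a', (z, a) ∈ G → (z, a') ∈ G → ∀ x, polar Q s x = 0 →
      polar Q x a = polar Q x a' := fun z a a' h h' x hx => by
    obtain ⟨c, hc⟩ := Submodule.mem_span_singleton.1 (ker (a - a') (by simpa using G.sub_mem h h'))
    rw [← sub_eq_zero, ← polar_sub_right, ← hc, p_smul_right, polar_comm, hx, mul_zero]
  by_contra hn
  have ne : ∀ z (c : F), z ≠ 0 → (z, c • z) ∉ G := fun z c hz h => hn ⟨c, fun x hx => by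
    obtain ⟨a, ha, ha'⟩ := ex x hx
    have h1 := st 1 rfl l ((1 - l ^ 2) * c) hl z (c • z) hz h
      (by simpa only [OG.one_apply, smul_smul, ← add_smul,
        show l ^ 2 * c + (1 - l ^ 2) * c = c by ring] using h) x a ha'
    simp only [OG.one_apply] at h1
    obtain ⟨d, hd⟩ := Submodule.mem_span_singleton.1
      (ker _ (by simpa only [Prod.mk_sub_mk, sub_self] using G.sub_mem ha' h1))
    have h3 := congrArg (polar Q s) hd
    simp only [polar_sub_right, polar_add_right, p_smul_right, ha, hx, p_self] at h3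
    rw [show d = 0 by simpa [h2, hs] using h3, zero_smul] at hd
    have : (1 - l ^ 2) • (a - c • x) = 0 := by rw [hd]; module
    rwa [← sub_eq_zero.1 ((smul_eq_zero.1 this).resolve_left (sub_ne_zero.2 hl'.symm))]⟩
  have dec : ∀ {v v' a}, Q v ≠ 0 → Q v' ≠ 0 → polar Q s v = 0 → polar Q s v' = 0 →
      polar Q v v' = 0 → polar Q s a = 0 →
      a = (polar Q v a / (2 * Q v)) • v + (polar Q v' a / (2 * Q v')) • v' :=
    fun {v v' a} h1 h3 h4 h5 h6 h7 => sub_eq_zero.1 (zero_of_perp3 h2 hk hs h4 h5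
      (by simp [h6, h1, h3, h2]) (by simp [h4, h5, h7]) (by simp [h6, h1, h2])
      (by simp [polar_comm _ v' v, h6, h3, h2]))
  have hd := hQ.finrank_perp_singleton (ne_zero_of_Q_ne_zero hs)
  obtain ⟨v, hv1, hv⟩ := (nds_perp_one h2 hQ hs).exists_nonsing (by omega)
  replace hv1 := mem_perp_singleton.1 hv1
  obtain ⟨v', -, hv0, hv2, hv3⟩ := exists_ne_zero_two_ker (U := (⊤ : Submodule F U))
    (by rw [finrank_top]; omega) (Q.polarBilin s) (Q.polarBilin v)
  replace hv2 : polar Q s v' = 0 := hv2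
  replace hv3 : polar Q v v' = 0 := hv3
  have hv' : Q v' ≠ 0 := fun e => by
    obtain ⟨y, hy⟩ := hQ.exists_polar_one hv0
    have h3 := zero_of_perp3 h2 hk hs (a := v') (x := v) hv2
      (b := y - (polar Q s y / (2 * Q s)) • s - (polar Q v y / (2 * Q v)) • v)
      (by simp [h2, hs, hv1]) (by simp [e, hy, polar_comm _ v' s, polar_comm _ v' v, hv2, hv3])
      hv1 (by rwa [polar_comm]) (by simp [hv1, h2, hv, polar_comm _ y v])
    exact hv (by simp [h3])
  obtain ⟨a, ha, ha'⟩ := ex v hv1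
  obtain ⟨b, hb, hb'⟩ := ex v' hv2
  have hβ : polar Q v' a ≠ 0 := fun e => ne v (polar Q v a / (2 * Q v)) (ne_zero_of_Q_ne_zero hv)
    (by convert ha' using 2; rw [dec hv hv' hv1 hv2 hv3 ha]; simp [e, h2, hv])
  have hγ := sym _ _ _ _ ha' hb'
  have hv3' : polar Q v' v = 0 := by rwa [polar_comm]
  by_cases hi : IsSquare (-1 : F)
  · obtain ⟨i, hi⟩ := hi
    have key : ∀ v v' a b, Q v ≠ 0 → Q v' ≠ 0 → polar Q s v = 0 → polar Q s v' = 0 →
        polar Q v v' = 0 → polar Q s a = 0 → (v, a) ∈ G → (v', b) ∈ G →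
        polar Q v a * Q v' = polar Q v' b * Q v := fun v v' a b h1 h3 h4 h5 h6 h7 h8 h9 => by
      have h6' : polar Q v' v = 0 := by rwa [polar_comm]
      have := st (refl Q v') (refl_apply_of_orth (by rwa [polar_comm])) i (polar Q v a / Q v)
        (by rintro rfl; simp at hi) v a (ne_zero_of_Q_ne_zero h1) h8 (by
          rw [refl_apply_of_orth h6', pow_two, ← hi, refl_apply]
          convert h8 using 2
          have := dec h1 h3 h4 h5 h6 h7
          generalize polar Q v a = p, polar Q v' a = p' at this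
          rw [this]; match_scalars <;> field_simp <;> ring) v' b h9
      rw [refl_apply_self h3, pow_two, ← hi] at this
      have := uq _ _ _ this (G.neg_mem h9) v' h5
      simp only [refl_apply, polar_add_right, polar_sub_right, p_smul_right, polar_neg_right,
        p_self] at this
      field_simp at this
      exact mul_left_cancel₀ h2 (by linear_combination -this)
    obtain ⟨t, ht, ht'⟩ : ∃ t : F, t ≠ 0 ∧ Q v + t ^ 2 * Q v' ≠ 0 := by
      by_cases e : Q v + 1 ^ 2 * Q v' = 0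
      · exact ⟨l, hl, fun e' => hl' (sub_eq_zero.1 ((mul_eq_zero.1 (show (l ^ 2 - 1) * Q v' = 0 by
          linear_combination e' - e)).resolve_right hv'))⟩
      · exact ⟨1, one_ne_zero, e⟩
    have k1 := key v v' a b hv hv' hv1 hv2 hv3 ha ha' hb'
    have q1 : Q (v + t • v') = Q v + t ^ 2 * Q v' := by simp [q_add, q_smul, hv3]
    have q2 : Q (Q v • v' - (t * Q v') • v) = Q v * Q v' * (Q v + t ^ 2 * Q v') := by
      simp only [q_sub, q_smul, p_smul_left, p_smul_right, hv3']; ring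
    have k2 := key (v + t • v') (Q v • v' - (t * Q v') • v) (a + t • b) (Q v • b - (t * Q v') • a)
      (by rwa [q1]) (by rw [q2]; simp [hv, hv', ht']) (by simp [hv1, hv2]) (by simp [hv1, hv2])
      (by simp [hv3, hv3']; ring) (by simp [ha, hb]) (G.add_mem ha' (G.smul_mem t hb'))
      (G.sub_mem (G.smul_mem _ hb') (G.smul_mem _ ha'))
    simp only [q1, q2, polar_add_left, polar_add_right, polar_sub_left, polar_sub_right,
      p_smul_left, p_smul_right, ← hγ] at k2
    have : 2 * 2 * t * Q v * Q v' * (Q v + t ^ 2 * Q v') * polar Q v' a = 0 := by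
      linear_combination k2 - (Q v + t ^ 2 * Q v') * (Q v - t ^ 2 * Q v') * k1
    simp [h2, ht, hv, hv', ht', hβ] at this
  by_cases hρ : IsSquare (Q v * Q v')
  · obtain ⟨ρ, hρ⟩ := hρ
    have := st (refl Q v') (refl_apply_of_orth (by rwa [polar_comm])) 1
      (-(polar Q v' a * ρ / (Q v * Q v'))) one_ne_zero (v + (ρ / Q v') • v') _
      (fun e => hv (by simpa [h2, hv3] using congrArg (polar Q v) e))
      (G.add_mem ha' (G.smul_mem (ρ / Q v') hb')) (by
        convert G.sub_mem ha' (G.smul_mem (ρ / Q v') hb') using 1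
        have d1 := dec hv hv' hv1 hv2 hv3 ha
        have d2 := dec hv hv' hv1 hv2 hv3 hb
        rw [← hγ] at d2
        generalize polar Q v a = p, polar Q v' a = p', polar Q v' b = p'' at d1 d2
        rw [d1, d2]
        simp only [map_add, map_smul, refl_apply_of_orth hv3', refl_apply_self hv', Prod.smul_mk,
          Prod.mk_sub_mk, Prod.mk.injEq]
        refine ⟨by module, ?_⟩
        match_scalars
        · field_simp; ring
        · field_simp; linear_combination -2 * p' * hρ) v a ha'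
    rw [refl_apply_of_orth hv3'] at this
    have := uq _ _ _ this ha' v' hv2
    simp only [refl_apply, polar_add_right, polar_sub_right, p_smul_right, p_self, hv3'] at this
    exact hβ (mul_left_cancel₀ h2 (by
      linear_combination -this - 2 * polar Q v' a * inv_mul_cancel₀ hv'))
  obtain ⟨ρ, hρ⟩ : IsSquare (-1 * (Q v * Q v')) :=
    (isSquare_mul_iff (by simp) (mul_ne_zero hv hv')).2 (by simp [hi, hρ])
  obtain ⟨e, he0, he, he1⟩ : ∃ e, e ≠ 0 ∧ Q e = 0 ∧ polar Q s e = 0 :=
    ⟨ρ • v + Q v • v', fun e => by simpa [h2, hv3', hv, hv'] using congrArg (polar Q v') e, by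
      simp only [q_add, q_smul, p_smul_left, p_smul_right, hv3]
      linear_combination (-Q v) * hρ, by simp [hv1, hv2]⟩
  obtain ⟨f, hf1, hef, hf⟩ := hQ.exists_hyp_partner (F ∙ s) (x := e) (fun h => by
    obtain ⟨c, rfl⟩ := Submodule.mem_span_singleton.1 h
    exact he0 (by simp [show c = 0 by simpa [h2, hs] using he1])) he
    (fun x hx => by obtain ⟨c, rfl⟩ := Submodule.mem_span_singleton.1 hx; simp [he1])
  replace hf1 := hf1 s (Submodule.mem_span_singleton_self s)
  have hfe : polar Q f e = 1 := by rwa [polar_comm]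
  have dec' : ∀ {a}, polar Q s a = 0 → a = polar Q f a • e + polar Q e a • f := fun {a} h =>
    sub_eq_zero.1 (zero_of_perp3 h2 hk hs he1 hf1 (by simp [he, hef]) (by simp [he1, hf1, h])
      (by simp [he, hef]) (by simp [hf, hfe]))
  obtain ⟨a, ha, ha'⟩ := ex e he1
  obtain ⟨b, hb, hb'⟩ := ex f hf1
  have hγ := sym _ _ _ _ ha' hb'
  have r1 : ∀ t : F, t ≠ 0 → (refl Q (e - t • f)).1 e = t • f ∧
      (refl Q (e - t • f)).1 f = t⁻¹ • e := fun t ht => by
    have : Q (e - t • f) = -t := by simp [q_sub, q_smul, he, hf, hef]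
    simp only [refl_apply, this, polar_sub_left, p_smul_left, p_self, he, hf, hef, hfe]
    constructor <;> match_scalars <;> field_simp <;> ring
  let τ := refl Q (e - l⁻¹ • f) * refl Q (e - (1 : F) • f)
  have τe : τ.1 e = l • e := by
    rw [OG.mul_apply, (r1 1 one_ne_zero).1, one_smul, (r1 _ (inv_ne_zero hl)).2, inv_inv]
  have τf : τ.1 f = l⁻¹ • f := by
    rw [OG.mul_apply, (r1 1 one_ne_zero).2, inv_one, one_smul, (r1 _ (inv_ne_zero hl)).1]
  have := st τ (by
    rw [OG.mul_apply, refl_apply_of_orth (x := s), refl_apply_of_orth (x := s)] <;>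
      simp [polar_comm _ _ s, he1, hf1]) l (polar Q f a * (1 - l ^ 2)) hl e a he0 ha' (by
    convert G.smul_mem l ha' using 1
    have d1 := dec' ha
    generalize polar Q f a = p, polar Q e a = p' at d1
    rw [d1]
    simp only [map_add, map_smul, τe, τf, Prod.smul_mk, Prod.mk.injEq, true_and]
    match_scalars
    · ring
    · field_simp) f b hb'
  rw [τf] at this
  have h3 := uq _ _ _ this (G.smul_mem l⁻¹ hb') f hf1
  have d2 := dec' hb
  have hr : polar Q f b ≠ 0 := fun h => ne f (polar Q e b) (by rintro rfl; simp at hef)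
    (by convert hb' using 2; rw [d2]; simp [h, hef])
  generalize polar Q f b = p, polar Q e b = p' at d2 hr
  simp only [d2, map_add, map_smul, τe, τf, polar_add_right, p_smul_right, p_self, hf, hfe] at h3
  field_simp at h3
  refine hi ⟨l, (sub_eq_zero.1 ((mul_eq_zero.1 (show (l ^ 2 - 1) * (l * l - -1) = 0 from
    mul_left_cancel₀ hr (by linear_combination h3))).resolve_left (sub_ne_zero.2 hl'))).symm⟩

end Graph

variable {F U W : Type*} [Field F] [AddCommGroup U] [Module F U] [AddCommGroup W] [Module F W]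

namespace SpO

variable {Q : QuadraticForm F U} {β : LinearMap.BilinForm F W}
  {B : LinearMap.BilinForm F (U ⊗[F] W)} {M : Subgroup ((U ⊗[F] W) ≃ₗ[F] (U ⊗[F] W))}
  (h : SpO Q β B M) [FiniteDimensional F W] [FiniteDimensional F U]
include h

theorem norm_T (hS : Std β M) (hk : finrank F U = 4 → 3 ≤ finrank F W) {w : W} (hw : w ≠ 0)
    {g s : (U ⊗[F] W) ≃ₗ[F] (U ⊗[F] W)} (hg : g ∈ M)
    (e : ∀ x, s x = x + Dm LinearMap.id (β w) w x) (ht : IsT (g * s * g⁻¹)) : IsT g := by
  obtain ⟨w', e'⟩ := h.ulem hS hk hw hg ht fun x => by simp [e]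
  exact h.isT_of_stab hS hw hg e'

theorem big_case [Finite F] (hS : Std β M) (hl : 3 ≤ finrank F W)
    {m : (U ⊗[F] W) ≃ₗ[F] (U ⊗[F] W)} (hm : m ∈ M) : IsT m := by
  have : Nontrivial U := Module.nontrivial_of_finrank_pos (R := F) (by have := h.k3; omega)
  have : Nontrivial W := Module.nontrivial_of_finrank_pos (R := F) (by omega)
  obtain ⟨w₀, hw₀⟩ := exists_ne (0 : W)
  obtain ⟨u₀, hu₀⟩ := exists_ne (0 : U)
  by_contra hn
  have ns : ∀ w', im (LW F U w₀) m ≠ LW F U w' := fun w' e => hn (h.isT_of_stab hS hw₀ hm e)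
  set X := im (LW F U w₀) m with hX
  have hXk : finrank F X = finrank F U := by rw [hX, finrank_im, finrank_LW hw₀]
  obtain ⟨ψ₀, hψ₀⟩ : ∃ ψ, cU W ψ (m (u₀ ⊗ₜ w₀)) ≠ 0 := by
    by_contra e
    push Not at e
    exact tmul_ne_zero hu₀ hw₀ (m.map_eq_zero_iff.1 (eq_zero_of_cU e))
  obtain ⟨x₁, hx₁, ψ₁, hψ₁⟩ : ∃ x ∈ X, ∃ ψ, cU W ψ x ∉ F ∙ cU W ψ₀ (m (u₀ ⊗ₜ w₀)) := by
    by_contra e
    push Not at e
    refine ns _ (Submodule.eq_of_le_of_finrank_eq (fun x hx => mem_LW_of hψ₀ fun φ hφ =>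
      eq_zero_of_dual (F := F) fun ψ => ?_) (by rw [hXk, finrank_LW hψ₀]))
    obtain ⟨c, hc⟩ := Submodule.mem_span_singleton.1 (e x hx ψ)
    rw [← dual_cU, ← hc, map_smul, hφ, smul_zero]
  obtain ⟨w, -, hwy⟩ := exists_not_mem_of_finrank_lt
    (W := Submodule.span F {cU W ψ₀ (m (u₀ ⊗ₜ w₀)), cU W ψ₁ x₁}) (U := ⊤)
    (lt_of_le_of_lt (Max.finrank_span_pair_le _ _) (by rw [finrank_top]; omega))
  have hw : w ≠ 0 := by rintro rfl; exact hwy (Submodule.zero_mem _)
  obtain ⟨s, hs, hsT, es⟩ := h.rootT w 1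
  obtain ⟨t, ht, et⟩ := (h.root w₀ 1).conj hm
  simp only [one_smul] at es et
  have hP : Subgroup.closure {s, t} ≤ M := (Subgroup.closure_le _).2 (by
    rintro _ (rfl | rfl); exacts [hs, ht])
  rcases quad_cases h.two es et (h.AA _ _ w) (fun x => by simp [h.AA]) with hp | ⟨j, hj, j1, jj, jA, jA'⟩
  · have : Finite (U ⊗[F] W) := Module.finite_of_finite F
    have : Finite ((U ⊗[F] W) ≃ₗ[F] (U ⊗[F] W)) := DFunLike.finite _
    have : Fact (ringChar F).Prime := ⟨CharP.char_is_prime F _⟩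
    have := le_of_pgroup (H := tSub F U W) hp (Subgroup.subset_closure (by simp)) hsT
      fun g hg e => h.norm_T hS (fun _ => hl) hw (hP hg) es e
    obtain ⟨w', e⟩ := h.ulem hS (fun _ => hl) hw₀ hm (this (Subgroup.subset_closure (by simp))) et
    exact ns w' e
  have hj' := h.hM j (hP hj)
  obtain ⟨y, hy⟩ := exists_one h.ndW h.alt.isRefl hw
  obtain ⟨y₀, hy₀⟩ := exists_one h.ndW h.alt.isRefl hw₀
  have mv : ∀ x, j x - x ∈ LW F U w ⊔ X := by
    refine Subgroup.closure_induction (p := fun g _ => ∀ x, g x - x ∈ LW F U w ⊔ X) ?_ (by simp)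
      (fun g g' _ _ e e' x => ?_) (fun g _ e x => ?_) hj
    · rintro _ (rfl | rfl) x
      · rw [es, add_sub_cancel_left]; exact Submodule.mem_sup_left (Dm_mem _ _ _ _)
      · rw [et, add_sub_cancel_left]; exact Submodule.mem_sup_right (apply_mem_im.2 (Dm_mem _ _ _ _))
    · simpa using Submodule.add_mem _ (e (g' x)) (e' x)
    · simpa using Submodule.neg_mem _ (e (g.symm x))
  have jL : ∀ x ∈ LW F U w, j x ∈ LW F U w := by
    rintro _ ⟨u, rfl⟩
    have := jA (u ⊗ₜ y)
    simp only [Dm_apply (x := u ⊗ₜ y), cW_tmul, hy, one_smul, LinearMap.id_apply] at this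
    rw [inW_apply, this]; exact Dm_mem _ _ _ _
  have jX : ∀ x ∈ X, j x ∈ X := by
    rintro _ ⟨_, ⟨u, rfl⟩, rfl⟩
    have := jA' (m (u ⊗ₜ y₀))
    simp only [LinearMap.comp_apply, LinearEquiv.coe_coe, LinearEquiv.symm_apply_apply,
      Dm_apply (x := u ⊗ₜ y₀), cW_tmul, hy₀, one_smul, LinearMap.id_apply] at this
    rw [inW_apply, LinearEquiv.coe_coe, this]; exact apply_mem_im.2 (Dm_mem _ _ _ _)
  have iso : ∀ x ∈ X, ∀ x' ∈ X, B x x' = 0 := by
    rintro _ ⟨_, ⟨u, rfl⟩, rfl⟩ _ ⟨_, ⟨u', rfl⟩, rfl⟩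
    simp [h.hM m hm _ _, h.pure, h.alt w₀]
  have spl : ∀ z, ∃ x ∈ X, j x = -x ∧ (2 : F) • (z - j z) - x ∈ LW F U w := fun z => by
    obtain ⟨a, ha, b, hb, e⟩ := Submodule.mem_sup.1 (mv z)
    refine ⟨j b - b, X.sub_mem (jX b hb) hb, by simp [jj], ?_⟩
    convert (LW F U w).sub_mem (jL a ha) ha using 1
    rw [eq_sub_of_add_eq e]; simp only [map_sub, jj]; module
  have inL : ∀ z, cW U (β w) z = 0 → z - j z ∈ LW F U w := fun z hz => by
    obtain ⟨x, hx, e1, e2⟩ := spl z
    have h1 : cW U (β w) (j z) = 0 := by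
      have := jA z
      rw [Dm_apply, Dm_apply, hz, map_zero, zero_tmul, map_zero] at this
      exact tmul_left_inj hw (by simpa using this.symm)
    have h2 : cW U (β w) x = 0 := by simpa [hz, h1] using cW_LW (h.alt w) e2
    have : x = 0 := h.ndB.2 x fun v => mul_left_cancel₀ h.two (by
      obtain ⟨a, ha, b, hb, e⟩ := Submodule.mem_sup.1 (mv v)
      have h3 := congrArg (fun z => B z x) e
      have h4 := hj' v x
      simp only [map_add, map_sub, LinearMap.add_apply, LinearMap.sub_apply, h.perpL.2 h2 a ha,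
        iso b hb x hx, e1, map_neg] at h3 h4
      linear_combination h3 - h4)
    rw [this, sub_zero] at e2
    exact ((LW F U w).smul_mem_iff h.two).1 e2
  obtain ⟨b, hb⟩ : ∃ b : W →ₗ[F] W, ∀ u v, j (u ⊗ₜ v) = u ⊗ₜ b v := by
    obtain ⟨a, b, e⟩ := h.isT_of_stab hS hw (hP hj) (w' := w) (Submodule.eq_of_le_of_finrank_eq
      (by rintro _ ⟨x, hx, rfl⟩; exact jL x hx) (finrank_im _ _))
    obtain ⟨v, hv, hv'⟩ := exists_ker_not_mem hl (β w) w
    obtain ⟨φ, h1, h2⟩ := exists_dual_two hv'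
    have k : ∀ u, u = φ (b v) • a u := fun u => by
      simpa [e, h2, sub_eq_zero] using cW_LW h1 (inL (u ⊗ₜ v) (by simp [hv]))
    have hc : φ (b v) ≠ 0 := fun e => hu₀ (by simpa [e] using k u₀)
    refine ⟨(φ (b v))⁻¹ • (b : W →ₗ[F] W), fun u v' => ?_⟩
    rw [e]; conv_rhs => rw [k u]
    simp [smul_tmul', smul_smul, hc]
  have bb : ∀ v, b (b v) = v := fun v => tmul_right_inj (F := F) hu₀ (by rw [← hb, ← hb, jj])
  have b1 : ∀ v, β w v = 0 → ∃ c : F, b v = v + c • w := fun v hv => by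
    obtain ⟨u, e⟩ := inL (u₀ ⊗ₜ v) (by simp [hv])
    rw [hb, ← tmul_sub, inW_apply] at e
    obtain ⟨c, hc⟩ := Submodule.mem_span_singleton.1 (mem_span_of_tmul_eq' hu₀ e.symm)
    exact ⟨-c, by rw [neg_smul, hc]; abel⟩
  by_cases hε : β w (b y) = 1
  · have bw : b w = w := tmul_right_inj (F := F) hu₀ (by
      simpa [Dm_apply, hb, hy, hε] using jA (u₀ ⊗ₜ y))
    have b2 : ∀ v, β w v = 0 → b v = v := fun v hv => by
      obtain ⟨c, hc⟩ := b1 v hv
      have := bb v
      rw [hc, map_add, map_smul, bw, hc, add_assoc, add_eq_left, ← two_smul F, smul_eq_zero] at this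
      rw [hc, this.resolve_left h.two, add_zero]
    have b3 : b y = y := by
      have := b2 (b y - y) (by simp [hy, hε])
      rw [map_sub, bb] at this
      have h3 : (2 : F) • (b y - y) = 0 := by rw [two_smul]; nth_rw 1 [← this]; abel
      exact sub_eq_zero.1 ((smul_eq_zero.1 h3).resolve_left h.two)
    refine j1 (LinearEquiv.toLinearMap_injective (TensorProduct.ext' fun u v => ?_))
    have := b2 (v - β w v • y) (by simp [hy])
    rw [map_sub, map_smul, b3, sub_left_inj] at this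
    simp [hb, this]
  have all : ∀ x ∈ X, j x = -x := by
    have : X ⊓ LinearMap.ker (j.toLinearMap + LinearMap.id) = X := by
      refine Submodule.eq_of_le_of_finrank_le inf_le_left ?_
      rw [hXk]
      refine LinearMap.finrank_le_finrank_of_surjective (f := cW U (β w) ∘ₗ Submodule.subtype _)
        fun u => ?_
      obtain ⟨x, hx, e1, e2⟩ := spl (((2 * (1 - β w (b y)))⁻¹ • u) ⊗ₜ y)
      refine ⟨⟨x, hx, by simp [e1]⟩, ?_⟩
      have := cW_LW (h.alt w) e2
      have h2 := h.two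
      have h3 := sub_ne_zero.2 (Ne.symm hε)
      simp only [hb, map_sub, map_smul, cW_tmul, hy, sub_eq_zero] at this
      simp only [LinearMap.comp_apply, Submodule.subtype_apply, ← this]
      match_scalars; field_simp
    intro x hx
    rw [← this] at hx
    exact eq_neg_of_add_eq_zero_left hx.2
  have cmp : ∀ x ∈ X, ∀ ψ, cU W ψ x ∈ Submodule.span F {w, b y - y} := fun x hx ψ => by
    have h1 : ∀ x, cU W ψ (j x) = b (cU W ψ x) := fun x => by
      induction x with
      | zero => simp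
      | tmul u v => simp [hb]
      | add x y hx hy => simp only [map_add, hx, hy]
    have h2 := h1 x
    rw [all x hx, map_neg] at h2
    obtain ⟨c, hc⟩ := b1 (cU W ψ x - β w (cU W ψ x) • y) (by simp [hy])
    rw [map_sub, map_smul, ← h2] at hc
    refine (Submodule.smul_mem_iff _ h.two).1
      (Submodule.mem_span_pair.2 ⟨-c, -β w (cU W ψ x), ?_⟩)
    rw [neg_smul, ← sub_eq_iff_eq_add'.2 hc]; module
  refine hwy ?_
  rw [Submodule.eq_of_le_of_finrank_le (S₂ := Submodule.span F {w, b y - y})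
    (Submodule.span_le.2 ?_) ?_]
  · exact Submodule.subset_span (by simp)
  · rintro _ (rfl | rfl)
    exacts [cmp _ (apply_mem_im.2 (tmul_mem_LW _ _)) _, cmp _ hx₁ _]
  · rw [finrank_span_pair_eq (linearIndependent_pair_of_notMem hψ₀ hψ₁)]
    exact Max.finrank_span_pair_le _ _

end SpO

end Cfsg.Agent.Max2
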