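import Mathlib
import Cfsg.Agent.Max2.SpO3
import Cfsg.Agent.Classical.SpSimple

/-!
# Maximality of `O(U) ⊗ Sp(W)` in `Sp(U ⊗ W)`
-/

set_option autoImplicit false

namespace Cfsg.Agent.Max2

open Module Cfsg.Agent.Max TensorProduct Classical.SpWitt Cfsg.Agent.Orth QuadraticMap

variable {F U W : Type*} [Field F] [AddCommGroup U] [Module F U] [AddCommGroup W] [Module F W]

theorem refl_ten {Q : QuadraticForm F U} (u : U) (x : U ⊗[F] W) :
    TensorProduct.congr (refl Q u).1 (1 : W ≃ₗ[F] W) x =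
      x - (Q u)⁻¹ • u ⊗ₜ cU W (Q.polarBilin u) x := by
  induction x with
  | zero => simp
  | tmul a v => simp [refl_apply, sub_tmul, smul_tmul', smul_smul]
  | add x y hx hy => simp only [map_add, hx, hy, tmul_add]; module

theorem finrank_comap_inW {w : W} (hw : w ≠ 0) (X : Submodule F (U ⊗[F] W)) :
    finrank F (X.comap (inW F U w)) = finrank F ↥(LW F U w ⊓ X) := by
  rw [LW, ← Submodule.map_comap_eq]
  exact (Submodule.equivMapOfInjective _ (fun _ _ h => tmul_left_inj hw h) _).finrank_eq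

namespace SpO

variable {Q : QuadraticForm F U} {β : LinearMap.BilinForm F W}
  {B : LinearMap.BilinForm F (U ⊗[F] W)} {M : Subgroup ((U ⊗[F] W) ≃ₗ[F] (U ⊗[F] W))}
  (h : SpO Q β B M) [FiniteDimensional F W] [FiniteDimensional F U]
include h

omit [FiniteDimensional F U] in
theorem memL2 (hl : finrank F W ≤ 2) {w : W} (hw : w ≠ 0) {x : U ⊗[F] W}
    (hx : cW U (β w) x = 0) : x ∈ LW F U w := by
  obtain ⟨y, hy⟩ := exists_one h.ndW h.alt.isRefl hw
  refine h.memL hw fun v hv => ?_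
  rw [h.span2 hl hy v, h.alt.isRefl _ _ hv, map_sub, map_smul, map_smul, cW_sub]
  simp [cW_smul, hx]

omit [FiniteDimensional F U] in
theorem lagr (hl : finrank F W ≤ 2) {w : W} (hw : w ≠ 0) {m : (U ⊗[F] W) ≃ₗ[F] (U ⊗[F] W)}
    (hm : m ∈ M) {x : U ⊗[F] W} : x ∈ im (LW F U w) m ↔ ∀ y ∈ im (LW F U w) m, B y x = 0 := by
  refine ⟨?_, fun e => mem_im.2 (h.memL2 hl hw (h.perpL.1 fun y hy => ?_))⟩
  · rintro ⟨_, ⟨u, rfl⟩, rfl⟩ _ ⟨_, ⟨u', rfl⟩, rfl⟩
    simp [h.hM m hm _ _, h.pure, h.alt w]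
  · rw [SG_symm (h.hM m hm)]; exact e _ (apply_mem_im.2 hy)

theorem not_isT (hS : Std β M) (hk : finrank F U = 4 → 3 ≤ finrank F W) {w : W} (hw : w ≠ 0)
    {m t : (U ⊗[F] W) ≃ₗ[F] (U ⊗[F] W)} (hp : Pair M (LW F U w) m)
    (e : ∀ x, t x = x + cjm m (Dm LinearMap.id (β w) w) x) : ¬ IsT t := fun ht => by
  obtain ⟨w', e'⟩ := h.ulem hS hk hw hp.mem ht e
  obtain ⟨s, hs0, hsL, hsX⟩ := hp.exists_S
  exact hp.ne (by rw [e'] at hsX ⊢; exact LW_eq_of hsX hsL hs0)

theorem pair_nds (hS : Std β M) (hk : finrank F U = 4 → 3 ≤ finrank F W) (hl : finrank F W ≤ 2)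
    {w : W} (hw : w ≠ 0) {m : (U ⊗[F] W) ≃ₗ[F] (U ⊗[F] W)} (hp : Pair M (LW F U w) m) :
    (∀ c, (∀ u, u ⊗ₜ w ∈ im (LW F U w) m → polar Q u c = 0) →
      ∃ x ∈ im (LW F U w) m, cW U (β w) x = c) ∧
    NDS Q ((im (LW F U w) m).comap (inW F U w)) := by
  have k : ∀ c, (∀ u, u ⊗ₜ w ∈ im (LW F U w) m → polar Q u c = 0) →
      ∃ x ∈ im (LW F U w) m, cW U (β w) x = c := fun c hc => by
    have : c ∈ perp Q (perp Q ((im (LW F U w) m).map (cW U (β w)))) := mem_perp.2 fun u hu =>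
      hc u ((h.lagr hl hw hp.mem).2 fun y hy => h.altB.isRefl _ _ (by
        rw [h.left]; exact mem_perp'.1 hu _ ⟨y, hy, rfl⟩))
    rwa [h.nd.perp_perp] at this
  refine ⟨k, fun c hc e => by_contra fun h0 => ?_⟩
  obtain ⟨x, hx, rfl⟩ := k c fun u hu => by rw [polar_comm]; exact e u hu
  obtain ⟨s, hs, -, es⟩ := h.rootT w 1
  simp only [one_smul] at es
  have := hp.stabX hs (fun z hz hz' => by rwa [es, Dm_LW _ _ (h.alt w) hz, add_zero]) hx
    (fun e => h0 (cW_LW (h.alt w) e)) (by rw [es]; exact add_mem hx hc)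
  have ht := M.mul_mem (M.mul_mem (M.inv_mem hp.mem) hs) hp.mem
  exact h.not_isT hS hk hw hp.symm (fun x => by simp [es]; rfl) (h.isT_of_stab hS hw ht (w' := w)
    (Submodule.eq_of_le_of_finrank_eq (by
      rintro _ ⟨z, hz, rfl⟩; exact mem_im.1 (this _ (apply_mem_im.2 hz))) (finrank_im _ _)))

theorem pair_comm (hS : Std β M) (hl : finrank F W ≤ 2) {w y : W} (hy : β w y = 1)
    {m : (U ⊗[F] W) ≃ₗ[F] (U ⊗[F] W)} (hm : m ∈ M) {u : U} (hu : Q u ≠ 0)
    (huX : u ⊗ₜ w ∈ im (LW F U w) m) :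
    ∃ c : F, cjm m (Dm LinearMap.id (β w) w) (u ⊗ₜ y) = c • u ⊗ₜ w := by
  have hw : w ≠ 0 := by rintro rfl; simp at hy
  set N := cjm m (Dm LinearMap.id (β w) w) with hN
  set r := TensorProduct.congr (refl Q u).1 (1 : W ≃ₗ[F] W) with hr
  have NX : ∀ x, N x ∈ im (LW F U w) m := fun x => apply_mem_im.2 (Dm_mem _ _ _ _)
  have N0 : ∀ x ∈ im (LW F U w) m, N x = 0 := fun x hx => by
    rw [hN, cjm_apply, Dm_LW _ _ (h.alt w) (mem_im.1 hx), map_zero]
  have r1 : ∀ x ∈ im (LW F U w) m, ∃ c : F, r x = x + c • u ⊗ₜ w := fun x hx => by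
    have := (h.lagr hl hw hm).1 hx _ huX
    rw [h.right] at this
    refine ⟨(Q u)⁻¹ * β y (cU W (Q.polarBilin u) x), ?_⟩
    rw [hr, refl_ten]
    conv_lhs => rw [h.span2 hl hy (cU W _ x), this]
    simp [tmul_neg, mul_smul]
  have rr : ∀ x, r (r x) = x := fun x => by
    simp only [hr, refl_ten, map_sub, map_smul, cU_tmul, polarBilin_apply_apply, p_self, tmul_smul]
    match_scalars
    · ring
    · field_simp; ring
  obtain ⟨t, ht, et⟩ := (h.root w 1).conj hm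
  simp only [one_smul, ← hN] at et
  obtain ⟨c, hc⟩ := hS w hw (m⁻¹ * (r * t * r) * m) (M.mul_mem (M.mul_mem (M.inv_mem hm)
    (M.mul_mem (M.mul_mem (h.memO _) ht) (h.memO _))) hm) fun x hx => by
      obtain ⟨c, hc⟩ := r1 _ (apply_mem_im.2 (h.memL2 hl hw hx))
      have : N (r (m x)) = 0 := N0 _ (by
        rw [hc]; exact add_mem (apply_mem_im.2 (h.memL2 hl hw hx)) (Submodule.smul_mem _ _ huX))
      simp [et, this, rr]
  have hc' : ∀ x, r (N (r x)) = c • N x := fun x => by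
    simpa [et, rr, hN] using congrArg m (hc (m.symm x))
  have ru : r (u ⊗ₜ y) = -u ⊗ₜ y := by rw [hr, congr_tmul, refl_apply_self hu, neg_tmul]; rfl
  by_cases h1 : c = 1
  · obtain ⟨d, hd⟩ := r1 _ (NX (u ⊗ₜ y))
    have := hc' (u ⊗ₜ y)
    rw [ru, map_neg, map_neg, hd, h1] at this
    refine ⟨-d / 2, ?_⟩
    rw [div_eq_inv_mul, mul_smul, eq_inv_smul_iff₀ h.two, neg_smul,
      eq_sub_of_add_eq' (neg_eq_iff_eq_neg.1 this)]
    module
  exfalso
  have : im (LW F U w) m ≤ Submodule.span F {u ⊗ₜ w, N (u ⊗ₜ y)} := by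
    rintro _ ⟨_, ⟨a, rfl⟩, rfl⟩
    have e1 : N (m (a ⊗ₜ y)) = m (a ⊗ₜ w) := by simp [hN, Dm_apply, hy]
    rw [inW_apply, LinearEquiv.coe_coe, ← e1]
    generalize m (a ⊗ₜ y) = x
    obtain ⟨d, hd⟩ := r1 _ (NX (x + r x))
    have e2 := hc' (x + r x)
    rw [map_add r, rr, add_comm (r x), hd] at e2
    have e3 : N (x - r x) = ((Q u)⁻¹ * β w (cU W (Q.polarBilin u) x)) • N (u ⊗ₜ y) := by
      rw [hr, refl_ten, sub_sub_cancel]
      conv_lhs => rw [h.span2 hl hy (cU W _ x)]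
      simp [tmul_sub, N0 _ huX, mul_smul]
    have h3 := sub_ne_zero.2 h1
    refine (Submodule.smul_mem_iff _ (mul_ne_zero h.two h3)).1 (Submodule.mem_span_pair.2
      ⟨d, (c - 1) * ((Q u)⁻¹ * β w (cU W (Q.polarBilin u) x)), ?_⟩)
    rw [mul_smul (c - 1), ← e3, eq_sub_of_add_eq' e2]
    simp only [map_add, map_sub]; module
  have := (Submodule.finrank_mono this).trans (Max.finrank_span_pair_le _ _)
  rw [finrank_im, finrank_LW hw] at this
  have := h.k3
  omega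

theorem kappa (hS : Std β M) (hk : finrank F U = 4 → 3 ≤ finrank F W) (hl : finrank F W ≤ 2)
    {w : W} (hw : w ≠ 0) {m : (U ⊗[F] W) ≃ₗ[F] (U ⊗[F] W)} (hp : Pair M (LW F U w) m) :
    ∃ κ ∈ M, (∀ u, u ⊗ₜ w ∈ im (LW F U w) m → ∀ v, κ (u ⊗ₜ v) = u ⊗ₜ v) ∧
      ∃ c c', (∀ u, u ⊗ₜ w ∈ im (LW F U w) m → polar Q u c = 0 ∧ polar Q u c' = 0) ∧
        B (κ (c ⊗ₜ w)) (c' ⊗ₜ w) ≠ 0 := by
  obtain ⟨y, hy⟩ := exists_one h.ndW h.alt.isRefl hw
  obtain ⟨s, hs, hsT, es⟩ := h.rootT w 1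
  obtain ⟨t, ht, et⟩ := (h.root w 1).conj hp.mem
  simp only [one_smul] at es et
  have hS0 := (h.pair_nds hS hk hl hw hp).2
  have hκ := M.mul_mem (M.inv_mem (M.mul_mem hs ht)) (M.mul_mem ht hs)
  have fx : ∀ u, u ⊗ₜ w ∈ im (LW F U w) m → ∀ v, ((s * t)⁻¹ * (t * s)) (u ⊗ₜ v) = u ⊗ₜ v := by
    intro u hu v
    have := ns_le h.two hS0 (X := LinearMap.ker ((((s * t)⁻¹ * (t * s)).toLinearMap -
      LinearMap.id) ∘ₗ inW F U v)) (fun a ha ha0 => ?_) hu
    · exact sub_eq_zero.1 this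
    refine sub_eq_zero.2 ?_
    obtain ⟨c, hc⟩ := h.pair_comm hS hl hy hp.mem ha0 ha
    have t1 : t (a ⊗ₜ w) = a ⊗ₜ w := by
      rw [et, ← cjm, cjm_apply, Dm_LW _ _ (h.alt w) (x := m.symm (a ⊗ₜ w)) (mem_im.1 ha)]; simp
    have t2 : t (a ⊗ₜ y) = a ⊗ₜ y + c • a ⊗ₜ w := by rw [et, ← hc]
    rw [LinearEquiv.coe_coe, LinearEquiv.mul_apply, LinearEquiv.coe_inv, LinearEquiv.symm_apply_eq,
      h.span2 hl hy v]
    simp only [inW_apply, LinearMap.id_apply, LinearEquiv.mul_apply, tmul_sub, tmul_smul, map_sub,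
      map_smul, map_add, t1, t2, es, Dm_apply, cW_tmul, hy, h.alt w, ← smul_tmul']
    module
  refine ⟨_, hκ, fx, ?_⟩
  by_contra hn
  push Not at hn
  have hL : im (LW F U w) ((s * t)⁻¹ * (t * s)) = LW F U w := by
    refine Submodule.eq_of_le_of_finrank_eq ?_ (finrank_im _ _)
    rintro _ ⟨_, ⟨u, rfl⟩, rfl⟩
    obtain ⟨a, ha, c, hc, rfl⟩ := hS0.dec h.nd u
    rw [inW_apply, add_tmul, map_add, LinearEquiv.coe_coe, fx a ha]
    refine add_mem (tmul_mem_LW _ _) (h.memL2 hl hw (h.perpL.1 ?_))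
    rintro _ ⟨u, rfl⟩
    obtain ⟨a', ha', c', hc', rfl⟩ := hS0.dec h.nd u
    rw [inW_apply, add_tmul, map_add, LinearMap.add_apply, ← fx a' ha', h.hM _ hκ, h.pure,
      h.alt w, mul_zero, zero_add]
    exact h.altB.isRefl _ _ (hn c c' fun u hu => ⟨mem_perp.1 hc u hu, mem_perp.1 hc' u hu⟩)
  have h1 := (tSub F U W).inv_mem ((tSub F U W).mul_mem (h.isT_of_stab hS hw hκ hL)
    ((tSub F U W).inv_mem hsT))
  have h2 := h.norm_T hS hk hw (M.inv_mem ht) es (mem_tSub.1 (by convert h1 using 1; group))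
  exact h.not_isT hS hk hw hp et (mem_tSub.1 (by simpa using (tSub F U W).inv_mem h2))

theorem not_plane (hS : Std β M) {l : F} (hl : l ≠ 0) (hl' : l ^ 2 ≠ 1) {z : U} (hz : Q z ≠ 0)
    {κ : (U ⊗[F] W) ≃ₗ[F] (U ⊗[F] W)} (hκ : κ ∈ M)
    (f : ∀ u, polar Q z u = 0 → ∀ v, κ (u ⊗ₜ v) = u ⊗ₜ v) (w : W) :
    B (κ (z ⊗ₜ w)) (z ⊗ₜ w) = 0 := by
  let N : Subgroup (SG β) :=
    { carrier := {b | ∃ g ∈ M, (∀ u, polar Q z u = 0 → ∀ v, g (u ⊗ₜ v) = u ⊗ₜ v) ∧
        ∀ v, g (z ⊗ₜ v) = z ⊗ₜ b.1 v}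
      mul_mem' := by
        rintro a b ⟨g, hg, e1, e2⟩ ⟨g', hg', e1', e2'⟩
        exact ⟨g * g', M.mul_mem hg hg', fun u hu v => by simp [e1 u hu, e1' u hu],
          fun v => by simp [e2, e2']⟩
      one_mem' := ⟨1, M.one_mem, fun _ _ _ => rfl, fun _ => rfl⟩
      inv_mem' := by
        rintro a ⟨g, hg, e1, e2⟩
        exact ⟨g⁻¹, M.inv_mem hg, fun u hu v => by
          rw [LinearEquiv.coe_inv, LinearEquiv.symm_apply_eq, e1 u hu], fun v => by
          rw [LinearEquiv.coe_inv, LinearEquiv.symm_apply_eq, e2, SG.apply_inv]⟩ }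
  have : N.Normal := ⟨by
    rintro a ⟨g, hg, e1, e2⟩ b
    exact ⟨_, M.mul_mem (M.mul_mem (h.memW b.2) hg) (h.memW b⁻¹.2),
      fun u hu v => by simp [e1 u hu], fun v => by simp [e2]⟩⟩
  have h2 := h.two
  have dec : ∀ u, polar Q z (u - (polar Q z u / (2 * Q z)) • z) = 0 := fun u => by simp [h2, hz]
  let b : W →ₗ[F] W := (2 * Q z)⁻¹ • cU W (Q.polarBilin z) ∘ₗ κ.toLinearMap ∘ₗ
    TensorProduct.mk F U W z
  have hb : ∀ v, κ (z ⊗ₜ v) = z ⊗ₜ b v := fun v => sub_eq_zero.1 (h.ndB.2 _ fun x => by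
    induction x with
    | zero => simp
    | tmul u v' =>
      have e1 := h.hM κ hκ ((u - (polar Q z u / (2 * Q z)) • z) ⊗ₜ v') (z ⊗ₜ v)
      rw [f _ (dec u), h.pure, polar_comm _ _ z, dec, sub_tmul, ← smul_tmul'] at e1
      simp only [map_sub, map_smul, LinearMap.sub_apply, LinearMap.smul_apply, smul_eq_mul,
        h.right z] at e1
      simp only [map_sub, h.pure, b, LinearMap.smul_apply, LinearMap.comp_apply, map_smul,
        smul_eq_mul, LinearEquiv.coe_coe, mk_apply, polar_comm _ u z]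
      linear_combination e1
    | add x y hx hy => simp only [map_add, LinearMap.add_apply, hx, hy, add_zero])
  have hz0 := ne_zero_of_Q_ne_zero hz
  let b' : SG β := ⟨LinearEquiv.ofInjectiveEndo b fun v v' e =>
    tmul_right_inj (F := F) hz0 (κ.injective (by rw [hb, hb, e])), fun v v' => by
      have := h.hM κ hκ (z ⊗ₜ v) (z ⊗ₜ v')
      show β (b v) (b v') = _
      simpa [hb, h.pure, h2, hz] using this⟩
  rcases Classical.SpSimple.normal_le_center_or h.ndW h.alt N with e | e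
  · have hb' : ∀ v, b'.1 v = b v := fun _ => rfl
    rcases (Classical.SpSimple.mem_center_iff h.ndW h.alt).1 (e (x := b') ⟨κ, hκ, f, hb⟩) with e | e
    · rw [hb, ← hb', e]; simp [h.altB.self_eq_zero]
    · rw [hb, ← hb', e, Classical.SpSimple.negSG_apply]; simp [tmul_neg, h.altB.self_eq_zero]
  by_cases hw : w = 0
  · simp [hw]
  exfalso
  rw [Classical.SpSimple.commutator_eq_top_of_sq h.ndW h.alt hl hl'] at e
  obtain ⟨g, hg, e1, e2⟩ := e (Subgroup.mem_top (Classical.SpWitt.tv h.alt w 1))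
  obtain ⟨y, hy⟩ := exists_one h.ndW h.alt.isRefl hw
  obtain ⟨c, hc⟩ := hS w hw g hg fun x hx => sub_eq_zero.1 (eq_zero_of_ker
    (f := g.toLinearMap - LinearMap.id) (φ := β w) (fun e => by simp [e] at hy) (fun u v hv => by
      have := e1 _ (dec u) v
      rw [sub_tmul, map_sub, ← smul_tmul', map_smul, e2, Classical.SpWitt.tv_apply,
        h.alt.isRefl _ _ hv] at this
      simpa [sub_eq_zero] using this) hx)
  obtain ⟨u, hu, hu'⟩ := h.nd.exists_orth_nonsingular h2 (by have := h.k3; omega) hz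
  have h3 := hc (u ⊗ₜ y)
  have h4 := hc (z ⊗ₜ y)
  rw [e1 u hu] at h3
  rw [e2, Classical.SpWitt.tv_apply, ← h.alt.neg_eq] at h4
  have : c = 0 := by
    simpa [Dm_apply, hy, tmul_ne_zero (ne_zero_of_Q_ne_zero hu') hw] using h3
  simp [this, hy, tmul_add, tmul_neg, tmul_ne_zero hz0 hw] at h4

theorem not_line [Finite F] (hS : Std β M) (hk : finrank F U = 3) (hl : finrank F W ≤ 2) {l : F}
    (hl0 : l ≠ 0) (hl' : l ^ 2 ≠ 1) {w : W} (hw : w ≠ 0) {m : (U ⊗[F] W) ≃ₗ[F] (U ⊗[F] W)}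
    (hp : Pair M (LW F U w) m) : finrank F ((im (LW F U w) m).comap (inW F U w)) ≠ 1 := by
  intro hd
  obtain ⟨k1, k2⟩ := h.pair_nds hS (by omega) hl hw hp
  obtain ⟨s, hsS, hs⟩ := k2.exists_nonsing hd.ge
  have hS0 : (F ∙ s) = (im (LW F U w) m).comap (inW F U w) := Submodule.eq_of_le_of_finrank_eq
    ((Submodule.span_singleton_le_iff_mem _ _).2 hsS)
    (by rw [hd, finrank_span_singleton (ne_zero_of_Q_ne_zero hs)])
  have k3 : ∀ a, a ⊗ₜ w ∈ im (LW F U w) m → a ∈ F ∙ s := fun a ha => hS0 ▸ ha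
  obtain ⟨y, hy⟩ := exists_one h.ndW h.alt.isRefl hw
  have hy' : β y w = -1 := by rw [← h.alt.neg_eq, hy]
  let G := (im (LW F U w) m).comap ((inW F U y).coprod (inW F U w))
  have hG : ∀ z a, (z, a) ∈ G ↔ z ⊗ₜ y + a ⊗ₜ w ∈ im (LW F U w) m := fun _ _ => Iff.rfl
  have dc : ∀ x : U ⊗[F] W, x = cW U (β w) x ⊗ₜ y + (-cW U (β y) x) ⊗ₜ w := fun x => by
    induction x with
    | zero => simp
    | tmul u v =>
      conv_lhs => rw [h.span2 hl hy v]
      simp [tmul_add, tmul_neg, neg_tmul, smul_tmul', sub_eq_add_neg]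
    | add a b ha hb =>
      conv_lhs => rw [ha, hb]
      simp only [map_add, neg_add, add_tmul]; abel
  obtain ⟨c, hc⟩ := graph_case h.two h.nd hk hl0 hl' hs (G := G) (fun z hz => by
      obtain ⟨x, hx, rfl⟩ := k1 z fun u hu => by
        obtain ⟨c, rfl⟩ := Submodule.mem_span_singleton.1 (k3 u hu); simp [hz]
      refine ⟨-cW U (β y) x - (polar Q s (-cW U (β y) x) / (2 * Q s)) • s,
        by simp [h.two, hs], (hG _ _).2 ?_⟩
      rw [sub_tmul, ← add_sub_assoc, ← dc, ← smul_tmul']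
      exact sub_mem hx (Submodule.smul_mem _ _ hsS))
    (fun z a z' a' e e' => by
      have := (h.lagr hl hw hp.mem).1 ((hG _ _).1 e) _ ((hG _ _).1 e')
      simp only [map_add, LinearMap.add_apply, h.pure, hy, hy', h.alt.self_eq_zero,
        polar_comm _ a' z] at this
      linear_combination -this)
    (fun a ha => k3 a (by simpa using (hG _ _).1 ha))
    (fun e he μ c hμ z₀ a₀ h0 h1 h2 z a h3 => by
      obtain ⟨b, -, b1, b2⟩ := witt_two h.ndW h.alt ⊤ (fun _ _ => trivial) (u := w) (v := y)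
        (u' := μ • w) (v' := μ⁻¹ • y + (μ⁻¹ * c) • w) (pair_linearIndependent h.alt (by simp [hy]))
        (pair_linearIndependent h.alt (by simp [hy, hμ, h.alt w])) (by simp [hy, hμ, h.alt w])
      have ht := M.mul_mem (h.memO e) (h.memW b.2)
      have et : ∀ z a, (TensorProduct.congr e.1 (1 : W ≃ₗ[F] W) *
          TensorProduct.congr (1 : U ≃ₗ[F] U) b.1 : _ ≃ₗ[F] _) (z ⊗ₜ y + a ⊗ₜ w) = μ⁻¹ • (e.1 z ⊗ₜ y + (μ ^ 2 • e.1 a + c • e.1 z) ⊗ₜ w) := fun z a => by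
        simp only [LinearEquiv.mul_apply, map_add, congr_tmul, b1, b2, LinearEquiv.coe_one, id,
          tmul_add, add_tmul, tmul_smul, ← smul_tmul', map_smul]
        match_scalars <;> field_simp
      have := hp.stabX ht (by
        rintro _ ⟨u, rfl⟩ hu
        obtain ⟨d, rfl⟩ := Submodule.mem_span_singleton.1 (k3 u hu)
        simpa [b1, he, smul_comm μ d] using Submodule.smul_mem _ μ hu) ((hG _ _).1 h1)
        (fun e => h0 (by simpa [hy, h.alt w] using cW_LW (h.alt w) e))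
        (by rw [et]; exact Submodule.smul_mem _ _ ((hG _ _).1 h2)) _ ((hG _ _).1 h3)
      rw [et] at this
      exact (hG _ _).2 ((Submodule.smul_mem_iff _ (inv_ne_zero hμ)).1 this))
  have hy0 : y + c • w ≠ 0 := fun e => by simpa [hy, h.alt w] using congrArg (β w) e
  obtain ⟨b, hb⟩ := Classical.SpWitt.witt_one h.ndW h.alt hy0 hw
  have k4 : perp Q (F ∙ s) ≤
      (im (LW F U w) (TensorProduct.congr 1 b.1 * m)).comap (inW F U w) := fun z hz => by
    have := (hG _ _).1 (hc z (mem_perp_singleton.1 hz))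
    rw [smul_tmul, ← tmul_add, ← apply_mem_im (g := TensorProduct.congr 1 b.1), ← im_mul] at this
    rwa [congr_tmul, hb] at this
  have := hp.max _ (M.mul_mem (h.memW b.2) hp.mem) fun e => by
    obtain ⟨u, hu⟩ : TensorProduct.congr 1 b.1 (s ⊗ₜ w) ∈ LW F U w := by
      rw [← e, im_mul]; exact apply_mem_im.2 hsS
    obtain ⟨d, hd⟩ := Submodule.mem_span_singleton.1 (mem_span_of_tmul_eq'
      (ne_zero_of_Q_ne_zero hs) (show s ⊗ₜ[F] b.1 w = u ⊗ₜ w by simpa using hu.symm))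
    have := b.2 w (y + c • w)
    simp [← hd, hb, h.alt w, hy] at this
  rw [← finrank_comap_inW hw, ← finrank_comap_inW hw, hd] at this
  have h5 := Submodule.finrank_mono k4
  have := h.nd.finrank_perp_singleton (ne_zero_of_Q_ne_zero hs)
  omega

theorem two_case [Finite F] (hS : Std β M) (hk : finrank F U = 4 → 3 ≤ finrank F W)
    (hq : finrank F U = 3 → ∃ l : F, l ≠ 0 ∧ l ^ 2 ≠ 1) (hl : finrank F W ≤ 2) [Nontrivial W]
    {m : (U ⊗[F] W) ≃ₗ[F] (U ⊗[F] W)} (hm : m ∈ M) (hn : ¬ IsT m) : SG B ≤ M := by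
  obtain ⟨w, hw⟩ := exists_ne (0 : W)
  obtain ⟨y, hy⟩ := exists_one h.ndW h.alt.isRefl hw
  have k3 := h.k3
  obtain ⟨u, hu⟩ : ∃ u, im (LW F U w) (m⁻¹ * TensorProduct.congr (refl Q u).1 1 * m) ≠
      LW F U w := by
    by_contra e
    push Not at e
    have e1 : ∀ u, Q u ≠ 0 → ∀ x ∈ im (LW F U w) m,
        u ⊗ₜ cU W (Q.polarBilin u) x ∈ im (LW F U w) m := fun u hu x hx => by
      have : TensorProduct.congr (refl Q u).1 1 x ∈ im (LW F U w) m := by
        obtain ⟨x, hx, rfl⟩ := hx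
        have : (m⁻¹ * TensorProduct.congr (refl Q u).1 1 * m : _ ≃ₗ[F] _) x ∈ LW F U w := by
          rw [← e u]; exact apply_mem_im.2 hx
        exact mem_im.2 this
      have := sub_mem hx this
      rw [refl_ten, sub_sub_cancel] at this
      exact (Submodule.smul_mem_iff _ (inv_ne_zero hu)).1 this
    have : Nontrivial U := Module.nontrivial_of_finrank_pos (R := F) (by omega)
    obtain ⟨u₀, hu₀⟩ := exists_ne (0 : U)
    obtain ⟨u, hu, hu'⟩ : ∃ u, Q u ≠ 0 ∧ cU W (Q.polarBilin u) (m (u₀ ⊗ₜ w)) ≠ 0 := by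
      by_contra e
      push Not at e
      refine tmul_ne_zero hu₀ hw (m.map_eq_zero_iff.1 (eq_zero_of_cW fun φ => h.nd _ fun a => ?_))
      have := ns_le h.two (nds_top h.nd) (X := perp Q (F ∙ cW U φ (m (u₀ ⊗ₜ w))))
        (fun u _ hu => mem_perp_singleton.2 (by
          rw [polar_comm]; simpa [e u hu] using
            (dual_cU (Q.polarBilin u) φ (m (u₀ ⊗ₜ w))).symm))
      exact mem_perp_singleton.1 (this trivial)
    have := irrR h.two (nds_top h.nd) (Or.inl (by rwa [finrank_top]))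
      (X := (im (LW F U w) m).comap (inW F U (cU W (Q.polarBilin u) (m (u₀ ⊗ₜ w)))))
      (fun a _ ha x hx _ hp => by
        have := e1 a ha _ hx
        rw [inW_apply, cU_tmul, tmul_smul] at this
        exact (Submodule.smul_mem_iff _ hp).1 this)
      (e1 u hu _ (apply_mem_im.2 (tmul_mem_LW _ _))) trivial (ne_zero_of_Q_ne_zero hu)
    refine hn (h.isT_of_stab hS hw hm (w' := cU W (Q.polarBilin u) (m (u₀ ⊗ₜ w)))
      (Submodule.eq_of_le_of_finrank_eq ?_ (by rw [finrank_im, finrank_LW hw, finrank_LW hu'])).symm)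
    rintro _ ⟨a, rfl⟩
    exact this trivial
  have hg := M.mul_mem (M.mul_mem (M.inv_mem hm) (h.memO (refl Q u))) hm
  have hd : finrank F U ≤ finrank F ↥(LW F U w ⊓
      im (LW F U w) (m⁻¹ * TensorProduct.congr (refl Q u).1 1 * m)) + 2 := by
    have d1 := finrank_le_inf_ker (LW F U w) (β w ∘ₗ cU W (Q.polarBilin u) ∘ₗ m.toLinearMap)
    have d2 := finrank_le_inf_ker (LW F U w ⊓ LinearMap.ker
      (β w ∘ₗ cU W (Q.polarBilin u) ∘ₗ m.toLinearMap)) (β y ∘ₗ cU W (Q.polarBilin u) ∘ₗ m.toLinearMap)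
    rw [finrank_LW hw] at d1
    refine d1.trans (Nat.succ_le_succ (d2.trans (Nat.succ_le_succ (Submodule.finrank_mono ?_))))
    rintro x ⟨⟨h1, h2⟩, h3⟩
    refine ⟨h1, x, h1, ?_⟩
    have : cU W (Q.polarBilin u) (m x) = 0 := by
      rw [h.span2 hl hy (cU W _ _), show β w (cU W _ (m x)) = 0 from h2,
        show β y (cU W _ (m x)) = 0 from h3]; simp
    rw [LinearEquiv.coe_coe, LinearEquiv.mul_apply, LinearEquiv.mul_apply, refl_ten, this]
    simp
  obtain ⟨m', hp⟩ := exists_pair hg hu fun e => by rw [e, finrank_bot] at hd; omega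
  have hd' := hp.max _ hg hu
  rw [← finrank_comap_inW hw (im _ m')] at hd'
  obtain ⟨κ, hκ, f, c, c', e1, e2⟩ := h.kappa hS hk hl hw hp
  have k2 := (h.pair_nds hS hk hl hw hp).2
  by_cases h3 : 3 ≤ finrank F ((im (LW F U w) m').comap (inW F U w))
  · obtain ⟨n, hn1, hn2, hn3⟩ := k2.exists_sing h3 (X := ⊥) fun e => by
      rw [le_bot_iff.1 e, finrank_bot] at h3; omega
    exact h.local_lem hn2 (by simpa using hn3) hκ (f n hn1) (e1 n hn1).1 (e1 n hn1).2 e2
  exfalso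
  have hk3 : finrank F U = 3 := by omega
  obtain ⟨l, hl0, hl'⟩ := hq hk3
  have := h.not_line hS hk3 hl hl0 hl' hw hp
  have d := h.nd.finrank_perp_add ((im (LW F U w) m').comap (inW F U w))
  obtain ⟨z, hz, hz0⟩ := (k2.perp h.nd).exists_nonsing (by omega)
  have e3 : (F ∙ z) = perp Q ((im (LW F U w) m').comap (inW F U w)) :=
    Submodule.eq_of_le_of_finrank_eq ((Submodule.span_singleton_le_iff_mem _ _).2 hz)
      (by rw [finrank_span_singleton (ne_zero_of_Q_ne_zero hz0)]; omega)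
  obtain ⟨a, rfl⟩ := Submodule.mem_span_singleton.1
    (e3 ▸ mem_perp.2 fun u hu => (e1 u hu).1 : c ∈ F ∙ z)
  obtain ⟨a', rfl⟩ := Submodule.mem_span_singleton.1
    (e3 ▸ mem_perp.2 fun u hu => (e1 u hu).2 : c' ∈ F ∙ z)
  have := h.not_plane hS hl0 hl' hz0 hκ (fun u hu => f u (by
    have := mem_perp_singleton.2 hu
    rwa [e3, h.nd.perp_perp] at this)) w
  simp [← smul_tmul', this] at e2

theorem main [Finite F] (hk : finrank F U = 4 → 3 ≤ finrank F W)
    (hq : finrank F U = 3 → ∃ l : F, l ≠ 0 ∧ l ^ 2 ≠ 1) [Nontrivial W]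
    {m : (U ⊗[F] W) ≃ₗ[F] (U ⊗[F] W)} (hm : m ∈ M) (hn : ¬ IsT m) : SG B ≤ M := by
  by_cases hS : Std β M
  · by_cases hl : finrank F W ≤ 2
    · exact h.two_case hS hk hq hl hm hn
    · exact absurd (h.big_case hS (by omega) hm) hn
  · exact h.le_of_not_std hq hS

end SpO

theorem exists_sq_ne_one [Fintype F] (h : 4 ≤ Fintype.card F) : ∃ l : F, l ≠ 0 ∧ l ^ 2 ≠ 1 := by
  classical
  obtain ⟨l, hl⟩ : ∃ l : F, l ∉ ({0, 1, -1} : Finset F) := by
    by_contra e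
    push Not at e
    have := (Finset.card_le_card (s := Finset.univ) fun x _ => e x).trans Finset.card_le_three
    rw [Finset.card_univ] at this
    omega
  simp only [Finset.mem_insert, Finset.mem_singleton, not_or] at hl
  exact ⟨l, hl.1, by simp [hl.2]⟩

open Geo Classical.SpMat in
theorem max_sp_tensor [Fintype F] (hodd : Odd (Fintype.card F)) {m n₁ n₂ : ℕ} (hm : 1 ≤ m)
    (hn₂ : 3 ≤ n₂) (h4 : n₂ = 4 → 3 ≤ n₁) (hex : ¬ (Fintype.card F = 3 ∧ n₂ = 3))
    {e : (Fin m ⊕ Fin m) ≃ Fin n₁ × Fin n₂} {P : GL (Fin m ⊕ Fin m) F}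
    {f₁ : (Fin n₁ → F) → (Fin n₁ → F) → F} {f₂ : (Fin n₂ → F) → (Fin n₂ → F) → F}
    (hf₁ : IsSymplecticForm f₁) (hf₂ : IsSymmetricForm f₂)
    (hT : IsTensorFormStructure id (sympForm m F) f₁ f₂ e P) :
    IsMaximalIn (spGL m F) (tensorProductSubgroup n₁ n₂ e P ⊓ spGL m F) := by
  have h2 := two_ne_zero_of_odd hodd
  obtain ⟨c, hc, hT⟩ := tensor_form (σ := RingHom.id F) hT (bilOf hf₁.bilinear) (fun _ _ => rfl)
    (bilOf hf₂.bilinear) fun _ _ => rfl
  let Q : QuadraticForm F (Fin n₂ → F) := ((2 : F)⁻¹ • bilOf hf₂.bilinear).toQuadraticMap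
  have hQ : ∀ u v, polar Q u v = f₂ u v := fun u v => by
    simp only [Q, LinearMap.BilinMap.polar_toQuadraticMap, LinearMap.smul_apply, bilOf_apply,
      hf₂.symm v u, smul_eq_mul]
    field_simp; ring
  have hS : ∀ M, (∀ g ∈ SG (trB (sB (Fin m) F) (tenE (e.trans (Equiv.prodComm _ _)) P)),
      IsT g → g ∈ M) → (∀ g ∈ M, g ∈ SG (trB (sB (Fin m) F) (tenE (e.trans (Equiv.prodComm _ _)) P))) →
      SpO Q (c • bilOf hf₁.bilinear) _ M := fun M h1 h3 =>
    ⟨h2, fun x hx => (bilOf_nd hf₂.bilinear hf₂.nondegenerate).1 x fun y => (hQ x y).symm.trans (hx y),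
      ⟨fun x hx => (bilOf_nd hf₁.bilinear hf₁.nondegenerate).1 x fun y => by simpa [hc] using hx y,
        fun x hx => (bilOf_nd hf₁.bilinear hf₁.nondegenerate).2 x fun y => by simpa [hc] using hx y⟩,
      fun x => by simp [bilOf_apply, hf₁.alternating], fun u w u' w' => by
        have := hT w u w' u'
        rw [← tenE_swap e P w, ← tenE_swap e P w', sympForm_eq'] at this
        simp only [polarBilin_apply_apply, hQ, LinearMap.smul_apply, bilOf_apply, smul_eq_mul]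
        exact this.trans (by ring), by simpa, h1, h3⟩
  have : Nontrivial (Fin n₁ → F) := Module.nontrivial_of_finrank_pos (R := F) (by
    simpa using (e (Sum.inl ⟨0, hm⟩)).1.pos)
  rw [← Asch.tensorProductSubgroup_swap]
  refine isMaximalIn_Sp' (tenE _ P) IsT (mem_tensor_iff _ P) ?_ fun M h1 h3 ⟨g, hg, hn⟩ =>
    (hS M h1 h3).main (by simpa) (fun h => exists_sq_ne_one ?_) hg hn
  · have h := hS _ (fun g hg _ => hg) fun g hg => hg
    obtain ⟨w, hw⟩ := exists_ne (0 : Fin n₁ → F)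
    obtain ⟨y, hy⟩ := exists_one h.ndW h.alt.isRefl hw
    obtain ⟨n, hn0, hn⟩ := exists_singular Q h.k3
    obtain ⟨z, hz⟩ := exists_not_mem_span (K := F) (by have := h.k3; omega) n
    obtain ⟨f, hf⟩ := h.nd.exists_polar_one hn0
    refine ⟨_, tv_mem_SG h.altB (n ⊗ₜ w) 1 (by simp [h.altB.self_eq_zero]), not_isT_Dm
      (γ := (Q.polarBilin n).smulRight n) (φ := (c • bilOf hf₁.bilinear) w) ?_ (fun a e => ?_)
      (fun e => by simp [e] at hy) hw fun x => ?_⟩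
    · rw [← finrank_span_pair_eq (pair_linearIndependent h.alt (hy ▸ one_ne_zero))]
      exact Submodule.finrank_le _
    · have h1 := LinearMap.congr_fun e f
      have h3 := LinearMap.congr_fun e z
      simp only [LinearMap.smulRight_apply, polarBilin_apply_apply, hf, one_smul,
        LinearMap.smul_apply, LinearMap.id_apply] at h1 h3
      refine hz ((Submodule.smul_mem_iff _ (show a ≠ 0 by rintro rfl; simp [hn0] at h1)).1 ?_)
      rw [← h3]; exact Submodule.smul_mem _ _ (Submodule.mem_span_singleton_self n)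
    · rw [Max.tv_apply, one_smul, h.left, Dm_apply, smul_tmul']; rfl
  · have := Fintype.one_lt_card (α := F)
    obtain ⟨k, hk⟩ := hodd
    simp only [finrank_fin_fun] at h
    omega

end Cfsg.Agent.Max2
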