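import Mathlib
import Cfsg.Agent.Max2.SpO4
import Cfsg.Agent.Max2.UExt
import Cfsg.Agent.Max.Un2

/-!
# `GU(U) ⊗ GU(W)` in `SU(U ⊗ W)`: finding transvections
-/

set_option autoImplicit false

namespace Cfsg.Agent.Max2

open Module Cfsg.Agent.Max TensorProduct Cfsg.Agent.Herm

variable {F U W : Type*} [Field F] [AddCommGroup U] [Module F U] [AddCommGroup W] [Module F W]
  {σ : F →+* F}

theorem det_congr [FiniteDimensional F U] [FiniteDimensional F W] (a : U ≃ₗ[F] U) (b : W ≃ₗ[F] W) :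
    LinearEquiv.det (TensorProduct.congr a b) =
      LinearEquiv.det a ^ finrank F W * LinearEquiv.det b ^ finrank F U := by
  apply Units.ext
  simp only [Units.val_mul, Units.val_pow_eq_pow_val, LinearEquiv.coe_det]
  rw [← LinearMap.det_toMatrix ((finBasis F U).tensorProduct (finBasis F W)),
    ← LinearMap.det_toMatrix (finBasis F U), ← LinearMap.det_toMatrix (finBasis F W),
    show (TensorProduct.congr a b).toLinearMap = TensorProduct.map a.toLinearMap b.toLinearMap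
      from rfl, TensorProduct.toMatrix_map, Matrix.det_kronecker]
  simp

theorem UG_symm {B : U →ₛₗ[σ] U →ₗ[F] F} {g : U ≃ₗ[F] U} (hg : g ∈ UG B) (x y : U) :
    B x (g.symm y) = B (g x) y := by rw [← hg, LinearEquiv.apply_symm_apply]

theorem UG_symm' {B : U →ₛₗ[σ] U →ₗ[F] F} {g : U ≃ₗ[F] U} (hg : g ∈ UG B) (x y : U) :
    B (g.symm x) y = B x (g y) := by rw [← hg, LinearEquiv.apply_symm_apply]

theorem det_SUG {B : U →ₛₗ[σ] U →ₗ[F] F} {g : UG B} (hg : g ∈ SUG B) : LinearEquiv.det g.1 = 1 :=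
  hg

theorem scalar_of_iso [Finite F] [FiniteDimensional F U] {p : U →ₛₗ[σ] U →ₗ[F] F} (hp : HF p)
    (hn : 2 ≤ finrank F U) {γ : U →ₗ[F] U} (h : ∀ n, p n n = 0 → p n (γ n) = 0) :
    ∃ c : F, γ = c • LinearMap.id := by
  obtain ⟨s, hs0, hs⟩ := hp.toInv.exists_skew
  have k1 : ∀ e f, p e e = 0 → p f f = 0 → p e f = 1 → p e (γ f) = p f (γ e) := fun e f he hf hef => by
    have := h (e + s • f) (by simp [he, hf, hef, hp.one_symm hef, hs])
    simp only [map_add, map_smul, LinearMap.add_apply, b_smul_left, h e he, h f hf,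
      smul_eq_mul] at this
    exact mul_left_cancel₀ hs0 (by linear_combination this - p f (γ e) * hs)
  have k2 : ∀ e x, p e e = 0 → p e x = 1 → p e (γ x) = p x (γ e) := fun e x he hx => by
    obtain ⟨a, ha⟩ := hp.exists_iso_sub he (x := x) (by simp [hx])
    simpa [h e he] using k1 e _ he ha (by simp [hx, he])
  have k3 : ∀ e f, p e e = 0 → p e f = 1 → γ e = p f (γ e) • e := fun e f he hef => by
    refine sub_eq_zero.1 (hp.nd' _ fun y => ?_)
    obtain ⟨t, ht⟩ := hp.ne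
    have e1 := k2 e f he hef
    have e2 := k2 e (f + (y - p e y • f)) he (by simp [hef])
    have e3 := k2 e (f + t • (y - p e y • f)) he (by simp [hef])
    simp only [map_add, map_smul, map_sub, LinearMap.add_apply, LinearMap.sub_apply, b_smul_left,
      smul_eq_mul, hp.symm] at e2 e3 ⊢
    exact mul_left_cancel₀ (sub_ne_zero.2 ht) (by linear_combination t * e2 - e3 + (1 - t) * e1)
  obtain ⟨e, f, he, hf, hef⟩ := hp.exists_hyp_pair hn
  have k4 : ∀ e n (c : F), p e e = 0 → p n n = 0 → p n e ≠ 0 → γ e = c • e → γ n = c • n :=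
    fun e n c he hn hne hc => by
    have e1 := k3 n ((p n e)⁻¹ • e) hn (by simp [hne])
    have e2 := k2 n ((p n e)⁻¹ • e) hn (by simp [hne])
    rw [e1, ← e2]; simp [hc, hne, mul_comm c]
  have hc := k3 e f he hef
  have hc' := k4 e f _ he hf (by simp [hp.one_symm hef]) hc
  refine ⟨p f (γ e), LinearMap.ext (iso_ind hp hn (fun n hn => ?_) fun x y hx hy => by
    simp only [map_add, hx, hy])⟩
  by_cases h1 : p n e = 0
  · by_cases h2 : p n f = 0
    · have := k4 f (e + n) _ hf (by simp [he, hn, h1, hp.zero_symm h1]) (by simp [hef, h2]) hc'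
      rw [map_add, smul_add, ← hc] at this
      exact add_left_cancel this
    · exact k4 f n _ hf hn h2 hc'
  · exact k4 e n _ he hn h1 hc

/-- An overgroup `M` of `GU(U) ⊗ GU(W)` in the special unitary group. -/
structure UU (p : U →ₛₗ[σ] U →ₗ[F] F) (β : W →ₛₗ[σ] W →ₗ[F] F)
    (B : U ⊗[F] W →ₛₗ[σ] U ⊗[F] W →ₗ[F] F) (M : Subgroup ((U ⊗[F] W) ≃ₗ[F] (U ⊗[F] W))) :
    Prop where
  hU : HF p
  hW : HF β
  pure : ∀ u u' w w', B (u ⊗ₜ w) (u' ⊗ₜ w') = p u u' * β w w'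
  k2 : 2 ≤ finrank F U
  kl : finrank F U < finrank F W
  hH : ∀ g ∈ UG B, LinearEquiv.det g = 1 → IsT g → g ∈ M
  hM : ∀ g ∈ M, g ∈ UG B
  hD : ∀ g ∈ M, LinearEquiv.det g = 1

namespace UU

variable {p : U →ₛₗ[σ] U →ₗ[F] F} {β : W →ₛₗ[σ] W →ₗ[F] F}
  {B : U ⊗[F] W →ₛₗ[σ] U ⊗[F] W →ₗ[F] F} {M : Subgroup ((U ⊗[F] W) ≃ₗ[F] (U ⊗[F] W))}
  (h : UU p β B M)
include h

theorem l3 : 3 ≤ finrank F W := by have := h.k2; have := h.kl; omega

theorem ntU : Nontrivial U := Module.nontrivial_of_finrank_pos (R := F) (by have := h.k2; omega)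

theorem left (u : U) (w : W) (x : U ⊗[F] W) : B (u ⊗ₜ w) x = p u (cW U (β w) x) := by
  induction x with
  | zero => simp
  | tmul u' w' => simp [h.pure, mul_comm]
  | add x y hx hy => simp only [map_add, hx, hy]

theorem symm (x y : U ⊗[F] W) : σ (B x y) = B y x := by
  induction x with
  | zero => simp
  | tmul u w =>
    induction y with
    | zero => simp
    | tmul u' w' => simp [h.pure, h.hU.symm, h.hW.symm]
    | add y z hy hz => simp only [map_add, LinearMap.add_apply, hy, hz]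
  | add x z hx hz => simp only [map_add, LinearMap.add_apply, hx, hz]

theorem congr_mem {a : U ≃ₗ[F] U} {b : W ≃ₗ[F] W} {μ : F}
    (ha : ∀ u v, μ * p (a u) (a v) = p u v) (hb : ∀ u v, β (b u) (b v) = μ * β u v) :
    TensorProduct.congr a b ∈ UG B := fun x y => by
  induction x with
  | zero => simp
  | tmul u w =>
    induction y with
    | zero => simp
    | tmul u' w' => rw [congr_tmul, congr_tmul, h.pure, h.pure, hb, ← ha u u']; ring
    | add y z hy hz => simp only [map_add, hy, hz]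
  | add x z hx hz => simp only [map_add, LinearMap.add_apply, hx, hz]

theorem perpL {w : W} {x : U ⊗[F] W} : (∀ y ∈ LW F U w, B y x = 0) ↔ cW U (β w) x = 0 :=
  ⟨fun e => h.hU.nd' _ fun u => by rw [← h.left]; exact e _ (tmul_mem_LW _ _), by
    rintro e _ ⟨u, rfl⟩; rw [inW_apply, h.left, e, map_zero]⟩

variable [FiniteDimensional F U] [FiniteDimensional F W]

omit [FiniteDimensional F U] in
theorem hB : HF B :=
  ⟨h.hU.toInv, h.symm, fun x hx => eq_zero_of_cW fun φ => by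
    obtain ⟨w, rfl⟩ := h.hW.exists_dual_eq φ
    exact h.perpL.1 fun y _ => by rw [← h.symm, hx, map_zero]⟩

theorem memU {a : UG p} (ha : a ∈ SUG p) : TensorProduct.congr a.1 (1 : W ≃ₗ[F] W) ∈ M :=
  h.hH _ (h.congr_mem (μ := 1) (by simp) (by simp)) (by simp [det_congr, det_SUG ha])
    (isT_congr _ _)

theorem memW {b : UG β} (hb : b ∈ SUG β) : TensorProduct.congr (1 : U ≃ₗ[F] U) b.1 ∈ M :=
  h.hH _ (h.congr_mem (μ := 1) (by simp) (by simp)) (by simp [det_congr, det_SUG hb])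
    (isT_congr _ _)

omit [FiniteDimensional F U] [FiniteDimensional F W] h in
theorem AA (γ γ' : U →ₗ[F] U) {w : W} (hw : β w w = 0) (x : U ⊗[F] W) :
    Dm γ (β w) w (Dm γ' (β w) w x) = 0 := Dm_Dm _ _ _ _ hw x

theorem cjW {γ : U →ₗ[F] U} {w : W} (e : R M (Dm γ (β w) w)) {b : UG β} (hb : b ∈ SUG β) :
    R M (Dm γ (β (b.1 w)) (b.1 w)) :=
  e.conj' (h.memW hb) fun x => by
    rw [Dm_apply, Dm_apply, congr_one_apply, congr_tmul,
      show β (b.1 w) ∘ₗ (b.1 : W →ₗ[F] W) = β w from LinearMap.ext (b.2 w)]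
    rfl

theorem cjU {γ : U →ₗ[F] U} {w : W} (e : R M (Dm γ (β w) w)) {a : UG p} (ha : a ∈ SUG p) :
    R M (Dm (cjm a.1 γ) (β w) w) :=
  e.conj' (h.memU ha) fun x => by
    rw [Dm_apply, Dm_apply, cW_congr, congr_tmul, cjm_apply, LinearEquiv.symm_apply_apply]
    rfl

theorem rootT {w : W} (hw : β w w = 0) {c : F} (hc : c + σ c = 0) :
    ∃ g ∈ M, IsT g ∧ ∀ x, g x = x + c • Dm LinearMap.id (β w) w x := by
  refine ⟨_, h.memW (h.hW.tv_mem_SUG hw c), isT_congr _ _, fun x => ?_⟩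
  induction x with
  | zero => simp
  | tmul u v => simp [h.hW.tv_apply hw hc, Dm_apply, tmul_add, smul_tmul', smul_smul]
  | add x y hx hy => simp only [map_add, hx, hy]; module

omit [FiniteDimensional F U] in
theorem memL {w : W} (hw : w ≠ 0) {x : U ⊗[F] W} (e : ∀ v, β v w = 0 → cW U (β v) x = 0) :
    x ∈ LW F U w :=
  mem_LW_of hw fun φ hφ => by
    obtain ⟨v, rfl⟩ := h.hW.exists_dual_eq φ
    exact e v hφ

omit [FiniteDimensional F U] in
theorem zform {w : W} (hw : w ≠ 0) (hw0 : β w w = 0) {g : (U ⊗[F] W) ≃ₗ[F] (U ⊗[F] W)}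
    (hg : g ∈ UG B) (e : ∀ x, cW U (β w) x = 0 → g x = x) : ∃ γ : U →ₗ[F] U,
      (∀ u v, p (γ u) v = -p u (γ v)) ∧ ∀ x, g x = x + Dm γ (β w) w x := by
  obtain ⟨y, hy, -⟩ := h.hW.exists_hyp hw hw0
  obtain ⟨χ, hχ⟩ := exists_dual_one (F := F) hw
  have h1 : ∀ x, g x - x ∈ LW F U w := fun x => h.memL hw fun v hv => h.hU.nd' _ fun u => by
    have := hg (u ⊗ₜ v) x
    rw [e _ (by simp [h.hW.zero_symm hv])] at this
    rw [← h.left, map_sub, this, sub_self]
  let γ : U →ₗ[F] U := cW U χ ∘ₗ ((g : _ →ₗ[F] _) - LinearMap.id) ∘ₗ inW F U y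
  have h2 : ∀ u, g (u ⊗ₜ y) = u ⊗ₜ y + γ u ⊗ₜ w := fun u => by
    rw [← sub_eq_iff_eq_add', ← eq_of_mem_LW hχ (h1 _)]; rfl
  refine ⟨γ, fun u v => ?_, fun x => ?_⟩
  · have := hg (u ⊗ₜ y) (v ⊗ₜ y)
    rw [h2, h2] at this
    simp only [map_add, LinearMap.add_apply, h.pure, hw0, h.hW.one_symm hy, hy] at this
    linear_combination this
  · have := e (x - cW U (β w) x ⊗ₜ y) (by simp [hy])
    rw [map_sub, h2] at this
    rw [Dm_apply, sub_eq_iff_eq_add.1 this]; abel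

/-- The maps `γ` with `1 + γ ⊗ A_w` in `M`. -/
def DD {w : W} (hw : β w w = 0) (M : Subgroup ((U ⊗[F] W) ≃ₗ[F] (U ⊗[F] W))) :
    AddSubgroup (U →ₗ[F] U) where
  carrier := {γ | R M (Dm γ (β w) w)}
  add_mem' := fun {a b} ha hb => (ha.add hb (AA _ _ hw)).congr
    fun x => by simp [Dm_apply, add_tmul]
  zero_mem' := R.zero.congr fun x => by simp [Dm_apply]
  neg_mem' := fun {a} ha => (R.neg ha (AA _ _ hw)).congr fun x => by simp [Dm_apply, neg_tmul]

variable [Finite F]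

theorem DD_smul {w : W} (hw : β w w = 0) {γ : U →ₗ[F] U} (e : γ ∈ DD hw M) {c : F}
    (hc : σ c = c) : c • γ ∈ DD hw M := by
  obtain ⟨μ, rfl⟩ := h.hU.toInv.exists_norm hc
  by_cases h0 : μ • w = 0
  · refine R.zero.congr fun x => ?_
    rw [Dm_apply, LinearMap.smul_apply, smul_tmul, mul_smul, h0]; simp
  obtain ⟨b, hb, e'⟩ := h.hW.SUG_trans_iso h.l3 (right_ne_zero_of_smul h0) h0 hw (by simp [hw])
  refine (h.cjW e hb).congr fun x => ?_
  simp [e', Dm_apply, cW_smul, smul_tmul', smul_smul, map_smulₛₗ, mul_comm]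

theorem le_of_ut {n : U} {w : W} (hn : p n n = 0) (hn0 : n ≠ 0) (hw : β w w = 0) (hw0 : w ≠ 0)
    (e : UT h.hB (M.subgroupOf (UG B)) (n ⊗ₜ w)) : SUG B ≤ M.subgroupOf (UG B) := by
  set M' := M.subgroupOf (UG B)
  have hB := h.hB
  let ιW : UG β → UG B := fun b => ⟨TensorProduct.congr 1 b.1,
    h.congr_mem (μ := 1) (by simp) (by simp)⟩
  have mW : ∀ {b : UG β}, b ∈ SUG β → ιW b ∈ M' := fun hb => h.memW hb
  have aW : ∀ b u v, (ιW b).1 (u ⊗ₜ v) = u ⊗ₜ b.1 v := fun _ _ _ => rfl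
  have all : ∀ m v, p m m = 0 → β v v = 0 → UT hB M' (m ⊗ₜ v) := fun m v hm hv => by
    by_cases h1 : v = 0
    · simpa [h1] using e.smul 0
    obtain ⟨b, hb, eb⟩ := h.hW.SUG_trans_iso h.l3 hw0 h1 hw hv
    have e1 : UT hB M' (n ⊗ₜ v) := by simpa [aW, eb] using e.map (mW hb)
    by_cases h0 : m = 0
    · simpa [h0] using e.smul 0
    obtain ⟨a, ha⟩ := h.hU.witt_one hn0 h0 (hn.trans hm.symm)
    have := h.ntU
    obtain ⟨a', ha', e2⟩ := h.hU.exists_SUG_map (F ∙ n) a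
    obtain ⟨c, hc⟩ : ∃ c : F, c • a'.1 n = m := by
      rw [← Submodule.mem_span_singleton, ← ha]
      simpa [Submodule.map_span] using e2.ge (Submodule.mem_map_of_mem
        (Submodule.mem_span_singleton_self n))
    simpa [← hc, smul_tmul'] using
      (e1.map (g := ⟨_, h.hM _ (h.memU ha')⟩) (h.memU ha')).smul c
  obtain ⟨s, hs0, hs⟩ := h.hU.toInv.exists_skew
  have hs' : σ s = -s := eq_neg_of_add_eq_zero_right hs
  have a1 : ∀ n w w₁, p n n = 0 → β w w = 0 → β w₁ w₁ = 0 → β w w₁ = 1 →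
      n ⊗ₜ w₁ ∈ UA hB M' (n ⊗ₜ w) := fun n w w₁ hn hw hw₁ e => by
    have t1 := (all n (s⁻¹ • w₁) hn (by simp [hw₁])).2 (-s)
    have t2 := (all n (s⁻¹ • w₁ - w) hn (by
      simp [hw, hw₁, e, h.hW.one_symm e, hs', inv_neg])).2 s
    refine ⟨by simp [h.pure, hn], -s, by simp [h.pure, hn, hs'], ?_⟩
    convert M'.mul_mem t1 t2 using 1
    refine UG.ext fun x => ?_
    rw [UG.mul_apply, hB.eich_apply (by simp [h.pure, hn]) (by simp [h.pure, hn])
      (by simp [h.pure, hn, hs']), hB.tv_apply (by simp [h.pure, hn]) (by simp [hs']),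
      hB.tv_apply (by simp [h.pure, hn, tmul_sub]) hs]
    simp only [tmul_sub, tmul_smul, map_add, map_sub, map_smul, b_smul_left, LinearMap.sub_apply,
      h.pure, hn, hs', map_inv₀, smul_eq_mul]
    match_scalars <;> field_simp <;> ring
  have a2 : ∀ n w v, p n n = 0 → β w w = 0 → w ≠ 0 → β w v = 0 →
      n ⊗ₜ v ∈ UA hB M' (n ⊗ₜ w) := fun n w v hn hw hw0 e => by
    obtain ⟨f, hf, hf0⟩ := h.hW.exists_hyp hw0 hw
    obtain ⟨a, ha⟩ := h.hW.exists_iso_sub hw (x := f + v) (by simp [hf, e])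
    have := add_mem (sub_mem (a1 n w _ hn hw ha (by simp [hf, e, hw])) (a1 n w f hn hw hf0 hf))
      (UA.self (u := n ⊗ₜ w) (by simp [h.pure, hn]) a)
    convert this using 1
    simp only [tmul_sub, tmul_add, tmul_smul]; abel
  have mv : ∀ {x y : U ⊗[F] W} {g : UG B}, g ∈ M' → g.1 x = x → y ∈ UA hB M' x →
      g.1 y - y ∈ UA hB M' x := fun hg e hy => sub_mem (UA.map_fix hy hg e) hy
  have a3 : ∀ n w u v, p n n = 0 → n ≠ 0 → β w w = 0 → w ≠ 0 → β w v = 0 →
      u ⊗ₜ v ∈ UA hB M' (n ⊗ₜ w) := fun n w u v hn hn0 hw hw0 e => by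
    obtain ⟨f, hf, hf0⟩ := h.hW.exists_hyp hw0 hw
    have b1 : ∀ m v, p m m = 0 → p m n ≠ 0 → β w v = 0 → β f v = 0 →
        m ⊗ₜ v ∈ UA hB M' (n ⊗ₜ w) := fun m v hm hmn e1 e2 => by
      have := mv ((all m w hm hw).eich_mem (a2 m w (-(p m n)⁻¹ • v) hm hw hw0 (by simp [e1])) 0)
        (hB.eich_apply_of_orth _ (by simp [h.pure, hw]) (by simp [h.pure, h.hW.zero_symm e1]))
        (a1 n w f hn hw hf0 hf)
      rw [hB.eich_apply (by simp [h.pure, hm]) (by simp [h.pure, hm]) (by simp [h.pure, hm])]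
        at this
      simpa [h.pure, hf, h.hW.zero_symm e2, hmn, tmul_neg, smul_smul] using this
    obtain ⟨z, z1, z2, z3⟩ := exists_perp_norm h.hW h.l3 hw hf0 (by simp [hf]) (map_one σ)
    have b2 : ∀ m v, p m m = 0 → p m n ≠ 0 → β w v = 0 →
        m ⊗ₜ v ∈ UA hB M' (n ⊗ₜ w) := fun m v hm hmn e1 => by
      obtain ⟨l, hl⟩ := h.hU.toInv.exists_trace (h.hW.fix z)
      have := add_mem (mv (mW (h.hW.eichGroup_le (h.hW.eich_mem w z l)))
        (by rw [aW, h.hW.eich_apply_left]) (b1 m (β f v • z) hm hmn (by simp [z1]) (by simp [z2])))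
        (b1 m (v - β f v • w) hm hmn (by simp [e1, hw]) (by simp [h.hW.one_symm hf]))
      rw [aW, h.hW.eich_apply hw z1 hl] at this
      simpa [z1, z3, tmul_add, tmul_sub] using this
    refine iso_ind h.hU h.k2 (P := fun u => u ⊗ₜ v ∈ UA hB M' (n ⊗ₜ w)) (fun m hm => ?_)
      (fun x y hx hy => by rw [add_tmul]; exact add_mem hx hy) u
    by_cases hmn : p m n = 0
    · obtain ⟨n₁, e1, e2⟩ := h.hU.exists_hyp hn0 hn
      obtain ⟨a, ha⟩ := h.hU.exists_iso_sub hn (x := n₁ + m) (by simp [e1, h.hU.zero_symm hmn])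
      have := add_mem (sub_mem (b2 _ v ha (by simp [hn, hmn, h.hU.one_symm e1]) e)
        (b2 n₁ v e2 (by simp [h.hU.one_symm e1]) e)) (a2 n w (a • v) hn hw hw0 (by simp [e]))
      convert this using 1
      simp only [sub_tmul, add_tmul, smul_tmul]; abel
    · exact b2 m v hm hmn e
  have up : ∀ n w, p n n = 0 → n ≠ 0 → β w w = 0 → w ≠ 0 → UP hB M' (n ⊗ₜ w) :=
    fun n w hn hn0 hw hw0 => ⟨by simp [h.pure, hn], fun x hx => by
    obtain ⟨f, hf, hf0⟩ := h.hW.exists_hyp hw0 hw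
    have hf' : f ≠ 0 := by rintro rfl; simp at hf
    obtain ⟨n₁, e1, e2⟩ := h.hU.exists_hyp hn0 hn
    obtain ⟨z, z1, z2, z3⟩ := exists_perp_norm h.hW h.l3 hw hf0 (by simp [hf]) (map_one σ)
    have c1 : ∀ c : F, c • n ⊗ₜ f ∈ UA hB M' (n ⊗ₜ w) := fun c => by
      obtain ⟨-, l, hl, hm⟩ := a3 n f n₁ z hn hn0 hf0 hf' z2
      have := mv hm (hB.eich_apply_of_orth _ (by simp [h.pure, hn])
        (by simp [h.pure, h.hW.zero_symm z1])) (a2 n w (c • z) hn hw hw0 (by simp [z1]))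
      rw [hB.eich_apply (by simp [h.pure, hn]) (by simp [h.pure, z2]) hl] at this
      simpa [h.pure, hn, z3, h.hU.one_symm e1] using this
    have c2 : ∀ m, p n m = 0 → m ⊗ₜ f ∈ UA hB M' (n ⊗ₜ w) := fun m hm => by
      obtain ⟨-, l, hl, hm'⟩ := a3 n f m f hn hn0 hf0 hf' hf0
      have := mv hm' (hB.eich_apply_of_orth _ (by simp [h.pure, hn])
        (by simp [h.pure, h.hU.zero_symm hm])) (a3 n w n₁ w hn hn0 hw hw0 hw)
      rw [hB.eich_apply (by simp [h.pure, hn]) (by simp [h.pure, hm]) hl] at this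
      convert sub_mem (c1 (B (m ⊗ₜ f) (n₁ ⊗ₜ w) - l * B (n ⊗ₜ f) (n₁ ⊗ₜ w))) this using 1
      simp only [h.pure n n₁, e1, h.hW.one_symm hf, mul_one, one_smul]; abel
    have c3 : ∀ x, x - cW U (β w) x ⊗ₜ f ∈ UA hB M' (n ⊗ₜ w) := fun x => by
      induction x with
      | zero => simp
      | tmul u v =>
        simpa [tmul_sub, smul_tmul'] using a3 n w u (v - β w v • f) hn hn0 hw hw0 (by simp [hf])
      | add x y hx hy => simpa [add_tmul, add_sub_add_comm] using add_mem hx hy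
    convert add_mem (c3 x) (c2 _ (by rwa [← h.left])) using 1
    abel⟩
  obtain ⟨f, hf, hf0⟩ := h.hW.exists_hyp hw0 hw
  obtain ⟨n₁, e1, e2⟩ := h.hU.exists_hyp hn0 hn
  refine un_le_of_pair ?_ (up n w hn hn0 hw hw0) (up n₁ f e2 (by rintro rfl; simp at e1)
    hf0 (by rintro rfl; simp at hf)) (by simp [h.pure, e1, hf])
  rw [finrank_tensorProduct]
  have := h.k2; have := h.l3; nlinarith

/-- The elements of `M` centralising `(U ⊗ w)^⊥` are the standard ones. -/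
def Std (β : W →ₛₗ[σ] W →ₗ[F] F) (M : Subgroup ((U ⊗[F] W) ≃ₗ[F] (U ⊗[F] W))) : Prop :=
  ∀ w ≠ 0, β w w = 0 → ∀ g ∈ M, (∀ x, cW U (β w) x = 0 → g x = x) →
    ∃ c : F, ∀ x, g x = x + c • Dm LinearMap.id (β w) w x

theorem le_of_not_std (hq : finrank F U = 2 → ∃ b, σ b = b ∧ b ≠ 0 ∧ b ≠ 1) (hS : ¬ Std β M) :
    SUG B ≤ M.subgroupOf (UG B) := by
  simp only [Std, not_forall, not_exists] at hS
  obtain ⟨w, hw, hw0, g, hg, e, hS⟩ := hS
  obtain ⟨γ, hs, hγ⟩ := h.zform hw hw0 (h.hM g hg) e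
  obtain ⟨n, hn, hn'⟩ : ∃ n, p n n = 0 ∧ p n (γ n) ≠ 0 := by
    by_contra hc
    push Not at hc
    obtain ⟨c, hc⟩ := scalar_of_iso h.hU h.k2 hc
    obtain ⟨x, hx⟩ := hS c
    exact hx (by simp [hγ, hc, Dm_apply, smul_tmul'])
  have h0 : γ ∈ DD hw0 M := ⟨g, hg, hγ⟩
  have he : σ (p n (γ n)) = -p n (γ n) := by rw [h.hU.symm, hs]
  let P : U → U → U →ₗ[F] U := fun a b => (p a).smulRight b
  have k1 : ∀ d, σ d = -d →
      -d • (P (γ n) n + P n (γ n)) - (d * d * p n (γ n)) • P n n ∈ DD hw0 M := fun d hd => by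
    have hd' : d + σ d = 0 := by simp [hd]
    convert sub_mem (show _ ∈ DD hw0 M from h.cjU h0 (h.hU.tv_mem_SUG hn d)) h0 using 1
    ext x
    have : (h.hU.qr n d).1.symm x = x - (d * p n x) • n := by
      rw [LinearEquiv.symm_apply_eq, h.hU.tv_apply hn hd']; simp [hn]
    simp only [P, LinearMap.sub_apply, LinearMap.smul_apply, LinearMap.add_apply,
      LinearMap.smulRight_apply, cjm_apply, this, h.hU.tv_apply hn hd', map_sub, map_smul, hs n x,
      smul_eq_mul]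
    module
  obtain ⟨s, hs0, hs1⟩ := h.hU.toInv.exists_skew
  have hs' : σ s = -s := eq_neg_of_add_eq_zero_right hs1
  obtain ⟨c, hc0, hc, k2⟩ : ∃ c, c ≠ 0 ∧ σ c = -c ∧ c • P n n ∈ DD hw0 M := by
    by_cases hk : finrank F U = 2
    · obtain ⟨b, hb, hb0, hb1⟩ := hq hk
      refine ⟨(b - b * b) * (s * s * p n (γ n)), by
        simp [hs0, hn', sub_eq_zero, hb0, hb1], by simp [hb, hs', he], ?_⟩
      convert sub_mem (k1 (b * s) (by simp [hb, hs'])) (h.DD_smul hw0 (k1 s hs') hb) using 1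
      module
    have hk3 : 3 ≤ finrank F U := by have := h.k2; omega
    obtain ⟨a, ha⟩ := h.hU.exists_iso_sub hn hn'
    obtain ⟨z, z1, z2, z3⟩ := exists_perp_norm h.hU hk3 hn ha (by simpa [hn]) (map_one σ)
    have z4 : p (γ n) z = 0 := by simpa [z1] using z2
    have k3 : ∀ v l, p n v = 0 → p (γ n) v = 0 → l + σ l = p v v →
        (s * p n (γ n)) • ((l - σ l) • P n n - P v n + P n v) ∈ DD hw0 M := fun v l v1 v2 hl => by
      convert sub_mem (show _ ∈ DD hw0 M from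
        h.cjU (k1 s hs') (h.hU.eichGroup_le (h.hU.eich_mem n v l))) (k1 s hs') using 1
      ext x
      obtain ⟨x, rfl⟩ := (h.hU.eich n v l).1.surjective x
      have e1 : ∀ y, p y x = p ((h.hU.eich n v l).1 y) ((h.hU.eich n v l).1 x) := fun y => by simp
      simp only [P, LinearMap.sub_apply, LinearMap.smul_apply, LinearMap.add_apply,
        LinearMap.smulRight_apply, cjm_apply, LinearEquiv.symm_apply_apply, map_sub, map_smul,
        map_add, e1 n, e1 (γ n), h.hU.eich_apply_left, h.hU.eich_apply hn v1 hl (γ n),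
        h.hU.zero_symm v2, b_smul_left, map_mul, he, map_zero]
      module
    obtain ⟨t, ht⟩ := h.hU.ne
    obtain ⟨l, hl⟩ := h.hU.toInv.exists_trace (h.hU.fix z)
    obtain ⟨l', hl'⟩ := h.hU.toInv.exists_trace (h.hU.fix (t • z))
    refine ⟨s * p n (γ n) * (t - σ t), by simp [hs0, hn', sub_eq_zero, ht.symm],
      by simp [hs', he, h.hU.invol]; ring, ?_⟩
    convert sub_mem (sub_mem (k3 _ _ (by simp [z1]) (by simp [z4]) (h.hU.trace_add hl hl'))
      (k3 z l z1 z4 hl)) (k3 _ l' (by simp [z1]) (by simp [z4]) hl') using 1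
    ext x
    simp only [P, LinearMap.sub_apply, LinearMap.smul_apply, LinearMap.add_apply,
      LinearMap.smulRight_apply, map_add, map_smul, z3, b_smul_left, smul_eq_mul, mul_one]
    module
  refine h.le_of_ut hn (ne_zero_of_b hn') hw0 hw ⟨by simp [h.pure, hn], fun d => ?_⟩
  by_cases hd : d + σ d = 0
  swap
  · rw [h.hB.qr_of_not (by simpa [h.pure, hn] using hd)]; exact one_mem _
  obtain ⟨g, hg, e⟩ := h.DD_smul hw0 k2 (c := d / c) (by
    rw [map_div₀, hc, eq_neg_of_add_eq_zero_right hd, neg_div_neg_eq])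
  rw [Subgroup.mem_subgroupOf, show (h.hB.qr (n ⊗ₜ w) d).1 = g from LinearEquiv.ext fun x => by
    rw [e, h.hB.tv_apply (by simp [h.pure, hn]) hd, h.left]
    simp [P, Dm_apply, smul_smul, hc0, smul_tmul']]
  exact hg

end UU

end Cfsg.Agent.Max2
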