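import Mathlib
import Cfsg.Agent.Max2.UU1

/-!
# `GU(U) ⊗ GU(W)` in `SU(U ⊗ W)`: the stabiliser of `U ⊗ w`
-/

set_option autoImplicit false

namespace Cfsg.Agent.Max2

open Module Cfsg.Agent.Max TensorProduct Cfsg.Agent.Herm

section Heis

variable {F V : Type*} [Field F] [AddCommGroup V] [Module F V] {M : Subgroup (V ≃ₗ[F] V)}
  {σ : F →+* F} {B : V →ₛₗ[σ] V →ₗ[F] F}

/-- Commutators in the unipotent radical of the stabiliser of `X`. -/
theorem heisU (hR : ∀ x y, B x y = 0 → B y x = 0) {X : Submodule F V} {g g' : V ≃ₗ[F] V}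
    (hg : g ∈ M) (hg1 : g ∈ UG B) (hg' : g' ∈ M) (hg1' : g' ∈ UG B) (f : ∀ x ∈ X, g x = x)
    (f' : ∀ x ∈ X, g' x = x) (e : ∀ y, (∀ x ∈ X, B x y = 0) → g y - y ∈ X)
    (e' : ∀ y, (∀ x ∈ X, B x y = 0) → g' y - y ∈ X) :
    ∃ N : V →ₗ[F] V, R M N ∧ (∀ x, N x ∈ X) ∧ (∀ y, (∀ x ∈ X, B x y = 0) → N y = 0) ∧
      ∀ x y, B y (N x) = B (g' y - y) (g x - x) - B (g y - y) (g' x - x) := by
  have o : ∀ {g : V ≃ₗ[F] V}, g ∈ UG B → (∀ x ∈ X, g x = x) → ∀ y, ∀ x ∈ X,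
      B x (g y - y) = 0 := fun hg f y x hx => by
    rw [map_sub, ← hg x y, f x hx, sub_self]
  have k : ∀ {g : V ≃ₗ[F] V}, g ∈ UG B → (∀ x ∈ X, g x = x) →
      (∀ y, (∀ x ∈ X, B x y = 0) → g y - y ∈ X) → ∀ y z, (∀ x ∈ X, B x z = 0) →
      B y (g z - z) = - B (g y - y) z := fun {g} hg f e y z hz => by
    have h1 := hg y z
    have h2 := hR _ _ (o hg f y _ (e z hz))
    simp only [map_sub, LinearMap.sub_apply] at h2 ⊢
    linear_combination h1 - h2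
  let n : V →ₗ[F] V := (g : V →ₗ[F] V) - LinearMap.id
  let n' : V →ₗ[F] V := (g' : V →ₗ[F] V) - LinearMap.id
  have hn : ∀ x, n x = g x - x := fun _ => rfl
  have hn' : ∀ x, n' x = g' x - x := fun _ => rfl
  have h0 : ∀ y, (∀ x ∈ X, B x y = 0) → (n ∘ₗ n' - n' ∘ₗ n) y = 0 := fun y hy => by
    simp only [LinearMap.sub_apply, LinearMap.comp_apply, hn, hn']
    rw [f _ (e' y hy), f' _ (e y hy)]; simp
  refine ⟨n ∘ₗ n' - n' ∘ₗ n, ⟨g * g' * (g' * g)⁻¹, M.mul_mem (M.mul_mem hg hg')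
    (M.inv_mem (M.mul_mem hg' hg)), fun x => ?_⟩,
    fun x => X.sub_mem (e _ (o hg1' f' x)) (e' _ (o hg1 f x)), h0, fun x y => ?_⟩
  · obtain ⟨x, rfl⟩ := (g' * g).surjective x
    have h1 := h0 ((g' * g) x - x) (o ((UG B).mul_mem hg1' hg1)
      (fun x hx => by simp [f x hx, f' x hx]) x)
    rw [map_sub, sub_eq_zero] at h1
    rw [h1]
    simp [hn, hn']; abel
  · rw [LinearMap.sub_apply, map_sub, LinearMap.comp_apply, LinearMap.comp_apply, hn, hn' x,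
      hn' (n x), hn x, k hg1 f e _ _ (o hg1' f' x), k hg1' f' e' _ _ (o hg1 f x)]
    ring

end Heis

variable {F U W : Type*} [Field F] [AddCommGroup U] [Module F U] [AddCommGroup W] [Module F W]
  {σ : F →+* F}

theorem isT_of_left [Nontrivial U] [FiniteDimensional F W] {g : (U ⊗[F] W) ≃ₗ[F] (U ⊗[F] W)}
    {ν : W →ₗ[F] W} (e : ∀ u v, g (u ⊗ₜ v) = u ⊗ₜ ν v) : IsT g := by
  obtain ⟨u, hu⟩ := exists_ne (0 : U)
  exact ⟨1, LinearEquiv.ofInjectiveEndo ν fun v v' e' =>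
    tmul_right_inj (F := F) hu (g.injective (by rw [e, e, e'])), e⟩

theorem left_scalar [FiniteDimensional F U] [FiniteDimensional F W]
    (kl : finrank F U < finrank F W) {t : (U ⊗[F] W) ≃ₗ[F] (U ⊗[F] W)} (ht : IsT t)
    {f : U ⊗[F] W →ₗ[F] U} (e : ∀ x, f x = 0 → t x = x) :
    ∃ ν : W →ₗ[F] W, ∀ u v, t (u ⊗ₜ v) = u ⊗ₜ ν v := by
  obtain ⟨a, b, h⟩ := ht
  obtain ⟨c, hc⟩ : ∃ c : F, (a : U →ₗ[F] U) = c • LinearMap.id := by
    by_contra hn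
    push Not at hn
    obtain ⟨u, hu⟩ := exists_not_eigen hn
    obtain ⟨v, hv, hv0⟩ := Submodule.exists_mem_ne_zero_of_ne_bot
      (LinearMap.ker_ne_bot_of_finrank_lt (f := f ∘ₗ TensorProduct.mk F U W u) kl)
    exact hu (mem_span_of_tmul_eq (by simpa using hv0) ((h u v).symm.trans (e _ hv)))
  exact ⟨c • (b : W →ₗ[F] W), fun u v => by
    rw [h, show a u = c • u from LinearMap.congr_fun hc u, smul_tmul]; rfl⟩

theorem std_of_left' [Nontrivial U] [FiniteDimensional F U] [FiniteDimensional F W] {w y : W}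
    {φ : Dual F W} (hw : w ≠ 0) (hy : φ y = 1) {c : F} (hc : c ≠ 0)
    {g t : (U ⊗[F] W) ≃ₗ[F] (U ⊗[F] W)} (e : ∀ x, t x = x + c • cjm g (Dm LinearMap.id φ w) x)
    {ν : W →ₗ[F] W} (hν : ∀ u v, t (u ⊗ₜ v) = u ⊗ₜ ν v) :
    ∃ w', im (LW F U w) g = LW F U w' := by
  obtain ⟨u₀, hu₀⟩ := exists_ne (0 : U)
  obtain ⟨v, hv⟩ : ∃ v, ν v - v ≠ 0 := by
    by_contra hn
    push Not at hn
    have : t.toLinearMap = LinearMap.id := TensorProduct.ext' fun u v => by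
      simp [hν, sub_eq_zero.1 (hn v)]
    have := LinearMap.congr_fun this (g (u₀ ⊗ₜ y))
    simp [e, Dm_apply, hy, tmul_ne_zero hu₀ hw, hc] at this
  refine ⟨ν v - v, (Submodule.eq_of_le_of_finrank_eq ?_
    (by rw [finrank_im, finrank_LW hw, finrank_LW hv])).symm⟩
  rintro _ ⟨u, rfl⟩
  rw [inW_apply, tmul_sub, ← hν, e, add_sub_cancel_left]
  exact Submodule.smul_mem _ _ (apply_mem_im.2 (Dm_mem _ _ _ _))

namespace UU

variable {p : U →ₛₗ[σ] U →ₗ[F] F} {β : W →ₛₗ[σ] W →ₗ[F] F}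
  {B : U ⊗[F] W →ₛₗ[σ] U ⊗[F] W →ₗ[F] F} {M : Subgroup ((U ⊗[F] W) ≃ₗ[F] (U ⊗[F] W))}
  (h : UU p β B M) [FiniteDimensional F U] [FiniteDimensional F W]
include h

theorem nu {w v : W} (hw : β w w = 0) (hv : β w v = 0) : ∃ g ∈ M, ∃ l : F, ∀ x,
    g x = x + cW U (β v) x ⊗ₜ w - l • cW U (β w) x ⊗ₜ w - cW U (β w) x ⊗ₜ v := by
  obtain ⟨l, hl⟩ := h.hU.toInv.exists_trace (h.hW.fix v)
  refine ⟨_, h.memW (h.hW.eich_mem_SUG w v l), l, fun x => ?_⟩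
  induction x with
  | zero => simp
  | tmul u z =>
    simp only [congr_tmul, h.hW.eich_apply hw hv hl, cW_tmul, tmul_add, tmul_sub, tmul_smul,
      ← smul_tmul', LinearEquiv.coe_one, id]
    module
  | add x y hx hy => simp only [map_add, hx, hy, add_tmul]; module

theorem d1a (hS : Std β M) {w : W} (hw : w ≠ 0) (hw0 : β w w = 0)
    {g : (U ⊗[F] W) ≃ₗ[F] (U ⊗[F] W)} (hg : g ∈ M) (f : ∀ u, g (u ⊗ₜ w) = u ⊗ₜ w)
    (e : ∀ x, cW U (β w) x = 0 → g x - x ∈ LW F U w) :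
    ∃ ν : W →ₗ[F] W, ∀ u v, g (u ⊗ₜ v) = u ⊗ₜ ν v := by
  obtain ⟨y, hy, -⟩ := h.hW.exists_hyp hw hw0
  have hχ := h.hW.one_symm hy
  have hg' := h.hM g hg
  have := h.ntU
  obtain ⟨u₀, hu₀⟩ := exists_ne (0 : U)
  obtain ⟨ψ, hψ⟩ := exists_dual_one (F := F) hu₀
  obtain ⟨v, hv⟩ := h.hW.exists_dual_eq
    (ψ ∘ₗ cW U (β y) ∘ₗ ((g : _ →ₗ[F] _) - LinearMap.id) ∘ₗ TensorProduct.mk F U W u₀)
  have hv0 : β w v = 0 := h.hW.zero_symm (by simp [hv, f])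
  have o : ∀ u x, B (u ⊗ₜ w) (g x) = B (u ⊗ₜ w) x := fun u x => by rw [← hg' _ x, f]
  have e1 : ∀ x, cW U (β w) x = 0 → g x = x + cW U (β v) x ⊗ₜ w := fun x hx => by
    have := eq_zero_of_ker (f := (g : _ →ₗ[F] _) - LinearMap.id - Dm LinearMap.id (β v) w)
      (φ := β w) (fun e => by simp [e] at hy) (fun u z hz => ?_) hx
    · rw [← sub_eq_iff_eq_add']; exact sub_eq_zero.1 this
    let θ := cW U (β y) ∘ₗ ((g : _ →ₗ[F] _) - LinearMap.id) ∘ₗ inW F U z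
    have hθ : ∀ u, g (u ⊗ₜ z) = u ⊗ₜ z + θ u ⊗ₜ w := fun u => by
      rw [← sub_eq_iff_eq_add']; exact (eq_of_mem_LW hχ (e _ (by simp [hz]))).symm
    have k0 : ∀ u u', B (u' ⊗ₜ z) (g (u ⊗ₜ y)) = B (u' ⊗ₜ z) (u ⊗ₜ y) - p (θ u') u :=
      fun u u' => by
      have := hg' (u' ⊗ₜ z) (u ⊗ₜ y)
      rw [hθ, b_add_left, o, h.pure _ _ w, hy] at this
      linear_combination this
    have k : ∀ l : F, ∃ c : F, ∀ u u', c * p u' u = σ l * p (θ u') u - l * p u' (θ u) := fun l => by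
      obtain ⟨q, hq, μ, eq⟩ := h.nu hw0 (v := l • z) (by simp [hz])
      obtain ⟨N, ⟨t, ht, h1⟩, -, h2, h3⟩ := heisU (fun _ _ => h.hB.zero_symm) (X := LW F U w) hg hg'
        hq (h.hM q hq) (by rintro _ ⟨u, rfl⟩; exact f u)
        (by rintro _ ⟨u, rfl⟩; simp [eq, hw0, h.hW.zero_symm hz])
        (fun y hy => e y (h.perpL.1 hy))
        (fun y hy => by rw [eq, h.perpL.1 hy]; simpa using tmul_mem_LW _ _)
      obtain ⟨c, hc⟩ := hS w hw hw0 t ht fun x hx => by rw [h1, h2 x (h.perpL.2 hx), add_zero]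
      refine ⟨c, fun u u' => ?_⟩
      have := h3 (u ⊗ₜ y) (u' ⊗ₜ y)
      rw [add_left_cancel ((h1 _).symm.trans (hc _)), ← h.symm (q _ - _) (g _ - _)] at this
      have e2 : ∀ u, q (u ⊗ₜ y) - u ⊗ₜ y = (β (l • z) y - μ) • u ⊗ₜ w - l • u ⊗ₜ z := fun u => by
        simp only [eq, cW_tmul, hy, one_smul, tmul_smul, ← smul_tmul']; module
      simp only [e2, Dm_apply, cW_tmul, hy, one_smul, LinearMap.id_apply, map_smul, b_sub_left,
        b_smul_left, map_sub (B _), map_sub σ, o, k0, h.pure _ _ y, hχ, smul_eq_mul, map_mul,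
        h.hU.invol, h.hU.symm] at this
      linear_combination this
    obtain ⟨l, hl⟩ := h.hU.ne
    obtain ⟨c₁, k1⟩ := k 1
    obtain ⟨c₂, k2⟩ := k l
    have h1 : ∀ u, θ u = ((c₂ - σ l * c₁) / (σ l - l)) • u := fun u =>
      sub_eq_zero.1 (h.hU.nd' _ fun u' => by
        have := sub_ne_zero.2 hl
        have e1 := k1 u u'
        simp only [map_sub, map_smul, smul_eq_mul, map_one] at e1 ⊢
        field_simp
        linear_combination σ l * e1 - k2 u u')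
    have h2 : β v z = (c₂ - σ l * c₁) / (σ l - l) := by
      rw [hv]; exact (congrArg ψ (h1 u₀)).trans (by simp [hψ])
    simp [Dm_apply, h2, hθ, h1]
  obtain ⟨q, hq, μ, eq⟩ := h.nu hw0 hv0
  obtain ⟨c, hc⟩ := hS w hw hw0 (g * q⁻¹) (M.mul_mem hg (M.inv_mem hq)) fun x hx => by
    have : q.symm x = x - cW U (β v) x ⊗ₜ w := by
      rw [LinearEquiv.symm_apply_eq, eq]
      simp [hx, hw0, h.hW.zero_symm hv0]
    rw [LinearEquiv.mul_apply, LinearEquiv.coe_inv, this, map_sub, e1 x hx, f]; simp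
  refine ⟨LinearMap.id + (β v + (c - μ) • β w).smulRight w - (β w).smulRight v, fun u z => ?_⟩
  have := hc (q (u ⊗ₜ z))
  rw [LinearEquiv.mul_apply, LinearEquiv.coe_inv, LinearEquiv.symm_apply_apply, Dm_apply,
    show cW U (β w) (q (u ⊗ₜ z)) = β w z • u by simp [eq, hw0, hv0], eq] at this
  rw [this]
  simp only [cW_tmul, LinearMap.sub_apply, LinearMap.add_apply, LinearMap.id_apply,
    LinearMap.smulRight_apply, LinearMap.smul_apply, tmul_sub, tmul_add, tmul_smul, ← smul_tmul',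
    smul_eq_mul]
  module

omit [FiniteDimensional F U] [FiniteDimensional F W] in
theorem perp_symm {w : W} {g : (U ⊗[F] W) ≃ₗ[F] (U ⊗[F] W)} (hg : g ∈ UG B)
    (h1 : ∀ x ∈ LW F U w, g x ∈ LW F U w) {x : U ⊗[F] W} (hx : cW U (β w) x = 0) :
    cW U (β w) (g.symm x) = 0 :=
  h.perpL.1 fun y hy => by rw [UG_symm hg]; exact h.perpL.2 hx _ (h1 y hy)

theorem isT_of_fix (hS : Std β M) {w : W} (hw : w ≠ 0) (hw0 : β w w = 0)
    {g : (U ⊗[F] W) ≃ₗ[F] (U ⊗[F] W)} (hg : g ∈ M) (hL : im (LW F U w) g = LW F U w) : IsT g := by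
  have := h.ntU
  have h1 : ∀ x, g x ∈ LW F U w ↔ x ∈ LW F U w := fun x => by
    rw [← apply_mem_im (g := g) (v := x), hL]
  have hg' := h.hM g hg
  have gp : ∀ x, cW U (β w) x = 0 → cW U (β w) (g.symm x) = 0 := fun x =>
    h.perp_symm hg' fun x => (h1 x).2
  have gp' : ∀ x, cW U (β w) x = 0 → cW U (β w) (g x) = 0 := fun x =>
    h.perp_symm ((UG B).inv_mem hg') fun x hx => (h1 _).1 (by simpa using hx)
  obtain ⟨y, hy, hy0⟩ := h.hW.exists_hyp hw hw0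
  have hχ := h.hW.one_symm hy
  obtain ⟨s, hs0, hs⟩ := h.hU.toInv.exists_skew
  obtain ⟨t₀, ht₀, -, et₀⟩ := h.rootT hw0 hs
  obtain ⟨μ, hμ⟩ := hS w hw hw0 _ (M.mul_mem (M.mul_mem hg ht₀) (M.inv_mem hg)) fun x hx => by
    simp [et₀, Dm_apply, gp x hx]
  let a : U →ₗ[F] U := cW U (β y) ∘ₗ g.toLinearMap ∘ₗ inW F U w
  have ha : ∀ u, g (u ⊗ₜ w) = a u ⊗ₜ w := fun u =>
    (eq_of_mem_LW hχ ((h1 _).2 (tmul_mem_LW u w))).symm
  have ha0 : ∀ u, s • a u = μ • cW U (β w) (g (u ⊗ₜ y)) := fun u => tmul_left_inj hw (by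
    simpa [et₀, Dm_apply, hy, ha, smul_tmul'] using hμ (g (u ⊗ₜ y)))
  have ai : Function.Injective a := fun u u' e =>
    tmul_left_inj hw (g.injective (by rw [ha, ha, e]))
  obtain ⟨u₀, hu₀⟩ := h.hU.exists_nonisotropic
  have au : a u₀ ≠ 0 := fun e => ne_zero_of_b hu₀ (ai (by simp [e]))
  have hμ0 : μ ≠ 0 := by
    rintro rfl
    exact au (by simpa [hs0] using ha0 u₀)
  obtain ⟨ρ, hρ0, ha'⟩ : ∃ ρ : F, ρ ≠ 0 ∧ ∀ u, cW U (β w) (g (u ⊗ₜ y)) = ρ • a u :=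
    ⟨μ⁻¹ * s, by simp [hμ0, hs0], fun u => by rw [mul_smul, ha0, inv_smul_smul₀ hμ0]⟩
  have pa : ∀ u v, ρ * p (a u) (a v) = p u v := fun u v => by
    have := hg' (u ⊗ₜ w) (v ⊗ₜ y)
    rw [ha, h.left, h.pure, hy, ha'] at this
    simpa using this
  have hρ : σ ρ = ρ := by
    have e := congrArg σ (pa u₀ u₀)
    rw [map_mul, h.hU.fix, h.hU.fix, ← pa u₀ u₀] at e
    exact mul_right_cancel₀ (fun e' => hu₀ (by rw [← pa, e', mul_zero])) e
  obtain ⟨ψ, hψ⟩ := exists_dual_one (F := F) au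
  let β' := cU W ψ ∘ₗ g.toLinearMap ∘ₗ TensorProduct.mk F U W u₀
  have k : ∀ v, β w v = 0 → ∀ u, g (u ⊗ₜ v) - a u ⊗ₜ β' v ∈ LW F U w := fun v hv => by
    obtain ⟨v', hv'⟩ : ∃ v', ∀ u, g (u ⊗ₜ v) - a u ⊗ₜ v' ∈ LW F U w := by
      obtain ⟨q, hq, l, eq⟩ := h.nu hw0 hv
      have e2 : ∀ x, cW U (β w) x = 0 → (g * q * g⁻¹) x - x ∈ LW F U w := fun x hx => by
        simpa [eq, gp x hx, h1] using tmul_mem_LW _ _
      obtain ⟨ν, hν⟩ := h.d1a hS hw hw0 (M.mul_mem (M.mul_mem hg hq) (M.inv_mem hg)) (fun u => by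
        obtain ⟨u', hu'⟩ := (h1 (g.symm (u ⊗ₜ w))).1 (by simpa using tmul_mem_LW u w)
        have : q (u' ⊗ₜ w) = u' ⊗ₜ w := by simp [eq, hw0, h.hW.zero_symm hv]
        rw [inW_apply] at hu'
        rw [LinearEquiv.mul_apply, LinearEquiv.mul_apply, LinearEquiv.coe_inv, ← hu', this, hu',
          LinearEquiv.apply_symm_apply]) e2
      refine ⟨ρ • (y - ν y), fun u => ?_⟩
      have e3 := e2 (g (u ⊗ₜ y) - ρ • a u ⊗ₜ y) (by simp [ha', hy])
      rw [map_sub, map_smul, hν] at e3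
      simp only [LinearEquiv.mul_apply, LinearEquiv.coe_inv, LinearEquiv.symm_apply_apply, eq,
        cW_tmul, hy, one_smul, map_sub, map_add, map_smul, ha] at e3
      convert sub_mem (sub_mem (tmul_mem_LW (β v y • a u) w)
        ((LW F U w).smul_mem l (tmul_mem_LW (a u) w))) e3 using 1
      simp only [tmul_smul, tmul_sub]; module
    intro u
    obtain ⟨u', e⟩ := hv' u₀
    have : β' v = v' + ψ u' • w := by
      simpa [β', hψ, eq_sub_iff_add_eq', eq_comm] using congrArg (cU W ψ) e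
    rw [this, tmul_add, ← sub_sub, tmul_smul]
    exact sub_mem (hv' u) ((LW F U w).smul_mem _ (tmul_mem_LW _ _))
  let π : W →ₗ[F] W := LinearMap.id - (β w).smulRight y - (β y).smulRight w
  have hπ : ∀ x, π x = x - β w x • y - β y x • w := fun _ => rfl
  have π1 : ∀ x, β w (π x) = 0 := fun x => by simp [hπ, hy, hw0]
  have π2 : ∀ x, β y (π x) = 0 := fun x => by simp [hπ, hχ, hy0]
  have k' : ∀ v u, g (u ⊗ₜ π v) - a u ⊗ₜ π (β' (π v)) ∈ LW F U w := fun v u => by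
    have : β w (β' (π v)) = 0 := by
      simpa [gp' (u₀ ⊗ₜ π v) (by simp [π1]), au] using cW_LW hw0 (k _ (π1 v) u₀)
    rw [hπ (β' _), this, zero_smul, sub_zero, tmul_sub, tmul_smul, ← sub_add]
    exact add_mem (k _ (π1 v) u) ((LW F U w).smul_mem _ (tmul_mem_LW _ _))
  let b : W →ₗ[F] W := (β y).smulRight w + ρ • (β w).smulRight y + π ∘ₗ β' ∘ₗ π
  have hb : ∀ x, b x = β y x • w + (ρ * β w x) • y + π (β' (π x)) := fun x => by
    simp [b, smul_smul]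
  have pb : ∀ x x', β (b x) (b x') = ρ * β x x' := fun x x' => by
    have e1 := hg' (u₀ ⊗ₜ π x) (u₀ ⊗ₜ π x')
    have e2 := h.perpL.2 (gp' (u₀ ⊗ₜ π x') (by simp [π1])) _ (k' x u₀)
    have e3 := h.hB.zero_symm ((h.perpL (x := a u₀ ⊗ₜ π (β' (π x)))).2 (by simp [π1]) _
      (k' x' u₀))
    rw [b_sub_left, e1] at e2
    rw [map_sub] at e3
    have e4 : β (π (β' (π x))) (π (β' (π x'))) = ρ * β (π x) (π x') := by
      refine mul_left_cancel₀ hu₀ ?_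
      rw [h.pure] at e2 e3
      linear_combination (-β (π (β' (π x))) (π (β' (π x')))) * pa u₀ u₀ - ρ * e2 - ρ * e3
    have e5 : β (π x) (π x') = β x x' - β x w * β y x' - β x y * β w x' := by
      rw [hπ x, b_sub_left, b_sub_left, b_smul_left, b_smul_left, π1, π2, hπ]
      simp only [map_sub, map_smul, smul_eq_mul]; ring
    simp only [hb, map_add, LinearMap.add_apply, b_smul_left, map_smul, smul_eq_mul, π1, π2,
      h.hW.zero_symm (π1 _), h.hW.zero_symm (π2 _), hw0, hy0, hy, hχ, map_mul, hρ, h.hW.symm, e4,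
      e5]
    ring
  have bi : Function.Injective b := (injective_iff_map_eq_zero _).2 fun x hx =>
    h.hW.nd x fun z => by simpa [hx, hρ0] using (pb x z).symm
  have hk := h.congr_mem (a := LinearEquiv.ofInjectiveEndo a ai)
    (b := LinearEquiv.ofInjectiveEndo b bi) pa pb
  have hkT := isT_congr (LinearEquiv.ofInjectiveEndo a ai) (LinearEquiv.ofInjectiveEndo b bi)
  have ek : ∀ u v, TensorProduct.congr (LinearEquiv.ofInjectiveEndo a ai)
    (LinearEquiv.ofInjectiveEndo b bi) (u ⊗ₜ v) = a u ⊗ₜ b v := fun _ _ => rfl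
  generalize TensorProduct.congr (LinearEquiv.ofInjectiveEndo a ai)
    (LinearEquiv.ofInjectiveEndo b bi) = κ at hk hkT ek
  have bw : b w = w := by simp [hb, hχ, hw0, hπ]
  have f : ∀ u, (κ⁻¹ * g) (u ⊗ₜ w) = u ⊗ₜ w := fun u => by
    rw [LinearEquiv.mul_apply, LinearEquiv.coe_inv, LinearEquiv.symm_apply_eq, ha, ek, bw]
  have e : ∀ x, cW U (β w) x = 0 → (κ⁻¹ * g) x - x ∈ LW F U w := fun x hx => by
    rw [← Submodule.Quotient.mk_eq_zero]
    refine eq_zero_of_ker (f := (LW F U w).mkQ ∘ₗ ((κ⁻¹ * g).toLinearMap - LinearMap.id))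
      (φ := β w) (fun e => by simp [e] at hy) (fun u z hz => ?_) hx
    refine (Submodule.Quotient.mk_eq_zero _).2 ?_
    obtain ⟨u', e⟩ : g (u ⊗ₜ z) - κ (u ⊗ₜ z) ∈ LW F U w := by
      convert k' z u using 1
      rw [ek, hb, show u ⊗ₜ π z = u ⊗ₜ[F] z - β y z • u ⊗ₜ w by simp [hπ, hz, tmul_sub], map_sub g,
        map_smul, ha, hz]
      simp only [tmul_add, tmul_smul]; module
    obtain ⟨u', rfl⟩ := LinearMap.injective_iff_surjective.1 ai u'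
    refine ⟨u', κ.injective ?_⟩
    simpa [ek, bw] using e
  have hg₁ := (UG B).mul_mem ((UG B).inv_mem hk) hg'
  have d : LinearEquiv.det (κ⁻¹ * g) = 1 := by
    refine det_eq_one_of_nilpotent (N := (κ⁻¹ * g).toLinearMap - LinearMap.id)
      ⟨3, LinearMap.ext fun x => ?_⟩ (by simp)
    obtain ⟨u, hu⟩ := e ((κ⁻¹ * g) x - x) (h.perpL.1 (by
      rintro _ ⟨u, rfl⟩; rw [inW_apply, map_sub, ← hg₁ _ x, f, sub_self]))
    have := f u
    rw [← inW_apply (F := F), hu] at this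
    simpa [pow_succ, sub_eq_zero] using this
  have hκ := h.hH κ hk (by simpa [h.hD g hg] using d) hkT
  obtain ⟨ν, hν⟩ := h.d1a hS hw hw0 (M.mul_mem (M.inv_mem hκ) hg) f e
  exact ((tSub F U W).mul_mem_cancel_left ((tSub F U W).inv_mem hkT)).1 (isT_of_left hν)

omit [FiniteDimensional F U] [FiniteDimensional F W] in
theorem iso_of_im {w w' : W} (hw : w ≠ 0) (hw0 : β w w = 0) {g : (U ⊗[F] W) ≃ₗ[F] (U ⊗[F] W)}
    (hg : g ∈ M) (hL : im (LW F U w) g = LW F U w') : w' ≠ 0 ∧ β w' w' = 0 := by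
  have := h.ntU
  obtain ⟨u, hu⟩ := h.hU.exists_nonisotropic
  refine ⟨?_, ?_⟩
  · rintro rfl
    obtain ⟨u', e⟩ : g (u ⊗ₜ w) ∈ LW F U (0 : W) := hL ▸ apply_mem_im.2 (tmul_mem_LW u w)
    exact tmul_ne_zero (ne_zero_of_b hu) hw (by simpa using e.symm)
  · obtain ⟨_, ⟨u', rfl⟩, e⟩ : u ⊗ₜ w' ∈ im (LW F U w) g := hL ▸ tmul_mem_LW u w'
    have := h.hM g hg (u' ⊗ₜ w) (u' ⊗ₜ w)
    rw [show g (u' ⊗ₜ w) = u ⊗ₜ w' from e] at this
    simpa [h.pure, hw0, hu] using this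

theorem isT_of_stab (hS : Std β M) {w w' : W} (hw : w ≠ 0) (hw0 : β w w = 0)
    {g : (U ⊗[F] W) ≃ₗ[F] (U ⊗[F] W)} (hg : g ∈ M) (hL : im (LW F U w) g = LW F U w') :
    IsT g := by
  obtain ⟨hw', hw0'⟩ := h.iso_of_im hw hw0 hg hL
  obtain ⟨b, hb, e⟩ := h.hW.SUG_trans_iso h.l3 hw' hw hw0' hw0
  refine ((tSub F U W).mul_mem_cancel_left (isT_congr 1 b.1)).1
    (h.isT_of_fix hS hw hw0 (M.mul_mem (h.memW hb) hg) ?_)
  rw [im_mul, hL]
  refine le_antisymm ?_ ?_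
  · rintro _ ⟨_, ⟨u, rfl⟩, rfl⟩; exact ⟨u, by simp [e]⟩
  · rintro _ ⟨u, rfl⟩; exact ⟨_, tmul_mem_LW u w', by simp [e]⟩

theorem ulem {w : W} (hw : w ≠ 0) (hw0 : β w w = 0) {c : F} (hc : c ≠ 0)
    {m t : (U ⊗[F] W) ≃ₗ[F] (U ⊗[F] W)} (ht : IsT t)
    (e : ∀ x, t x = x + c • cjm m (Dm LinearMap.id (β w) w) x) :
    ∃ w', im (LW F U w) m = LW F U w' := by
  have := h.ntU
  obtain ⟨y, hy, -⟩ := h.hW.exists_hyp hw hw0
  obtain ⟨ν, hν⟩ := left_scalar h.kl ht (f := cW U (β w) ∘ₗ m.symm.toLinearMap) fun x hx => by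
    rw [e, cjm_apply, Dm_apply, show cW U (β w) (m.symm x) = 0 from hx]; simp
  exact std_of_left' hw hy hc e hν

theorem norm_T (hS : Std β M) {w : W} (hw : w ≠ 0) (hw0 : β w w = 0) {c : F} (hc : c ≠ 0)
    {g s : (U ⊗[F] W) ≃ₗ[F] (U ⊗[F] W)} (hg : g ∈ M)
    (e : ∀ x, s x = x + c • Dm LinearMap.id (β w) w x) (ht : IsT (g * s * g⁻¹)) : IsT g := by
  obtain ⟨w', e'⟩ := h.ulem hw hw0 hc (m := g) ht fun x => by simp [e]
  exact h.isT_of_stab hS hw hw0 hg e'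

end UU

end Cfsg.Agent.Max2
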