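import Mathlib
import Cfsg.Agent.Max2.UU2

/-!
# Maximality of `GU(U) ⊗ GU(W)` in `SU(U ⊗ W)`
-/

set_option autoImplicit false

namespace Cfsg.Agent.Max2

open Module Cfsg.Agent.Max TensorProduct Cfsg.Agent.Herm

section Dih

variable {G : Type*} [Group G]

theorem dih [Finite G] {s t : G} (hs : s * s = 1) (ht : t * t = 1) : ∃ i a : ℕ,
    (s * ((t * s) ^ i * t * ((t * s) ^ i)⁻¹)) ^ 2 ^ a = 1 ∧
      t * (s * ((t * s) ^ i * t * ((t * s) ^ i)⁻¹)) * t⁻¹ =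
        (s * ((t * s) ^ i * t * ((t * s) ^ i)⁻¹))⁻¹ := by
  obtain ⟨a, _, ⟨i, rfl⟩, e⟩ := Nat.exists_eq_two_pow_mul_odd (orderOf_pos (s * t)).ne'
  have s1 := inv_eq_of_mul_eq_one_right hs
  have t1 := inv_eq_of_mul_eq_one_right ht
  have k : s * ((t * s) ^ i * t * ((t * s) ^ i)⁻¹) = (s * t) ^ (2 * i + 1) := by
    rw [← inv_pow, mul_inv_rev, s1, t1, ← mul_assoc, ← mul_assoc,
      show s * (t * s) ^ i = (s * t) ^ i * s from
        (SemiconjBy.pow_right (mul_assoc s t s).symm i).eq, mul_assoc _ s, ← pow_succ, ← pow_add]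
    congr 1; ring
  refine ⟨i, a, by rw [k, ← pow_mul, mul_comm, ← e, pow_orderOf_eq_one], ?_⟩
  rw [k, ← conj_pow, ← inv_pow, mul_inv_rev, s1, t1, mul_assoc, mul_assoc, ht, mul_one]

theorem mem_of_invol {M H : Subgroup G} {s : G} (hs : s * s = 1) (hsM : s ∈ M) (hsH : s ∈ H)
    (h : ∀ g ∈ M, g * s * g⁻¹ ∈ H → g ∈ H) (a : ℕ) :
    ∀ t ∈ M, t * t = 1 → (s * t) ^ 2 ^ a = 1 → t ∈ H := by
  induction a with
  | zero =>
    intro t _ _ e
    rw [← inv_eq_of_mul_eq_one_right (show s * t = 1 by simpa using e)]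
    exact H.inv_mem hsH
  | succ a ih =>
    intro t ht h1 e
    refine h t ht (ih _ (M.mul_mem (M.mul_mem ht hsM) (M.inv_mem ht)) ?_ ?_)
    · rw [conj_mul, hs]; simp
    · rw [← e, inv_eq_of_mul_eq_one_right h1, pow_succ' 2, pow_mul, sq]; simp only [mul_assoc]

variable {F V : Type*} [Field F] [AddCommGroup V] [Module F V]

theorem exists_fixed_two (h2 : (2 : F) = 0) {Y : Submodule F V} {y : V} (hy : y ∈ Y) (h0 : y ≠ 0)
    (a : ℕ) : ∀ g : V ≃ₗ[F] V, g ^ 2 ^ a = 1 → (∀ y ∈ Y, g y ∈ Y) → ∃ z ∈ Y, z ≠ 0 ∧ g z = z := by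
  induction a with
  | zero => exact fun g e _ => ⟨y, hy, h0, by rw [show g = 1 by simpa using e]; rfl⟩
  | succ a ih =>
    intro g e hg
    obtain ⟨z, hz, hz0, e'⟩ := ih (g * g) (by rw [← e, pow_succ' 2, pow_mul, sq])
      fun y hy => hg _ (hg y hy)
    by_cases h : g z = z
    · exact ⟨z, hz, hz0, h⟩
    refine ⟨g z - z, sub_mem (hg z hz) hz, sub_ne_zero.2 h, ?_⟩
    rw [map_sub, show g (g z) = z from e', ← sub_eq_zero,
      show z - g z - (g z - z) = (2 : F) • (z - g z) by module, h2, zero_smul]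

theorem le_sup_of_disj [FiniteDimensional F V] {A X X' : Submodule F V} (h : X' ≤ A ⊔ X)
    (h0 : A ⊓ X' = ⊥) (e : finrank F X' = finrank F X) : X ≤ A ⊔ X' := by
  have h1 := Submodule.finrank_sup_add_finrank_inf_eq A X'
  have h2 := Submodule.finrank_sup_add_finrank_inf_eq A X
  rw [h0, finrank_bot] at h1
  rw [Submodule.eq_of_le_of_finrank_le (sup_le le_sup_left h) (by omega)]
  exact le_sup_right

theorem pow_sub_mem {Z : Submodule F V} {g : V ≃ₗ[F] V} (h : ∀ x, g x - x ∈ Z) (i : ℕ) (x : V) :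
    (g ^ i) x - x ∈ Z := by
  induction i with
  | zero => simp
  | succ i ih => simpa [pow_succ'] using add_mem (h ((g ^ i) x)) ih

theorem pow_fix {g : V ≃ₗ[F] V} {x : V} (h : g x = x) (i : ℕ) : (g ^ i) x = x := by
  induction i with
  | zero => simp
  | succ i ih => simp [pow_succ', ih, h]

theorem im_le_of_sub {Z X : Submodule F V} {g : V ≃ₗ[F] V} (h : ∀ x, g x - x ∈ Z) (e : X ≤ Z) :
    im X g ≤ Z := by
  rintro _ ⟨x, hx, rfl⟩
  simpa using add_mem (h x) (e hx)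

end Dih

variable {F U W : Type*} [Field F] [AddCommGroup U] [Module F U] [AddCommGroup W] [Module F W]
  {σ : F →+* F}

namespace UU

variable {p : U →ₛₗ[σ] U →ₗ[F] F} {β : W →ₛₗ[σ] W →ₗ[F] F}
  {B : U ⊗[F] W →ₛₗ[σ] U ⊗[F] W →ₗ[F] F} {M : Subgroup ((U ⊗[F] W) ≃ₗ[F] (U ⊗[F] W))}
  (h : UU p β B M) [FiniteDimensional F U] [FiniteDimensional F W] [Finite F]
include h

theorem odd_case (h2 : (2 : F) ≠ 0) (hS : Std β M) {m : (U ⊗[F] W) ≃ₗ[F] (U ⊗[F] W)}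
    (hm : m ∈ M) : IsT m := by
  have := h.ntU
  have hl := h.l3
  obtain ⟨w₀, hw₀, iw₀⟩ := h.hW.exists_isotropic (by omega)
  obtain ⟨u₀, hu₀⟩ := exists_ne (0 : U)
  by_contra hn
  have ns : ∀ w', im (LW F U w₀) m ≠ LW F U w' := fun w' e => hn (h.isT_of_stab hS hw₀ iw₀ hm e)
  set X := im (LW F U w₀) m with hX
  have hXk : finrank F X = finrank F U := by rw [hX, finrank_im, finrank_LW hw₀]
  obtain ⟨ψ₀, hψ₀⟩ : ∃ ψ, cU W ψ (m (u₀ ⊗ₜ w₀)) ≠ 0 := by
    by_contra e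
    push Not at e
    exact tmul_ne_zero hu₀ hw₀ (m.map_eq_zero_iff.1 (eq_zero_of_cU e))
  obtain ⟨x₁, hx₁, ψ₁, hψ₁⟩ : ∃ x ∈ X, ∃ ψ, cU W ψ x ∉ F ∙ cU W ψ₀ (m (u₀ ⊗ₜ w₀)) := by
    by_contra e
    push Not at e
    refine ns _ (Submodule.eq_of_le_of_finrank_eq (fun x hx => mem_LW_of hψ₀ fun φ hφ =>
      eq_zero_of_dual (F := F) fun ψ => ?_) (by rw [hXk, finrank_LW hψ₀]))
    obtain ⟨c, hc⟩ := Submodule.mem_span_singleton.1 (e x hx ψ)
    rw [← dual_cU, ← hc, map_smul, hφ, smul_zero]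
  obtain ⟨w, -, iw, hwy⟩ := NDU.exists_iso h.hW (W := ⊤) (fun w _ e => h.hW.nd' w fun x => e x trivial)
    (by rw [finrank_top]; omega)
    (X := Submodule.span F {cU W ψ₀ (m (u₀ ⊗ₜ w₀)), cU W ψ₁ x₁}) fun e => by
      have := (Submodule.finrank_mono e).trans (Max.finrank_span_pair_le _ _)
      rw [finrank_top] at this; omega
  have hw : w ≠ 0 := by rintro rfl; exact hwy (Submodule.zero_mem _)
  obtain ⟨c, hc0, hc⟩ := h.hU.toInv.exists_skew
  obtain ⟨s, hs, hsT, es⟩ := h.rootT iw hc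
  obtain ⟨t₀, ht₀, -, et₀⟩ := h.rootT iw₀ hc
  have ht := M.mul_mem (M.mul_mem hm ht₀) (M.inv_mem hm)
  have et : ∀ x, (m * t₀ * m⁻¹) x = x + c • cjm m (Dm LinearMap.id (β w₀) w₀) x := fun x => by
    simp [et₀]
  generalize m * t₀ * m⁻¹ = t at ht et
  have hP : Subgroup.closure {s, t} ≤ M := (Subgroup.closure_le _).2 (by
    rintro _ (rfl | rfl); exacts [hs, ht])
  rcases quad_cases h2 (A := c • Dm LinearMap.id (β w) w)
    (A' := c • cjm m (Dm LinearMap.id (β w₀) w₀)) es et (fun x => by simp [AA _ _ iw])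
    (fun x => by simp [AA _ _ iw₀]) with hp | ⟨j, hj, j1, jj, jA, jA'⟩
  · have : Finite (U ⊗[F] W) := Module.finite_of_finite F
    have : Finite ((U ⊗[F] W) ≃ₗ[F] (U ⊗[F] W)) := DFunLike.finite _
    have : Fact (ringChar F).Prime := ⟨CharP.char_is_prime F _⟩
    have := le_of_pgroup (H := tSub F U W) hp (Subgroup.subset_closure (by simp)) hsT
      fun g hg e => h.norm_T hS hw iw hc0 (hP hg) es e
    obtain ⟨w', e⟩ := h.ulem hw₀ iw₀ hc0 (this (Subgroup.subset_closure (by simp))) et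
    exact ns w' e
  simp only [LinearMap.smul_apply, map_smul, (smul_right_injective _ hc0).eq_iff] at jA jA'
  have hj' := h.hM j (hP hj)
  obtain ⟨y, hy, -⟩ := h.hW.exists_hyp hw iw
  obtain ⟨y₀, hy₀, -⟩ := h.hW.exists_hyp hw₀ iw₀
  have mv : ∀ x, j x - x ∈ LW F U w ⊔ X := by
    refine Subgroup.closure_induction (p := fun g _ => ∀ x, g x - x ∈ LW F U w ⊔ X) ?_ (by simp)
      (fun g g' _ _ e e' x => ?_) (fun g _ e x => ?_) hj
    · rintro _ (rfl | rfl) x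
      · rw [es, add_sub_cancel_left]
        exact Submodule.mem_sup_left (Submodule.smul_mem _ _ (Dm_mem _ _ _ _))
      · rw [et, add_sub_cancel_left]
        exact Submodule.mem_sup_right (X.smul_mem _ (apply_mem_im.2 (Dm_mem _ _ _ _)))
    · simpa using Submodule.add_mem _ (e (g' x)) (e' x)
    · simpa using Submodule.neg_mem _ (e (g.symm x))
  have jL : ∀ x ∈ LW F U w, j x ∈ LW F U w := by
    rintro _ ⟨u, rfl⟩
    have := jA (u ⊗ₜ y)
    simp only [Dm_apply (x := u ⊗ₜ y), cW_tmul, hy, one_smul, LinearMap.id_apply] at this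
    rw [inW_apply, this]; exact Dm_mem _ _ _ _
  have jX : ∀ x ∈ X, j x ∈ X := by
    rintro _ ⟨_, ⟨u, rfl⟩, rfl⟩
    have := jA' (m (u ⊗ₜ y₀))
    simp only [LinearMap.comp_apply, LinearEquiv.coe_coe, LinearEquiv.symm_apply_apply,
      Dm_apply (x := u ⊗ₜ y₀), cW_tmul, hy₀, one_smul, LinearMap.id_apply] at this
    rw [inW_apply, LinearEquiv.coe_coe, this]; exact apply_mem_im.2 (Dm_mem _ _ _ _)
  have iso : ∀ x ∈ X, ∀ x' ∈ X, B x x' = 0 := by
    rintro _ ⟨_, ⟨u, rfl⟩, rfl⟩ _ ⟨_, ⟨u', rfl⟩, rfl⟩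
    simp [h.hM m hm _ _, h.pure, iw₀]
  have spl : ∀ z, ∃ x ∈ X, j x = -x ∧ (2 : F) • (z - j z) - x ∈ LW F U w := fun z => by
    obtain ⟨a, ha, b, hb, e⟩ := Submodule.mem_sup.1 (mv z)
    refine ⟨j b - b, X.sub_mem (jX b hb) hb, by simp [jj], ?_⟩
    convert (LW F U w).sub_mem (jL a ha) ha using 1
    rw [eq_sub_of_add_eq e]; simp only [map_sub, jj]; module
  have inL : ∀ z, cW U (β w) z = 0 → z - j z ∈ LW F U w := fun z hz => by
    obtain ⟨x, hx, e1, e2⟩ := spl z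
    have h1 : cW U (β w) (j z) = 0 := by
      have := jA z
      rw [Dm_apply, Dm_apply, hz, map_zero, zero_tmul, map_zero] at this
      exact tmul_left_inj hw (by simpa using this.symm)
    have h3 : cW U (β w) x = 0 := by simpa [hz, h1] using cW_LW iw e2
    have : x = 0 := h.hB.nd' x fun v => mul_left_cancel₀ h2 (by
      obtain ⟨a, ha, b, hb, e⟩ := Submodule.mem_sup.1 (mv v)
      have h5 := congrArg (fun z => B z x) e
      have h4 := hj' v x
      simp only [map_add, map_sub, LinearMap.add_apply, LinearMap.sub_apply, h.perpL.2 h3 a ha,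
        iso b hb x hx, e1, map_neg] at h5 h4
      linear_combination h5 - h4)
    rw [this, sub_zero] at e2
    exact ((LW F U w).smul_mem_iff h2).1 e2
  obtain ⟨b, hb⟩ : ∃ b : W →ₗ[F] W, ∀ u v, j (u ⊗ₜ v) = u ⊗ₜ b v := by
    obtain ⟨a, b, e⟩ := h.isT_of_stab hS hw iw (hP hj) (w' := w) (Submodule.eq_of_le_of_finrank_eq
      (by rintro _ ⟨x, hx, rfl⟩; exact jL x hx) (finrank_im _ _))
    obtain ⟨v, hv, hv'⟩ := exists_ker_not_mem hl (β w) w
    obtain ⟨φ, h1, h2⟩ := exists_dual_two hv'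
    have k : ∀ u, u = φ (b v) • a u := fun u => by
      simpa [e, h2, sub_eq_zero] using cW_LW h1 (inL (u ⊗ₜ v) (by simp [hv]))
    have hc : φ (b v) ≠ 0 := fun e => hu₀ (by simpa [e] using k u₀)
    refine ⟨(φ (b v))⁻¹ • (b : W →ₗ[F] W), fun u v' => ?_⟩
    rw [e]; conv_rhs => rw [k u]
    simp [smul_tmul', smul_smul, hc]
  have bb : ∀ v, b (b v) = v := fun v => tmul_right_inj (F := F) hu₀ (by rw [← hb, ← hb, jj])
  have b1 : ∀ v, β w v = 0 → ∃ c : F, b v = v + c • w := fun v hv => by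
    obtain ⟨u, e⟩ := inL (u₀ ⊗ₜ v) (by simp [hv])
    rw [hb, ← tmul_sub, inW_apply] at e
    obtain ⟨c, hc⟩ := Submodule.mem_span_singleton.1 (mem_span_of_tmul_eq' hu₀ e.symm)
    exact ⟨-c, by rw [neg_smul, hc]; abel⟩
  by_cases hε : β w (b y) = 1
  · have bw : b w = w := tmul_right_inj (F := F) hu₀ (by
      simpa [Dm_apply, hb, hy, hε] using jA (u₀ ⊗ₜ y))
    have b2 : ∀ v, β w v = 0 → b v = v := fun v hv => by
      obtain ⟨c, hc⟩ := b1 v hv
      have := bb v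
      rw [hc, map_add, map_smul, bw, hc, add_assoc, add_eq_left, ← two_smul F, smul_eq_zero] at this
      rw [hc, this.resolve_left h2, add_zero]
    have b3 : b y = y := by
      have := b2 (b y - y) (by simp [hy, hε])
      rw [map_sub, bb] at this
      have h3 : (2 : F) • (b y - y) = 0 := by rw [two_smul]; nth_rw 1 [← this]; abel
      exact sub_eq_zero.1 ((smul_eq_zero.1 h3).resolve_left h2)
    refine j1 (LinearEquiv.toLinearMap_injective (TensorProduct.ext' fun u v => ?_))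
    have := b2 (v - β w v • y) (by simp [hy])
    rw [map_sub, map_smul, b3, sub_left_inj] at this
    simp [hb, this]
  have all : ∀ x ∈ X, j x = -x := by
    have : X ⊓ LinearMap.ker (j.toLinearMap + LinearMap.id) = X := by
      refine Submodule.eq_of_le_of_finrank_le inf_le_left ?_
      rw [hXk]
      refine LinearMap.finrank_le_finrank_of_surjective (f := cW U (β w) ∘ₗ Submodule.subtype _)
        fun u => ?_
      obtain ⟨x, hx, e1, e2⟩ := spl (((2 * (1 - β w (b y)))⁻¹ • u) ⊗ₜ y)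
      refine ⟨⟨x, hx, by simp [e1]⟩, ?_⟩
      have := cW_LW iw e2
      have h3 := sub_ne_zero.2 (Ne.symm hε)
      simp only [hb, map_sub, map_smul, cW_tmul, hy, sub_eq_zero] at this
      simp only [LinearMap.comp_apply, Submodule.subtype_apply, ← this]
      match_scalars; field_simp
    intro x hx
    rw [← this] at hx
    exact eq_neg_of_add_eq_zero_left hx.2
  have cmp : ∀ x ∈ X, ∀ ψ, cU W ψ x ∈ Submodule.span F {w, b y - y} := fun x hx ψ => by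
    have h1 : ∀ x, cU W ψ (j x) = b (cU W ψ x) := fun x => by
      induction x with
      | zero => simp
      | tmul u v => simp [hb]
      | add x y hx hy => simp only [map_add, hx, hy]
    have h3 := h1 x
    rw [all x hx, map_neg] at h3
    obtain ⟨c, hc⟩ := b1 (cU W ψ x - β w (cU W ψ x) • y) (by simp [hy])
    rw [map_sub, map_smul, ← h3] at hc
    refine (Submodule.smul_mem_iff _ h2).1
      (Submodule.mem_span_pair.2 ⟨-c, -β w (cU W ψ x), ?_⟩)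
    rw [neg_smul, ← sub_eq_iff_eq_add'.2 hc]; module
  refine hwy ?_
  rw [Submodule.eq_of_le_of_finrank_le (S₂ := Submodule.span F {w, b y - y})
    (Submodule.span_le.2 ?_) ?_]
  · exact Submodule.subset_span (by simp)
  · rintro _ (rfl | rfl)
    exacts [cmp _ (apply_mem_im.2 (tmul_mem_LW _ _)) _, cmp _ hx₁ _]
  · rw [Orth.finrank_span_pair_eq (Orth.linearIndependent_pair_of_notMem hψ₀ hψ₁)]
    exact Max.finrank_span_pair_le _ _

omit [Finite F] in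
theorem root1 (h2 : (2 : F) = 0) {w : W} (iw : β w w = 0) : ∃ s ∈ M, s * s = 1 ∧ IsT s ∧
    ∀ x, s x = x + Dm LinearMap.id (β w) w x := by
  obtain ⟨s, hs, hsT, es⟩ := h.rootT iw (c := 1) (by rw [map_one]; linear_combination h2)
  refine ⟨s, hs, LinearEquiv.ext fun x => ?_, hsT, by simpa using es⟩
  simp [es, AA _ _ iw, add_assoc, ← two_smul F, h2]

omit [Finite F] in
theorem root2 (h2 : (2 : F) = 0) {w : W} (iw : β w w = 0) {m : (U ⊗[F] W) ≃ₗ[F] (U ⊗[F] W)}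
    (hm : m ∈ M) : ∃ t ∈ M, t * t = 1 ∧ ∀ x, t x = x + cjm m (Dm LinearMap.id (β w) w) x := by
  obtain ⟨s, hs, ss, -, es⟩ := h.root1 h2 iw
  exact ⟨_, M.mul_mem (M.mul_mem hm hs) (M.inv_mem hm), by rw [conj_mul, ss]; simp,
    fun x => by simp [es]⟩

omit [FiniteDimensional F U] [FiniteDimensional F W] [Finite F] in
theorem kerN {w : W} {m : (U ⊗[F] W) ≃ₗ[F] (U ⊗[F] W)} (hm : m ∈ M) {y : U ⊗[F] W} :
    (∀ x ∈ im (LW F U w) m, B x y = 0) ↔ cW U (β w) (m.symm y) = 0 := by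
  rw [← h.perpL]
  exact ⟨fun e x hx => by rw [UG_symm (h.hM m hm)]; exact e _ (apply_mem_im.2 hx), by
    rintro e _ ⟨x, hx, rfl⟩; rw [LinearEquiv.coe_coe, ← UG_symm (h.hM m hm)]; exact e x hx⟩

theorem star (h2 : (2 : F) = 0) (hS : Std β M) {w w₀ : W} (hw : w ≠ 0) (iw : β w w = 0)
    (hw₀ : w₀ ≠ 0) (iw₀ : β w₀ w₀ = 0) {m : (U ⊗[F] W) ≃ₗ[F] (U ⊗[F] W)} (hm : m ∈ M)
    {x : U ⊗[F] W} (hx : x ∈ im (LW F U w₀) m) (h1 : cW U (β w) x = 0) (h0 : x ∉ LW F U w) :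
    ∀ y ∈ im (LW F U w₀) m, cW U (β w) y = 0 := by
  have : Finite (U ⊗[F] W) := Module.finite_of_finite F
  have : Finite ((U ⊗[F] W) ≃ₗ[F] (U ⊗[F] W)) := DFunLike.finite _
  obtain ⟨s, hs, ss, hsT, es⟩ := h.root1 h2 iw
  obtain ⟨t, ht, tt, et⟩ := h.root2 h2 iw₀ hm
  obtain ⟨i, a, e, -⟩ := dih ss tt
  have hd := M.pow_mem (M.mul_mem ht hs) i
  have d1 : ((t * s) ^ i) x = x := pow_fix (by
    simp [es, et, Dm_apply, h1, cW_LW iw₀ (mem_im.1 hx)]) i
  have d2 := pow_sub_mem (Z := LW F U w ⊔ im (LW F U w₀) m) (g := t * s) (fun x => by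
    rw [LinearEquiv.mul_apply, et, es, add_right_comm, add_assoc, add_sub_cancel_left]
    exact add_mem (Submodule.mem_sup_right (apply_mem_im.2 (Dm_mem _ _ _ _)))
      (Submodule.mem_sup_left (Dm_mem _ _ _ _))) i
  generalize (t * s) ^ i = d at e hd d1 d2
  obtain ⟨w', e'⟩ := h.ulem hw₀ iw₀ one_ne_zero (m := d * m) (mem_of_invol (H := tSub F U W) ss hs
    hsT (fun g hg => h.norm_T hS hw iw one_ne_zero hg (by simpa using es)) a _
    (M.mul_mem (M.mul_mem hd ht) (M.inv_mem hd)) (by rw [conj_mul, tt]; simp) e)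
    fun x => by simp [et]; rfl
  rw [im_mul] at e'
  obtain ⟨u, rfl⟩ : x ∈ LW F U w' := by rw [← e', ← d1]; exact apply_mem_im.2 hx
  have hu : u ≠ 0 := by rintro rfl; simp at h0
  have ww : β w w' = 0 := by simpa [hu] using h1
  intro y hy
  obtain ⟨_, ⟨a, rfl⟩, _, ⟨b, rfl⟩, rfl⟩ := Submodule.mem_sup.1 (le_sup_of_disj (X' := LW F U w')
    (e' ▸ im_le_of_sub d2 le_sup_right) (eq_bot_iff.2 fun z hz => by_contra fun z0 =>
      h0 (LW_eq_of hz.1 hz.2 z0 ▸ tmul_mem_LW u w')) (by rw [← e', finrank_im]) hy)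
  simp [iw, ww]

theorem star_ns (h2 : (2 : F) = 0) (hS : Std β M) {w w₀ : W} (hw : w ≠ 0) (iw : β w w = 0)
    (hw₀ : w₀ ≠ 0) (iw₀ : β w₀ w₀ = 0) {m : (U ⊗[F] W) ≃ₗ[F] (U ⊗[F] W)} (hm : m ∈ M)
    (hn : ¬ IsT m) {x : U ⊗[F] W} (hx : x ∈ im (LW F U w₀) m) (h1 : cW U (β w) x = 0) :
    x ∈ LW F U w := by
  by_contra h0
  have k := h.star h2 hS hw iw hw₀ iw₀ hm hx h1 h0
  obtain ⟨s, hs, ss, hsT, es⟩ := h.root1 h2 iw
  obtain ⟨t, ht, tt, et⟩ := h.root2 h2 iw₀ hm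
  have : t * s * t⁻¹ = s := by
    refine mul_inv_eq_of_eq_mul (LinearEquiv.ext fun y => ?_)
    have e1 := k _ (apply_mem_im.2 (Dm_mem LinearMap.id (β w₀) w₀ (m.symm y)))
    have e2 := (h.kerN hm (y := Dm LinearMap.id (β w) w y)).1 fun z hz =>
      h.hB.zero_symm (h.perpL.2 (k z hz) _ (Dm_mem _ _ _ _))
    simp only [LinearEquiv.mul_apply, es, et, map_add, cjm_apply]
    rw [Dm_apply _ _ w (m _), e1, Dm_apply _ _ w₀ (m.symm (Dm _ _ _ _)), e2]
    simp [add_right_comm]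
  obtain ⟨w', e⟩ := h.ulem hw₀ iw₀ one_ne_zero (m := m) (h.norm_T hS hw iw one_ne_zero ht
    (by simpa using es) (this.symm ▸ hsT)) (by simpa using et)
  exact hn (h.isT_of_stab hS hw₀ iw₀ hm e)

theorem key_even (h2 : (2 : F) = 0) (hS : Std β M) {w w' w₀ : W} (hw : w ≠ 0) (iw : β w w = 0)
    (hw' : w' ∉ F ∙ w) (iw' : β w' w' = 0) (ww : β w w' = 0) (hw₀ : w₀ ≠ 0) (iw₀ : β w₀ w₀ = 0)
    {m : (U ⊗[F] W) ≃ₗ[F] (U ⊗[F] W)} (hm : m ∈ M) (hn : ¬ IsT m) :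
    ∀ x ∈ im (LW F U w₀) m, ∀ x' ∈ im (LW F U w₀) m,
      B x' (Dm LinearMap.id (β w) w x + Dm LinearMap.id (β w') w' x) = 0 := by
  have : Finite (U ⊗[F] W) := Module.finite_of_finite F
  have : Finite ((U ⊗[F] W) ≃ₗ[F] (U ⊗[F] W)) := DFunLike.finite _
  have := h.ntU
  have hw0' : w' ≠ 0 := by rintro rfl; simp at hw'
  have ww' := h.hW.zero_symm ww
  obtain ⟨φ', φ1, φ2⟩ := exists_dual_two hw'
  obtain ⟨φ, φ3, φ4⟩ := exists_dual_two (not_mem_span_symm hw' hw)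
  set L := LW F U w ⊔ LW F U w' with hL
  let N₂ := Dm (LinearMap.id : U →ₗ[F] U) (β w) w + Dm LinearMap.id (β w') w'
  have hN : ∀ x, N₂ x = cW U (β w) x ⊗ₜ w + cW U (β w') x ⊗ₜ w' := fun _ => rfl
  have NL : ∀ x, N₂ x ∈ L := fun x => Submodule.add_mem_sup (Dm_mem _ _ _ _) (Dm_mem _ _ _ _)
  have L1 : ∀ x ∈ L, cW U (β w) x = 0 ∧ cW U (β w') x = 0 := fun x hx => by
    obtain ⟨_, ⟨a, rfl⟩, _, ⟨b, rfl⟩, rfl⟩ := Submodule.mem_sup.1 hx
    simp [iw, iw', ww, ww']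
  have L2 : ∀ x ∈ L, N₂ x = 0 := fun x hx => by simp [hN, L1 x hx]
  have L3 : ∀ x ∈ L, ∀ y ∈ L, B x y = 0 := fun x hx y hy => by
    obtain ⟨a, ha, b, hb, rfl⟩ := Submodule.mem_sup.1 hx
    rw [b_add_left, h.perpL.2 (L1 y hy).1 a ha, h.perpL.2 (L1 y hy).2 b hb, add_zero]
  have ns : ∀ {m}, m ∈ M → ¬ IsT m → ∀ x ∈ im (LW F U w₀) m, cW U (β w) x = 0 →
      cW U (β w') x = 0 → x = 0 := fun hm hn x hx e e' => by
    obtain ⟨u, rfl⟩ := h.star_ns h2 hS hw iw hw₀ iw₀ hm hn hx e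
    have := cW_LW φ3 (h.star_ns h2 hS hw0' iw' hw₀ iw₀ hm hn hx e')
    simp [show u = 0 by simpa [φ4] using this]
  obtain ⟨s, hs, ss, es⟩ : ∃ s ∈ M, s * s = 1 ∧ ∀ x, s x = x + N₂ x := by
    obtain ⟨s, hs, -, -, es⟩ := h.root1 h2 iw
    obtain ⟨s', hs', -, -, es'⟩ := h.root1 h2 iw'
    have e : ∀ x, (s * s') x = x + N₂ x := fun x => by
      simp [es, es', hN, Dm_apply, ww, add_right_comm, add_assoc]
    refine ⟨_, M.mul_mem hs hs', LinearEquiv.ext fun x => ?_, e⟩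
    rw [LinearEquiv.mul_apply, e, e]
    simp [L2 _ (NL x), add_assoc, ← two_smul F, h2]
  obtain ⟨t, ht, tt, et⟩ := h.root2 h2 iw₀ hm
  obtain ⟨i, a, e, e'⟩ := dih ss tt
  have hd := M.pow_mem (M.mul_mem ht hs) i
  have d2 := pow_sub_mem (Z := L ⊔ im (LW F U w₀) m) (g := t * s) (fun x => by
    rw [LinearEquiv.mul_apply, et, es, add_right_comm, add_assoc, add_sub_cancel_left]
    exact add_mem (Submodule.mem_sup_right (apply_mem_im.2 (Dm_mem _ _ _ _)))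
      (Submodule.mem_sup_left (NL _))) i
  generalize (t * s) ^ i = d at e e' hd d2
  have hm' := M.mul_mem hd hm
  have et' : ∀ x, (d * t * d⁻¹) x = x + cjm (d * m) (Dm LinearMap.id (β w₀) w₀) x := fun x => by
    simp [et]; rfl
  have d3 : im (LW F U w₀) (d * m) ≤ L ⊔ im (LW F U w₀) m :=
    im_mul _ d m ▸ im_le_of_sub d2 le_sup_right
  generalize d * t * d⁻¹ = t' at e e' et'
  generalize d * m = m' at hm' et' d3
  set N := cjm m (Dm LinearMap.id (β w₀) w₀) with hN0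
  set N' := cjm m' (Dm LinearMap.id (β w₀) w₀) with hN'
  have N'X : ∀ x, N' x ∈ im (LW F U w₀) m' := fun x => apply_mem_im.2 (Dm_mem _ _ _ _)
  have N'0 : ∀ y, (∀ x ∈ im (LW F U w₀) m', B x y = 0) ↔ N' y = 0 := fun y => by
    rw [h.kerN hm', hN', cjm_apply, m'.map_eq_zero_iff, Dm_apply]
    exact ⟨fun e => by simp [e], fun e => tmul_left_inj hw₀ (by simpa using e)⟩
  have iso : ∀ x ∈ im (LW F U w₀) m', ∀ x' ∈ im (LW F U w₀) m', B x x' = 0 := by
    rintro _ ⟨_, ⟨u, rfl⟩, rfl⟩ _ ⟨_, ⟨u', rfl⟩, rfl⟩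
    simp [h.hM m' hm' _ _, h.pure, iw₀]
  have N'N : ∀ x ∈ im (LW F U w₀) m', N' x = 0 := fun x hx => (N'0 x).1 fun y hy => iso y hy x hx
  obtain ⟨u₀, hu₀⟩ := exists_ne (0 : U)
  obtain ⟨y₀, hy₀, -⟩ := h.hW.exists_hyp hw₀ iw₀
  by_cases hc : L ⊓ im (LW F U w₀) m' = ⊥
  · have hc' : ∀ x ∈ L, x ∈ im (LW F U w₀) m' → x = 0 := fun x e e' => hc.le ⟨e, e'⟩
    obtain ⟨x₀, hx₀, x0, x1⟩ : ∃ x ∈ im (LW F U w₀) m', x ≠ 0 ∧ N' (N₂ x) = 0 := by
      obtain ⟨z, hz, z0, z1⟩ := exists_fixed_two h2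
        (Y := im (LW F U w₀) m' ⊔ (im (LW F U w₀) m').map N₂)
        (Submodule.mem_sup_left (apply_mem_im.2 (tmul_mem_LW u₀ w₀)))
        (by simpa using tmul_ne_zero hu₀ hw₀) a _ e fun y hy => by
          have := add_mem hy (Submodule.mem_sup_left (N'X y))
          rw [LinearEquiv.mul_apply, et', es]
          obtain ⟨a, ha, _, ⟨b, hb, rfl⟩, e⟩ := Submodule.mem_sup.1 this
          refine add_mem this ?_
          rw [← e, map_add, L2 _ (NL b), add_zero]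
          exact Submodule.mem_sup_right ⟨a, ha, rfl⟩
      obtain ⟨x₁, h1, _, ⟨x₂, h3, rfl⟩, rfl⟩ := Submodule.mem_sup.1 hz
      have z2 := congrArg s z1
      rw [← LinearEquiv.mul_apply, ← mul_assoc, ss, one_mul, et', es, add_right_inj, map_add,
        map_add, N'N _ h1, L2 _ (NL _), zero_add, add_zero] at z2
      have z3 := hc' _ (NL x₁) (z2 ▸ N'X _)
      by_cases h0 : x₂ = 0
      · exact ⟨x₁, h1, by simpa [h0] using z0, by simp [z3]⟩
      · exact ⟨x₂, h3, h0, z2.trans z3⟩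
    have cl : ∀ x ∈ im (LW F U w₀) m', ∀ x' ∈ im (LW F U w₀) m', B x' (N₂ x) = 0 := by
      by_cases h0 : N₂ x₀ = 0
      · intro x hx x' _
        rw [hN, h.star h2 hS hw iw hw₀ iw₀ hm' hx₀
          (by simpa [hN, φ3, φ4] using congrArg (cW U φ) h0)
          (fun e => x0 (hc' _ (Submodule.mem_sup_left e) hx₀)) x hx,
          h.star h2 hS hw0' iw' hw₀ iw₀ hm' hx₀
          (by simpa [hN, φ1, φ2] using congrArg (cW U φ') h0)
          (fun e => x0 (hc' _ (Submodule.mem_sup_right e) hx₀)) x hx]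
        simp
      intro x hx x' hx'
      have k : ∀ x ∈ im (LW F U w₀) m', m'.symm (s x) ∈ im (LW F U w₀) (m'⁻¹ * s * m') := by
        rintro _ ⟨x, hx, rfl⟩; exact ⟨x, hx, rfl⟩
      have := (h.kerN hm').2 (h.star h2 hS hw₀ iw₀ hw₀ iw₀
        (M.mul_mem (M.mul_mem (M.inv_mem hm') hs) hm') (k x₀ hx₀)
        ((h.kerN hm').1 ((N'0 _).2 (by rw [es, map_add, N'N _ hx₀, x1, add_zero])))
        (fun e => h0 (hc' _ (NL _) (by simpa [es] using sub_mem (mem_im.2 e) hx₀))) _ (k x hx))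
        x' hx'
      rwa [es, map_add, iso x' hx' x hx, zero_add] at this
    have k := le_sup_of_disj d3 hc (by rw [finrank_im, finrank_im])
    intro x hx x' hx'
    obtain ⟨a, ha, b, hb, rfl⟩ := Submodule.mem_sup.1 (k hx)
    obtain ⟨a', ha', b', hb', rfl⟩ := Submodule.mem_sup.1 (k hx')
    change B _ (N₂ _) = 0
    rw [map_add N₂, L2 a ha, zero_add, b_add_left, L3 a' ha' _ (NL b), cl b hb b' hb', add_zero]
  exfalso
  obtain ⟨z, ⟨hz, hz'⟩, z0⟩ := Submodule.exists_mem_ne_zero_of_ne_bot hc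
  obtain ⟨v, hv⟩ := IsT.im_LW (by_contra fun e => z0 (ns hm' e z hz' (L1 z hz).1 (L1 z hz).2)) w₀
  have XL : im (LW F U w₀) m' ≤ L := by
    obtain ⟨u, rfl⟩ := hv ▸ hz'
    obtain ⟨a, b, rfl⟩ := Submodule.mem_span_pair.1 (show v ∈ Submodule.span F {w, w'} from
      by_contra fun e => by
        obtain ⟨χ, c1, c2, c3⟩ := exists_dual_three e
        obtain ⟨a, ha, b, hb, e⟩ := Submodule.mem_sup.1 hz
        have := congrArg (cW U χ) e
        rw [map_add, cW_LW c1 ha, cW_LW c2 hb] at this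
        exact z0 (by simp [show u = 0 by simpa [c3] using this.symm]))
    rw [hv]
    rintro _ ⟨u, rfl⟩
    rw [inW_apply, tmul_add, tmul_smul, tmul_smul]
    exact Submodule.add_mem_sup (Submodule.smul_mem _ _ (tmul_mem_LW _ _))
      (Submodule.smul_mem _ _ (tmul_mem_LW _ _))
  have eρ : ∀ x, (s * t') x = x + (N' x + N₂ x) := fun x => by
    rw [LinearEquiv.mul_apply, et', es, map_add, L2 _ (XL (N'X x)), add_zero, add_assoc]
  have ρρ : s * t' * (s * t') = 1 := LinearEquiv.ext fun x => by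
    have e1 := (N'0 (N₂ x)).1 fun y hy => L3 y (XL hy) _ (NL x)
    rw [LinearEquiv.mul_apply, eρ, eρ]
    simp [N'N _ (N'X x), L2 _ (NL x), L2 _ (XL (N'X x)), e1, add_assoc, ← two_smul F, h2]
  rw [inv_eq_of_mul_eq_one_right ρρ, mul_inv_eq_iff_eq_mul] at e'
  have k : ∀ x ∈ im (LW F U w₀) m, N₂ x ∈ LW F U v := by
    rintro _ ⟨_, ⟨u, rfl⟩, rfl⟩
    have e1 : N (m (u ⊗ₜ y₀)) = m (u ⊗ₜ w₀) := by simp [hN0, Dm_apply, hy₀]
    rw [inW_apply, LinearEquiv.coe_coe, ← e1]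
    generalize m (u ⊗ₜ y₀) = y
    have e2 := LinearEquiv.congr_fun e' y
    rw [LinearEquiv.mul_apply, LinearEquiv.mul_apply _ t, eρ, eρ, et, et] at e2
    have e3 : N (N' y + N₂ y) = N' (N y) + N₂ (N y) := by
      simp only [map_add] at e2 ⊢
      linear_combination (norm := abel) e2
    have e4 := add_mem (XL (N'X (N y))) (NL (N y))
    have e5 := ns hm hn _ (e3 ▸ apply_mem_im.2 (Dm_mem _ _ _ _)) (L1 _ e4).1 (L1 _ e4).2
    rw [eq_neg_of_add_eq_zero_right e5, ← hv]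
    exact neg_mem (N'X _)
  have x0 : m (u₀ ⊗ₜ w₀) ≠ 0 := by simpa using tmul_ne_zero hu₀ hw₀
  have hx := apply_mem_im (g := m).2 (tmul_mem_LW (F := F) u₀ w₀)
  obtain ⟨u, hu⟩ := k _ hx
  have c1 := congrArg (cW U φ) hu
  have c2 := congrArg (cW U φ') hu
  simp only [hN, inW_apply, map_add, cW_tmul, φ1, φ2, φ3, φ4, one_smul, zero_smul, add_zero,
    zero_add] at c1 c2
  obtain ⟨u', e1⟩ := h.star_ns h2 hS (w := σ (φ' v) • w - σ (φ v) • w') (fun e => by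
    have d1 := congrArg φ e
    have d2 := congrArg φ' e
    simp only [map_sub, map_smul, φ1, φ2, φ3, φ4, smul_eq_mul, map_zero] at d1 d2
    exact x0 (ns hm hn _ hx (by simp [← c1, show φ v = 0 by simpa using d2])
      (by simp [← c2, show φ' v = 0 by simpa using d1]))) (by simp [iw, iw', ww, ww']) hw₀ iw₀
    hm hn hx (by
      rw [map_sub, cW_sub, map_smulₛₗ, map_smulₛₗ, cW_smul, cW_smul, ← c1, ← c2]
      simp [h.hU.invol, smul_smul, mul_comm])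
  exact x0 (ns hm hn _ hx (by simp [← e1, iw, ww]) (by simp [← e1, iw', ww']))

theorem even_case (h2 : (2 : F) = 0) (hS : Std β M) (hl : 4 ≤ finrank F W)
    {m : (U ⊗[F] W) ≃ₗ[F] (U ⊗[F] W)} (hm : m ∈ M) : IsT m := by
  by_contra hn
  have := h.ntU
  obtain ⟨w, hw, iw⟩ := h.hW.exists_isotropic (by omega)
  obtain ⟨f, -, -, f1, Y, -, hY, d, hY'⟩ := NDU.exists_hyp h.hW (W := ⊤)
    (fun w _ e => h.hW.nd' w fun x => e x trivial) trivial hw iw
  obtain ⟨w', hw', iw', w0⟩ := hY.exists_iso h.hW (by rw [finrank_top] at d; omega) (X := ⊥)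
    fun e => by rw [le_bot_iff.1 e, finrank_bot, finrank_top] at d; omega
  have ww' := (hY' w' hw').1
  have ww := h.hW.zero_symm ww'
  have nw : ∀ a b : F, b ≠ 0 → a • w + b • w' ∉ F ∙ w := fun a b hb e => by
    obtain ⟨c, hc⟩ := Submodule.mem_span_singleton.1 e
    have := congrArg (fun x => β x f) hc
    simp only [b_add_left, b_smul_left, f1, (hY' w' hw').2, mul_one, mul_zero, add_zero] at this
    rw [σ.injective this, left_eq_add] at hc
    exact w0 (by simpa [hb] using hc)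
  have k := fun (a b : F) (hb : b ≠ 0) => h.key_even h2 hS hw iw (nw a b hb)
    (by simp [iw, iw', ww, ww']) (by simp [iw, ww]) hw iw hm hn
  have inj : Function.Injective (cW U (β w) ∘ₗ (im (LW F U w) m).subtype) :=
    (injective_iff_map_eq_zero _).2 fun x hx => by
      obtain ⟨u, hu⟩ := h.star_ns h2 hS hw iw hw iw hm hn x.2 hx
      obtain ⟨u', hu'⟩ := h.star_ns h2 hS (by simpa using w0) iw' hw iw hm hn x.2
        (by simp [← hu, ww'])
      by_contra x0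
      exact nw 0 1 one_ne_zero (by
        simpa using mem_span_of_tmul_eq' (fun e => x0 (Subtype.ext (by simp [← hu', e])))
          (hu'.trans hu.symm))
  obtain ⟨u, hu⟩ := h.hU.exists_nonisotropic
  obtain ⟨⟨x, hx⟩, e⟩ := (LinearMap.injective_iff_surjective_of_finrank_eq_finrank
    (by rw [finrank_im, finrank_LW hw])).1 inj u
  replace e : cW U (β w) x = u := e
  have k' : ∀ a b : F, b ≠ 0 → p u u + p (σ a • u + σ b • cW U (β w') x)
      (σ a • u + σ b • cW U (β w') x) = 0 := fun a b hb => by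
    have := congrArg σ (k a b hb x hx x hx)
    simpa only [map_add (B x), map_add σ, h.symm, Dm_apply, h.left, LinearMap.id_apply, e,
      map_add β, map_smulₛₗ β, cW_add, cW_smul, map_zero] using this
  obtain ⟨θ, hθ⟩ := h.hU.ne
  have θ0 : θ ≠ 0 := by rintro rfl; simp at hθ
  have θ1 : 1 + θ ≠ 0 := fun e => hθ (by rw [← neg_eq_of_add_eq_zero_right e]; simp)
  have a1 := k' 0 1 one_ne_zero
  have a2 := k' 1 1 one_ne_zero
  have a3 := k' 0 θ θ0
  have a4 := k' 1 θ θ0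
  have a5 := k' 0 _ θ1
  have a6 := k' 1 _ θ1
  simp only [map_add, LinearMap.add_apply, b_smul_left, map_smul, smul_eq_mul, map_one, map_zero,
    h.hU.invol] at a1 a2 a3 a4 a5 a6
  exact hu (by linear_combination a2 - a1 + a4 - a3 - a6 + a5)

theorem main (hq : finrank F U = 2 → ∃ b, σ b = b ∧ b ≠ 0 ∧ b ≠ 1)
    (hl : (2 : F) = 0 → 4 ≤ finrank F W) {m : (U ⊗[F] W) ≃ₗ[F] (U ⊗[F] W)} (hm : m ∈ M)
    (hn : ¬ IsT m) : SUG B ≤ M.subgroupOf (UG B) := by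
  by_cases hS : Std β M
  · by_cases h2 : (2 : F) = 0
    · exact absurd (h.even_case h2 hS (hl h2) hm) hn
    · exact absurd (h.odd_case h2 hS hm) hn
  · exact h.le_of_not_std hq hS

end UU

section Mat

open Geo

/-- Transport of a sesquilinear form. -/
def trU {V V' : Type*} [AddCommGroup V] [Module F V] [AddCommGroup V'] [Module F V']
    (B : V →ₛₗ[σ] V →ₗ[F] F) (E : V ≃ₗ[F] V') : V' →ₛₗ[σ] V' →ₗ[F] F :=
  (B.comp E.symm.toLinearMap).compl₂ E.symm.toLinearMap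

theorem trU_apply {V V' : Type*} [AddCommGroup V] [Module F V] [AddCommGroup V'] [Module F V']
    (B : V →ₛₗ[σ] V →ₗ[F] F) (E : V ≃ₗ[F] V') (x y : V') :
    trU B E x y = B (E.symm x) (E.symm y) := rfl

variable [Finite F] {q : ℕ} (hF : Nat.card F = q ^ 2)

theorem isMaximalIn_SU' {n : ℕ} {V : Type*} [AddCommGroup V] [Module F V]
    (E : (Fin n → F) ≃ₗ[F] V) {H : Subgroup (GL (Fin n) F)}
    (P : (V ≃ₗ[F] V) → Prop) (hH : ∀ g, g ∈ H ↔ P (cong E (Orth.glEquiv _ F g)))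
    (h1 : ∃ g ∈ SUG (trU (sB hF n) E), ¬ P g.1)
    (h2 : ∀ M : Subgroup (V ≃ₗ[F] V),
      (∀ g ∈ UG (trU (sB hF n) E), LinearEquiv.det g = 1 → P g → g ∈ M) →
      (∀ g ∈ M, g ∈ UG (trU (sB hF n) E)) → (∀ g ∈ M, LinearEquiv.det g = 1) →
      (∃ g ∈ M, ¬ P g) → SUG (trU (sB hF n) E) ≤ M.subgroupOf _) :
    IsMaximalIn (GU n F q ⊓ specialLinear (Fin n) F) (H ⊓ (GU n F q ⊓ specialLinear (Fin n) F)) :=
  isMaximalIn_of_equiv ((Orth.glEquiv _ F).trans (cong E))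
    (fun g => g ∈ UG (trU (sB hF n) E) ∧ LinearEquiv.det g = 1) P
    (fun g => and_congr ((mem_GU hF g).trans ⟨fun h x y => by simp [trU_apply, cong_apply, h],
      fun h x y => by simpa [trU_apply, cong_apply] using h (E x) (E y)⟩)
      (by simp [mem_SL, det_cong])) hH (let ⟨g, h, h'⟩ := h1; ⟨g.1, ⟨g.2, h⟩, h'⟩)
    fun M a b c g hg => h2 M (fun g h h' => a g ⟨h, h'⟩) (fun g h => (b g h).1)
      (fun g h => (b g h).2) c (x := ⟨g, hg.1⟩) hg.2

/-- A unitary form given as a function. -/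
def uniOf {κ : Type} {f : (κ → F) → (κ → F) → F} (h : IsUnitaryFormPow q f) :
    (κ → F) →ₛₗ[frob hF] (κ → F) →ₗ[F] F :=
  LinearMap.mk₂'ₛₗ _ _ (fun x y => f y x)
    (fun x y z => by rw [h.herm, h.add_left, add_pow_q hF, ← h.herm, ← h.herm])
    (fun c x y => by rw [h.herm, h.smul_left, mul_pow, ← h.herm]; rfl)
    (fun x y z => h.add_left _ _ _) fun c x y => h.smul_left _ _ _

theorem uniOf_apply {κ : Type} {f : (κ → F) → (κ → F) → F} (h : IsUnitaryFormPow q f)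
    (x y : κ → F) : uniOf hF h x y = f y x := rfl

theorem uniOf_hf {κ : Type} {f : (κ → F) → (κ → F) → F} (h : IsUnitaryFormPow q f) :
    HF (uniOf hF h) :=
  ⟨inv_frob hF, fun x y => (h.herm x y).symm, fun x hx => by
    by_contra h0
    obtain ⟨y, hy⟩ := (h.nondegenerate x h0).1
    exact hy (hx y)⟩

theorem uu_of {n n₁ n₂ : ℕ} {e : Fin n ≃ Fin n₁ × Fin n₂} {P : GL (Fin n) F}
    {f₁ : (Fin n₁ → F) → (Fin n₁ → F) → F} {f₂ : (Fin n₂ → F) → (Fin n₂ → F) → F}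
    (hf₁ : IsUnitaryFormPow q f₁) (hf₂ : IsUnitaryFormPow q f₂) (h1 : 0 < n₁) (h2 : 0 < n₂)
    (hT : IsTensorFormStructure (fun x : F => x ^ q) (hermForm n F q) f₁ f₂ e P) :
    ∃ (p : (Fin n₁ → F) →ₛₗ[frob hF] (Fin n₁ → F) →ₗ[F] F)
      (β : (Fin n₂ → F) →ₛₗ[frob hF] (Fin n₂ → F) →ₗ[F] F), HF p ∧ HF β ∧
      ∀ u u' w w', trU (sB hF n) (tenE e P) (u ⊗ₜ w) (u' ⊗ₜ w') = p u u' * β w w' := by
  obtain ⟨c, hc, h⟩ := tensor_form (σ := frob hF) hT (uniOf hF hf₁).flip (fun _ _ => rfl)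
    (uniOf hF hf₂).flip fun _ _ => rfl
  have e1 := uniOf_hf hF hf₁
  have e2 := uniOf_hf hF hf₂
  have k : ∀ u u' w w', trU (sB hF n) (tenE e P) (u ⊗ₜ w) (u' ⊗ₜ w') =
      c * uniOf hF hf₁ u u' * uniOf hF hf₂ w w' := fun u u' w w' => by
    rw [trU_apply, ← hermForm_eq, h, mul_assoc]; rfl
  have : Nonempty (Fin n₁) := ⟨⟨0, h1⟩⟩
  have : Nonempty (Fin n₂) := ⟨⟨0, h2⟩⟩
  obtain ⟨u, hu⟩ := e1.exists_nonisotropic
  obtain ⟨w, hw⟩ := e2.exists_nonisotropic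
  have hc' : frob hF c = c := by
    have := (hf_sB hF n).fix ((tenE e P).symm (u ⊗ₜ w))
    rw [← trU_apply, k, map_mul, map_mul, e1.fix, e2.fix] at this
    simpa [hu, hw] using this
  exact ⟨c • uniOf hF hf₁, _, ⟨e1.toInv, fun x y => by simp [hc', e1.symm],
    fun x hx => e1.nd x fun y => by simpa [hc] using hx y⟩, e2, k⟩

include hF in
theorem max_su_tensor {n n₁ n₂ : ℕ} (h1 : 2 ≤ n₁) (h12 : n₁ < n₂) (h4 : 4 ≤ n₂)
    (hex : ¬ (n₁ = 2 ∧ q = 2)) {e : Fin n ≃ Fin n₁ × Fin n₂} {P : GL (Fin n) F}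
    {f₁ : (Fin n₁ → F) → (Fin n₁ → F) → F} {f₂ : (Fin n₂ → F) → (Fin n₂ → F) → F}
    (hf₁ : IsUnitaryFormPow q f₁) (hf₂ : IsUnitaryFormPow q f₂)
    (hT : IsTensorFormStructure (fun x : F => x ^ q) (hermForm n F q) f₁ f₂ e P) :
    IsMaximalIn (GU n F q ⊓ specialLinear (Fin n) F)
      (tensorProductSubgroup n₁ n₂ e P ⊓ (GU n F q ⊓ specialLinear (Fin n) F)) := by
  obtain ⟨p, β, hp, hβ, k⟩ := uu_of hF hf₁ hf₂ (by omega) (by omega) hT
  have hS := fun M a b c => UU.mk (M := M) hp hβ k (by simpa) (by simpa) a b c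
  refine isMaximalIn_SU' hF (tenE e P) IsT (mem_tensor_iff e P) ?_ fun M a b c ⟨g, hg, hn⟩ =>
    (hS M a b c).main (fun h => (inv_frob hF).exists_fix_ne hF fun e => hex ⟨by simpa using h, e⟩)
      (fun _ => by simpa) hg hn
  have h := hS (UG _ ⊓ LinearEquiv.det.ker) (fun g a b _ => ⟨a, b⟩) (fun g h => h.1) fun g h => h.2
  obtain ⟨w, y, hw, -, hy⟩ := hβ.exists_hyp_pair (by simp; omega)
  obtain ⟨n, f, hn, -, hf⟩ := hp.exists_hyp_pair (by simpa)
  obtain ⟨s, hs0, hs⟩ := hp.toInv.exists_skew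
  have hx : trU (sB hF _) (tenE e P) (n ⊗ₜ w) (n ⊗ₜ w) = 0 := by simp [k, hn]
  refine ⟨_, h.hB.tv_mem_SUG hx s, not_isT_Dm (γ := s • (p n).smulRight n) (φ := β w)
    (by simp; omega) (fun a e => ?_) (fun e => by simp [e] at hy) (ne_zero_of_b (hy ▸ one_ne_zero))
    fun x => by rw [h.hB.tv_apply hx hs, h.left, Dm_apply, smul_tmul', mul_smul]; rfl⟩
  have h1 := LinearMap.congr_fun e f
  have h3 := LinearMap.congr_fun e n
  have hn0 : n ≠ 0 := ne_zero_of_b (hf ▸ one_ne_zero)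
  simp only [LinearMap.smulRight_apply, LinearMap.smul_apply, LinearMap.id_apply, hf, hn] at h1 h3
  simp [show a = 0 by simpa [hn0] using h3.symm, hs0, hn0] at h1

end Mat

end Cfsg.Agent.Max2
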