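import Mathlib
import Cfsg.Agent.Max2.UU3
import Cfsg.Agent.Max2.SpO2
import Cfsg.Agent.Max.Om2
import Cfsg.Agent.Orth.Sum

/-!
# Tensor decompositions of orthogonal spaces: common lemmas
-/

set_option autoImplicit false

namespace Cfsg.Agent.Max2

open Module Cfsg.Agent.Max TensorProduct Classical.SpWitt Cfsg.Agent.Orth QuadraticMap

section Om

variable {F V : Type*} [Field F] [AddCommGroup V] [Module F V] {Q : QuadraticForm F V}

/-- The group `Ω(Q)` as a group of linear maps. -/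
abbrev OM (Q : QuadraticForm F V) : Subgroup (V ≃ₗ[F] V) :=
  (commutator (OG Q)).map (OG Q).subtype

theorem og_sg {g : V ≃ₗ[F] V} (h : g ∈ OG Q) : g ∈ SG Q.polarBilin :=
  fun x y => OG.map_polar ⟨g, h⟩ x y

theorem OM.og {g : V ≃ₗ[F] V} (h : g ∈ OM Q) : g ∈ OG Q := by
  obtain ⟨g, -, rfl⟩ := h
  exact g.2

/-- The unipotent radical of a parabolic subgroup lies in `Ω`. -/
theorem unip_mem [FiniteDimensional F V] (hQ : ND Q) (hn : 5 ≤ finrank F V) (n : ℕ) :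
    ∀ L : Submodule F V, finrank F L = n → Sing Q L → ∀ g : OG Q, (∀ x ∈ L, g.1 x = x) →
      (∀ y, (∀ x ∈ L, polar Q x y = 0) → g.1 y - y ∈ L) → g ∈ commutator (OG Q) := by
  induction n with
  | zero =>
    intro L hL _ g _ e
    obtain rfl := Submodule.finrank_eq_zero.1 hL
    rw [show g = 1 from OG.ext fun y => sub_eq_zero.1 (by simpa using e y (by simp))]
    exact one_mem _
  | succ n ih =>
    intro L hL hS g f e
    obtain ⟨a, ha, ha0⟩ := Submodule.exists_mem_ne_zero_of_ne_bot (p := L) (by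
      rintro rfl; simp at hL)
    obtain ⟨b, hb, hb0⟩ := hQ.exists_hyp ha0 (hS a ha)
    have o : ∀ y, ∀ x ∈ L, polar Q x (g.1 y - y) = 0 := fun y x hx => by
      rw [polar_sub_right, ← OG.map_polar g x y, f x hx, sub_self]
    have h1 : polar Q a (b - g.1 b) = 0 := by rw [← neg_sub, polar_neg_right, o b a ha, neg_zero]
    have t1 : ∀ x ∈ L, (eich Q a (b - g.1 b)).1 x = x := fun x hx =>
      eich_apply_of_orth (hS a ha) h1 (hS.polar ha hx) (by
        rw [polar_comm, ← neg_sub, polar_neg_right, o b x hx, neg_zero])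
    have t2 : (eich Q a (b - g.1 b)).1 b = g.1 b := by
      rw [eich_apply (hS a ha) h1, hb, q_sub, OG.map_Q, polar_sub_left, p_self, hb0,
        polar_comm _ (g.1 b)]
      simp
    have f' : ∀ x ∈ L, ((eich Q a (b - g.1 b))⁻¹ * g).1 x = x := fun x hx => by
      rw [OG.mul_apply, f x hx]; conv_lhs => rw [← t1 x hx, OG.inv_apply_self]
    have fb : ((eich Q a (b - g.1 b))⁻¹ * g).1 b = b := by
      rw [OG.mul_apply]; nth_rw 2 [← t2]; rw [OG.inv_apply_self]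
    have e' : ∀ y, (∀ x ∈ L, polar Q x y = 0) → ((eich Q a (b - g.1 b))⁻¹ * g).1 y - y ∈ L :=
      fun y hy => by
      have h2 := e y hy
      have : polar Q a (g.1 y) = 0 := by rw [← f a ha, OG.map_polar, hy a ha]
      rw [OG.mul_apply, eich_inv (hS a ha) h1, eich_apply (hS a ha)
        (by rw [polar_neg_right, h1, neg_zero]), this]
      convert L.add_mem h2 (L.smul_mem _ ha) using 1
      rw [zero_smul, sub_zero, add_sub_right_comm]
    refine (mul_mem_cancel_left (inv_mem (hQ.eich_mem_commutator (good_of_five_le hn) a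
      (b - g.1 b)))).1 ?_
    generalize (eich Q a (b - g.1 b))⁻¹ * g = t at f' fb e'
    have hba : polar Q b a = 1 := by rwa [polar_comm]
    refine ih (L ⊓ LinearMap.ker (Q.polarBilin b)) ?_ (hS.mono inf_le_left) t
      (fun x hx => f' x hx.1) fun y hy => ⟨?_, ?_⟩
    · have := finrank_le_inf_ker L (Q.polarBilin b)
      have := Submodule.finrank_lt_finrank_of_lt (lt_of_le_of_ne (inf_le_left (a := L)
        (b := LinearMap.ker (Q.polarBilin b))) fun e => by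
          have : a ∈ LinearMap.ker (Q.polarBilin b) := (e ▸ ha :).2
          simp [hba] at this)
      omega
    · have := e' (y - polar Q a y • b) fun x hx => by
        have := hy (x - polar Q b x • a) ⟨L.sub_mem hx (L.smul_mem _ ha), by simp [hba]⟩
        simp only [polar_sub_left, polar_sub_right, p_smul_left, p_smul_right,
          polar_comm _ x b] at this ⊢
        linear_combination this
      rwa [map_sub, map_smul, fb, sub_sub_sub_cancel_right] at this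
    · have := OG.map_polar t b y
      rw [fb] at this
      simp [this]

open Geo in
theorem isMaximalIn_Om' {ι : Type} [Fintype ι] [DecidableEq ι] {Q : QuadraticForm F (ι → F)}
    (E : (ι → F) ≃ₗ[F] V) {H : Subgroup (GL ι F)} (P : (V ≃ₗ[F] V) → Prop)
    (hH : ∀ g, g ∈ H ↔ P (cong E (glEquiv _ F g)))
    (h1 : ∃ g ∈ OM (Q.comp E.symm.toLinearMap), ¬ P g)
    (h2 : ∀ M : Subgroup (V ≃ₗ[F] V), (∀ g ∈ OM (Q.comp E.symm.toLinearMap), P g → g ∈ M) →
      M ≤ OM (Q.comp E.symm.toLinearMap) → (∃ g ∈ M, ¬ P g) →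
      commutator (OG (Q.comp E.symm.toLinearMap)) ≤ M.subgroupOf _) :
    IsMaximalIn (omegaGL ⇑Q) (H ⊓ omegaGL ⇑Q) := by
  let e : Q.IsometryEquiv (Q.comp E.symm.toLinearMap) := ⟨E, fun x => by simp⟩
  refine isMaximalIn_of_equiv ((glEquiv _ F).trans (cong E))
    (· ∈ OM (Q.comp E.symm.toLinearMap)) P (fun g => (mem_omegaGL g).trans ⟨?_, ?_⟩) hH h1
    fun M a b c => ?_
  · rintro ⟨x, hx, h⟩
    exact ⟨_, map_mem_commutator (ogCongr e).toMonoidHom hx, by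
      rw [MulEquiv.trans_apply, ← h]; rfl⟩
  · rintro ⟨x, hx, h⟩
    refine ⟨_, map_mem_commutator (ogCongr e).symm.toMonoidHom hx, (cong E).injective ?_⟩
    rw [MulEquiv.trans_apply] at h
    rw [← h]
    exact congrArg Subtype.val ((ogCongr e).apply_symm_apply x)
  · rintro _ ⟨g, hg, rfl⟩
    exact h2 M a b c hg

end Om

variable {F U W : Type*} [Field F] [AddCommGroup U] [Module F U] [AddCommGroup W] [Module F W]

/-- An overgroup `M` in `Ω(U ⊗ W)` of the stabiliser of the tensor decomposition. -/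
structure TO (ε : F) (p : LinearMap.BilinForm F U) (β : LinearMap.BilinForm F W)
    (Q : QuadraticForm F (U ⊗[F] W)) (M : Subgroup ((U ⊗[F] W) ≃ₗ[F] (U ⊗[F] W))) : Prop where
  ee : ε * ε = 1
  sU : ∀ x y, p y x = ε * p x y
  sW : ∀ x y, β y x = ε * β x y
  ndU : p.Nondegenerate
  ndW : β.Nondegenerate
  tb : TB Q.polarBilin p β
  inv : ∀ g ∈ SG Q.polarBilin, IsT g → g ∈ OG Q
  k2 : 2 ≤ finrank F U
  l3 : 3 ≤ finrank F W
  hH : ∀ g ∈ OM Q, IsT g → g ∈ M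
  hM : M ≤ OM Q

namespace TO

variable {ε : F} {p : LinearMap.BilinForm F U} {β : LinearMap.BilinForm F W}
  {Q : QuadraticForm F (U ⊗[F] W)} {M : Subgroup ((U ⊗[F] W) ≃ₗ[F] (U ⊗[F] W))}
  (h : TO ε p β Q M)
include h

theorem ntU : Nontrivial U := Module.nontrivial_of_finrank_pos (R := F) (by have := h.k2; omega)

theorem ntW : Nontrivial W := Module.nontrivial_of_finrank_pos (R := F) (by have := h.l3; omega)

theorem rU : p.IsRefl := fun x y e => by rw [h.sU, e, mul_zero]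

theorem rW : β.IsRefl := fun x y e => by rw [h.sW, e, mul_zero]

theorem pure (u u' : U) (w w' : W) : polar Q (u ⊗ₜ w) (u' ⊗ₜ w') = p u u' * β w w' :=
  h.tb u w u' w'

theorem left (u : U) (w : W) (x : U ⊗[F] W) : polar Q (u ⊗ₜ w) x = p u (cW U (β w) x) :=
  h.tb.left u w x

theorem right (u : U) (w : W) (x : U ⊗[F] W) : polar Q (u ⊗ₜ w) x = β w (cU W (p u) x) :=
  h.tb.right u w x

theorem sg {g : (U ⊗[F] W) ≃ₗ[F] (U ⊗[F] W)} (hg : g ∈ M) : g ∈ SG Q.polarBilin :=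
  og_sg (OM.og (h.hM hg))

theorem map {g : (U ⊗[F] W) ≃ₗ[F] (U ⊗[F] W)} (hg : g ∈ M) (x y : U ⊗[F] W) :
    polar Q (g x) (g y) = polar Q x y := h.sg hg x y

theorem symm {g : (U ⊗[F] W) ≃ₗ[F] (U ⊗[F] W)} (hg : g ∈ M) (x y : U ⊗[F] W) :
    polar Q x (g.symm y) = polar Q (g x) y := SG_symm (h.sg hg) x y

theorem perpL {w : W} {x : U ⊗[F] W} :
    (∀ y ∈ LW F U w, polar Q y x = 0) ↔ cW U (β w) x = 0 :=
  ⟨fun e => h.ndU.2 _ fun u => by rw [← h.left]; exact e _ (tmul_mem_LW _ _), by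
    rintro e _ ⟨u, rfl⟩; rw [inW_apply, h.left, e, map_zero]⟩

theorem kerN {w : W} {m : (U ⊗[F] W) ≃ₗ[F] (U ⊗[F] W)} (hm : m ∈ M) {y : U ⊗[F] W} :
    (∀ x ∈ im (LW F U w) m, polar Q x y = 0) ↔ cW U (β w) (m.symm y) = 0 := by
  rw [← h.perpL]
  exact ⟨fun e x hx => by rw [h.symm hm]; exact e _ (apply_mem_im.2 hx), by
    rintro e _ ⟨x, hx, rfl⟩; rw [LinearEquiv.coe_coe, ← h.symm hm]; exact e x hx⟩

theorem perp_symm {w : W} {g : (U ⊗[F] W) ≃ₗ[F] (U ⊗[F] W)} (hg : g ∈ M)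
    (h1 : ∀ x ∈ LW F U w, g x ∈ LW F U w) {x : U ⊗[F] W} (hx : cW U (β w) x = 0) :
    cW U (β w) (g.symm x) = 0 :=
  h.perpL.1 fun y hy => by rw [h.symm hg]; exact h.perpL.2 hx _ (h1 y hy)

variable [FiniteDimensional F U] [FiniteDimensional F W]

omit [FiniteDimensional F U] in
theorem nd : ND Q := (nd_iff Q).2 (h.tb.nd h.ndU h.ndW fun x y e => by
  simpa [polar_comm _ y x] using e)

theorem n5 : 5 ≤ finrank F (U ⊗[F] W) := by
  rw [Module.finrank_tensorProduct]; have := Nat.mul_le_mul h.k2 h.l3; omega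

omit [FiniteDimensional F U] in
theorem memL {w : W} (hw : w ≠ 0) {x : U ⊗[F] W} (e : ∀ v, β v w = 0 → cW U (β v) x = 0) :
    x ∈ LW F U w :=
  mem_LW_of hw fun φ hφ => by
    obtain ⟨v, rfl⟩ := sp_exists_dual h.ndW φ
    exact e v hφ

theorem unip {L : Submodule F (U ⊗[F] W)} (hL : Sing Q L) {g : (U ⊗[F] W) ≃ₗ[F] (U ⊗[F] W)}
    (hg : g ∈ OG Q) (f : ∀ x ∈ L, g x = x) (e : ∀ y, (∀ x ∈ L, polar Q x y = 0) → g y - y ∈ L) :
    g ∈ OM Q := ⟨⟨g, hg⟩, unip_mem h.nd h.n5 _ L rfl hL _ f e, rfl⟩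

omit [FiniteDimensional F U] in
theorem zform {w y : W} (hy : β w y = 1) {g : (U ⊗[F] W) ≃ₗ[F] (U ⊗[F] W)}
    (hg : g ∈ M) (e : ∀ x, cW U (β w) x = 0 → g x = x) :
    ∃ γ : U →ₗ[F] U, ∀ x, g x = x + Dm γ (β w) w x := by
  have hw : w ≠ 0 := by rintro rfl; simp at hy
  obtain ⟨χ, hχ⟩ := exists_dual_one (F := F) hw
  have h1 : ∀ x, g x - x ∈ LW F U w := fun x => h.memL hw fun v hv => h.ndU.2 _ fun u => by
    have := h.map hg (u ⊗ₜ v) x
    rw [e _ (by simp [h.rW _ _ hv])] at this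
    rw [← h.left, polar_sub_right, this, sub_self]
  let γ : U →ₗ[F] U := cW U χ ∘ₗ ((g : _ →ₗ[F] _) - LinearMap.id) ∘ₗ inW F U y
  have h2 : ∀ u, g (u ⊗ₜ y) = u ⊗ₜ y + γ u ⊗ₜ w := fun u => by
    rw [← sub_eq_iff_eq_add', ← eq_of_mem_LW hχ (h1 _)]; rfl
  refine ⟨γ, fun x => ?_⟩
  have := e (x - cW U (β w) x ⊗ₜ y) (by simp [hy])
  rw [map_sub, h2] at this
  rw [Dm_apply, sub_eq_iff_eq_add.1 this]; abel

theorem isT_of_fix {w y : W} (hw0 : β w w = 0) (hy : β w y = 1) (hy0 : β y y = 0)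
    (hL0 : Sing Q (LW F U w))
    (nu : ∀ v, β w v = 0 → ∃ q ∈ M, (∀ u, q (u ⊗ₜ w) = u ⊗ₜ w) ∧
      (∀ x, cW U (β w) x = 0 → q x - x ∈ LW F U w) ∧
      ∀ u, q (u ⊗ₜ y) - u ⊗ₜ y - u ⊗ₜ v ∈ LW F U w)
    (d1a : ∀ g ∈ M, (∀ u, g (u ⊗ₜ w) = u ⊗ₜ w) → (∀ x, cW U (β w) x = 0 → g x - x ∈ LW F U w) →
      ∃ ν : W →ₗ[F] W, ∀ u v, g (u ⊗ₜ v) = u ⊗ₜ ν v)
    {g : (U ⊗[F] W) ≃ₗ[F] (U ⊗[F] W)} (hg : g ∈ M) (hL : im (LW F U w) g = LW F U w) : IsT g := by
  have := h.ntU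
  have hw : w ≠ 0 := by rintro rfl; simp at hy
  have h1 : ∀ x, g x ∈ LW F U w ↔ x ∈ LW F U w := fun x => by
    rw [← apply_mem_im (g := g) (v := x), hL]
  have gp : ∀ x, cW U (β w) x = 0 → cW U (β w) (g.symm x) = 0 := fun x =>
    h.perp_symm hg fun x => (h1 x).2
  have gp' : ∀ x, cW U (β w) x = 0 → cW U (β w) (g x) = 0 := fun x =>
    h.perp_symm (M.inv_mem hg) fun x hx => (h1 _).1 (by simpa using hx)
  have hχ : (ε • β y) w = 1 := by simp [h.sW w y, hy, h.ee]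
  have hε : β y w = ε := by rw [h.sW, hy, mul_one]
  let a₀ : U →ₗ[F] U := cW U (ε • β y) ∘ₗ g.toLinearMap ∘ₗ inW F U w
  have ha₀ : ∀ u, g (u ⊗ₜ w) = a₀ u ⊗ₜ w := fun u =>
    (eq_of_mem_LW hχ ((h1 _).2 (tmul_mem_LW u w))).symm
  let a : U →ₗ[F] U := cW U (β w) ∘ₗ g.toLinearMap ∘ₗ inW F U y
  have ha' : ∀ u, cW U (β w) (g (u ⊗ₜ y)) = a u := fun _ => rfl
  have pa₀ : ∀ u v, p (a₀ u) (a v) = p u v := fun u v => by
    have := h.map hg (u ⊗ₜ w) (v ⊗ₜ y)
    rwa [ha₀, h.left, h.pure, hy, mul_one] at this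
  have ai : Function.Injective a := (injective_iff_map_eq_zero _).2 fun v hv =>
    h.ndU.2 v fun u => by rw [← pa₀, hv, map_zero]
  obtain ⟨u₀, hu₀⟩ := exists_ne (0 : U)
  obtain ⟨u₁, hu₁⟩ := exists_one h.ndU h.rU hu₀
  have au : a u₀ ≠ 0 := fun e => hu₀ (ai (by simp [e]))
  obtain ⟨ψ, hψ⟩ := exists_dual_one (F := F) au
  let β' := cU W ψ ∘ₗ g.toLinearMap ∘ₗ TensorProduct.mk F U W u₀
  have k : ∀ v, β w v = 0 → ∀ u, g (u ⊗ₜ v) - a u ⊗ₜ β' v ∈ LW F U w := fun v hv => by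
    obtain ⟨v', hv'⟩ : ∃ v', ∀ u, g (u ⊗ₜ v) - a u ⊗ₜ v' ∈ LW F U w := by
      obtain ⟨q, hq, q1, q2, q3⟩ := nu v hv
      have e2 : ∀ x, cW U (β w) x = 0 → (g * q * g⁻¹) x - x ∈ LW F U w := fun x hx => by
        simpa using (h1 _).2 (q2 _ (gp x hx))
      obtain ⟨ν, hν⟩ := d1a _ (M.mul_mem (M.mul_mem hg hq) (M.inv_mem hg)) (fun u => by
        obtain ⟨u', hu'⟩ := (h1 (g.symm (u ⊗ₜ w))).1 (by simpa using tmul_mem_LW u w)
        rw [inW_apply] at hu'
        rw [LinearEquiv.mul_apply, LinearEquiv.mul_apply, LinearEquiv.coe_inv, ← hu', q1, hu',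
          LinearEquiv.apply_symm_apply]) e2
      refine ⟨ν y - y, fun u => ?_⟩
      have e3 := e2 (g (u ⊗ₜ y) - a u ⊗ₜ y) (by simp [ha', hy])
      rw [map_sub, hν] at e3
      simp only [LinearEquiv.mul_apply, LinearEquiv.coe_inv, LinearEquiv.symm_apply_apply] at e3
      convert sub_mem e3 ((h1 _).2 (q3 u)) using 1
      simp only [map_sub, tmul_sub]; abel
    intro u
    obtain ⟨u', e⟩ := hv' u₀
    have : β' v = v' + ψ u' • w := by
      simpa [β', hψ, eq_sub_iff_add_eq', eq_comm] using congrArg (cU W ψ) e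
    rw [this, tmul_add, ← sub_sub, tmul_smul]
    exact sub_mem (hv' u) ((LW F U w).smul_mem _ (tmul_mem_LW _ _))
  have kb : ∀ v, β w v = 0 → β w (β' v) = 0 := fun v hv => by
    simpa [gp' (u₀ ⊗ₜ v) (by simp [hv]), au] using cW_LW hw0 (k _ hv u₀)
  have kp : ∀ v v', β w v = 0 → β w v' = 0 → ∀ u u',
      p (a u) (a u') * β (β' v) (β' v') = p u u' * β v v' := fun v v' hv hv' u u' => by
    have e1 := h.map hg (u ⊗ₜ v) (u' ⊗ₜ v')
    have e2 := h.perpL.2 (gp' (u' ⊗ₜ v') (by simp [hv'])) _ (k v hv u)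
    have e3 := (h.perpL (x := a u ⊗ₜ β' v)).2 (by simp [kb v hv]) _ (k v' hv' u')
    rw [polar_sub_left, e1] at e2
    rw [polar_comm, polar_sub_right] at e3
    rw [← h.pure, ← h.pure]
    linear_combination -e2 - e3
  obtain ⟨ρ, pa⟩ : ∃ ρ : F, ∀ u v, ρ * p (a u) (a v) = p u v := by
    obtain ⟨v, hv, hv'⟩ := exists_ker_not_mem h.l3 (β w) w
    obtain ⟨v', e1, e2⟩ := exists_orth_one h.ndW h.rW (F ∙ w) hv'
    exact ⟨_, fun u u' => by
      rw [mul_comm, kp v v' hv (e1 w (Submodule.mem_span_singleton_self w)), e2, mul_one]⟩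
  have hρ0 : ρ ≠ 0 := by
    rintro rfl
    simpa [hu₁] using pa u₀ u₁
  have ha : ∀ u, g (u ⊗ₜ w) = ρ • a u ⊗ₜ w := fun u => by
    rw [ha₀, smul_tmul', show a₀ u = ρ • a u from sub_eq_zero.1 (h.ndU.1 _ fun v => by
      obtain ⟨v, rfl⟩ := LinearMap.injective_iff_surjective.1 ai v
      simp [pa₀, pa])]
  let π : W →ₗ[F] W := LinearMap.id - (β w).smulRight y - (ε • β y).smulRight w
  have hπ : ∀ x, π x = x - β w x • y - (ε * β y x) • w := fun _ => rfl
  have π1 : ∀ x, β w (π x) = 0 := fun x => by simp [hπ, hy, hw0]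
  have π2 : ∀ x, β y (π x) = 0 := fun x => by
    simp only [hπ, map_sub, map_smul, hy0, hε, smul_eq_mul]
    linear_combination (-β y x) * h.ee
  have k' : ∀ v u, g (u ⊗ₜ π v) - a u ⊗ₜ π (β' (π v)) ∈ LW F U w := fun v u => by
    rw [hπ (β' _), kb _ (π1 v), zero_smul, sub_zero, tmul_sub, tmul_smul, ← sub_add]
    exact add_mem (k _ (π1 v) u) ((LW F U w).smul_mem _ (tmul_mem_LW _ _))
  let b : W →ₗ[F] W := (ρ • ε • β y).smulRight w + (β w).smulRight y + π ∘ₗ β' ∘ₗ π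
  have hb : ∀ x, b x = (ρ * (ε * β y x)) • w + β w x • y + π (β' (π x)) := fun _ => rfl
  have e5 : ∀ x x', β (π x) (π x') = β x x' - β w x * β y x' - ε * β y x * β w x' :=
    fun x x' => by
    rw [hπ x]
    simp only [map_sub β, LinearMap.sub_apply, map_smul β, LinearMap.smul_apply, π1, π2]
    simp only [hπ x', map_sub, map_smul, smul_eq_mul, h.sW w x, h.sW y x]
    linear_combination (-β w x * β y x') * h.ee
  have pb : ∀ x x', β (b x) (b x') = ρ * β x x' := fun x x' => by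
    have e4 : β (π (β' (π x))) (π (β' (π x'))) = ρ * β (π x) (π x') := by
      rw [e5, kb _ (π1 _), kb _ (π1 _)]
      linear_combination ρ * kp _ _ (π1 x) (π1 x') u₀ u₁ -
        β (β' (π x)) (β' (π x')) * (pa u₀ u₁ + hu₁) + ρ * β (π x) (π x') * hu₁
    simp only [hb, map_add, LinearMap.add_apply, map_smul, LinearMap.smul_apply, smul_eq_mul, π1,
      π2, h.rW _ _ (π1 _), h.rW _ _ (π2 _), hw0, hy0, hy, hε, e4]
    rw [e5]
    linear_combination (ρ * β w x * β y x') * h.ee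
  have bi : Function.Injective b := (injective_iff_map_eq_zero _).2 fun x hx =>
    h.ndW.1 x fun z => by simpa [hx, hρ0] using (pb x z).symm
  have hk := h.tb.congr_mem (a := LinearEquiv.ofInjectiveEndo a ai)
    (b := LinearEquiv.ofInjectiveEndo b bi) pa pb
  have hkT := isT_congr (LinearEquiv.ofInjectiveEndo a ai) (LinearEquiv.ofInjectiveEndo b bi)
  have ek : ∀ u v, TensorProduct.congr (LinearEquiv.ofInjectiveEndo a ai)
    (LinearEquiv.ofInjectiveEndo b bi) (u ⊗ₜ v) = a u ⊗ₜ b v := fun _ _ => rfl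
  generalize TensorProduct.congr (LinearEquiv.ofInjectiveEndo a ai)
    (LinearEquiv.ofInjectiveEndo b bi) = κ at hk hkT ek
  have bw : b w = ρ • w := by simp [hb, hε, hw0, hπ, h.ee]
  have f : ∀ u, (κ⁻¹ * g) (u ⊗ₜ w) = u ⊗ₜ w := fun u => by
    rw [LinearEquiv.mul_apply, LinearEquiv.coe_inv, LinearEquiv.symm_apply_eq, ha, ek, bw,
      tmul_smul]
  have e : ∀ x, cW U (β w) x = 0 → (κ⁻¹ * g) x - x ∈ LW F U w := fun x hx => by
    rw [← Submodule.Quotient.mk_eq_zero]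
    refine eq_zero_of_ker (f := (LW F U w).mkQ ∘ₗ ((κ⁻¹ * g).toLinearMap - LinearMap.id))
      (φ := β w) (fun e => by simp [e] at hy) (fun u z hz => ?_) hx
    refine (Submodule.Quotient.mk_eq_zero _).2 ?_
    obtain ⟨u', e⟩ : g (u ⊗ₜ z) - κ (u ⊗ₜ z) ∈ LW F U w := by
      convert k' z u using 1
      rw [ek, hb, show u ⊗ₜ π z = u ⊗ₜ[F] z - (ε * β y z) • u ⊗ₜ w by simp [hπ, hz, tmul_sub],
        map_sub g, map_smul, ha, hz]
      simp only [tmul_add, tmul_smul]; module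
    obtain ⟨u', rfl⟩ := LinearMap.injective_iff_surjective.1 ai u'
    refine ⟨ρ⁻¹ • u', κ.injective ?_⟩
    simpa [ek, bw, ← smul_tmul', smul_smul, hρ0] using e
  have d := h.unip hL0 ((OG Q).mul_mem ((OG Q).inv_mem (h.inv κ hk hkT)) (OM.og (h.hM hg)))
    (by rintro _ ⟨u, rfl⟩; exact f u) fun y hy => e y (h.perpL.1 hy)
  have hκ := h.hH κ ((OM Q).inv_mem_iff.1 (((OM Q).mul_mem_cancel_right (h.hM hg)).1 d)) hkT
  obtain ⟨ν, hν⟩ := d1a _ (M.mul_mem (M.inv_mem hκ) hg) f e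
  exact ((tSub F U W).mul_mem_cancel_left ((tSub F U W).inv_mem hkT)).1 (isT_of_left hν)

end TO

end Cfsg.Agent.Max2
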