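import Mathlib
import Cfsg.Agent.Max2.TO

/-!
# `Sp(U) ⊗ Sp(W)` in `Ω⁺(U ⊗ W)`: long root elements
-/

set_option autoImplicit false

namespace Cfsg.Agent.Max2

open Module Cfsg.Agent.Max TensorProduct Classical.SpWitt Cfsg.Agent.Orth QuadraticMap

variable {F U W : Type*} [Field F] [AddCommGroup U] [Module F U] [AddCommGroup W] [Module F W]

theorem grow_sp [FiniteDimensional F W] {β : LinearMap.BilinForm F W} (hB : β.Nondegenerate)
    (hR : β.IsRefl) {Y : Submodule F W} {w a : W} (haw : a ∉ F ∙ w)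
    (hY : ∀ v, β w v = 0 → β a v • v ∈ Y) (v : W) (hv : β w v = 0) : v ∈ Y := by
  obtain ⟨z, h1, h2⟩ := exists_orth_one hB hR _ haw
  have h3 := h1 w (Submodule.mem_span_singleton_self w)
  by_cases h : β a v = 0
  · simpa [h, h2] using Y.sub_mem (hY (v + z) (by simp [hv, h3])) (hY z h3)
  · exact (Y.smul_mem_iff h).1 (hY v hv)

theorem span_two [FiniteDimensional F U] {p : LinearMap.BilinForm F U} (hA : p.IsAlt)
    (hl : finrank F U ≤ 2) {w y : U} (hy : p w y = 1) (x : U) : x = p w x • y - p y x • w := by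
  have h1 : Submodule.span F {w, y} = ⊤ := Submodule.eq_top_of_finrank_eq (le_antisymm
    (Submodule.finrank_le _) (by
      rw [finrank_span_pair_eq (pair_linearIndependent hA (by simp [hy]))]; exact hl))
  obtain ⟨a, b, rfl⟩ := Submodule.mem_span_pair.1 (h1 ▸ Submodule.mem_top (x := x))
  simp [hy, hA w, hA y, ← hA.neg_eq w y, add_comm]

theorem OE.zero_left {V : Type*} [AddCommGroup V] [Module F V] {Q : QuadraticForm F V}
    {M : Subgroup (OG Q)} (v : V) : v ∈ OE M (0 : V) := ⟨by simp, fun c => by simp⟩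

theorem eich_mem_of_R {V : Type*} [AddCommGroup V] [Module F V] {Q : QuadraticForm F V}
    {M : Subgroup (V ≃ₗ[F] V)} {N : V →ₗ[F] V} (h : R M N) {t : OG Q} (e : ∀ x, t.1 x = x + N x) :
    t ∈ M.subgroupOf (OG Q) := by
  obtain ⟨g, hg, e'⟩ := h
  rwa [Subgroup.mem_subgroupOf, show t.1 = g from LinearEquiv.ext fun x => by rw [e, e']]

namespace TO

variable {ε : F} {p : LinearMap.BilinForm F U} {β : LinearMap.BilinForm F W}
  {Q : QuadraticForm F (U ⊗[F] W)} {M : Subgroup ((U ⊗[F] W) ≃ₗ[F] (U ⊗[F] W))}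
  (h : TO ε p β Q M)
include h

theorem oe_map {x y : U ⊗[F] W} (e : y ∈ OE (M.subgroupOf (OG Q)) x)
    {g : (U ⊗[F] W) ≃ₗ[F] (U ⊗[F] W)} (hg : g ∈ M) : g y ∈ OE (M.subgroupOf (OG Q)) (g x) :=
  OE.map e (g := ⟨g, OM.og (h.hM hg)⟩) hg

theorem oe_sub {x y : U ⊗[F] W} (e : y ∈ OE (M.subgroupOf (OG Q)) x)
    {g : (U ⊗[F] W) ≃ₗ[F] (U ⊗[F] W)} (hg : g ∈ M) (f : g x = x) :
    g y - y ∈ OE (M.subgroupOf (OG Q)) x := sub_mem (f ▸ h.oe_map e hg :) e

theorem perpR {u : U} {x : U ⊗[F] W} :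
    (∀ y ∈ RW F W u, polar Q y x = 0) ↔ cU W (p u) x = 0 :=
  ⟨fun e => h.ndW.2 _ fun w => by rw [← h.right]; exact e _ (tmul_mem_RW _ _), by
    rintro e _ ⟨w, rfl⟩; rw [mk_apply, h.right, e, map_zero]⟩

end TO

/-- An overgroup `M` of `Sp(U) ⊗ Sp(W)` in `Ω(U ⊗ W)`. -/
structure SS (p : LinearMap.BilinForm F U) (β : LinearMap.BilinForm F W)
    (Q : QuadraticForm F (U ⊗[F] W)) (M : Subgroup ((U ⊗[F] W) ≃ₗ[F] (U ⊗[F] W))) : Prop
    extends TO (-1) p β Q M where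
  aU : p.IsAlt
  aW : β.IsAlt
  q0 : ∀ u w, Q (u ⊗ₜ w) = 0
  l5 : 5 ≤ finrank F W
  kl : finrank F U < finrank F W

theorem SS.mk' {p : LinearMap.BilinForm F U} {β : LinearMap.BilinForm F W}
    {Q : QuadraticForm F (U ⊗[F] W)} {M : Subgroup ((U ⊗[F] W) ≃ₗ[F] (U ⊗[F] W))}
    (ndU : p.Nondegenerate) (ndW : β.Nondegenerate) (aU : p.IsAlt) (aW : β.IsAlt)
    (tb : TB Q.polarBilin p β) (q0 : ∀ u w, Q (u ⊗ₜ w) = 0) (k2 : 2 ≤ finrank F U)
    (l5 : 5 ≤ finrank F W) (kl : finrank F U < finrank F W) (hH : ∀ g ∈ OM Q, IsT g → g ∈ M)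
    (hM : M ≤ OM Q) : SS p β Q M :=
  ⟨⟨by simp, fun x y => by simp [aU.neg_eq], fun x y => by simp [aW.neg_eq], ndU, ndW, tb,
    fun g hg ⟨a, b, e⟩ x => by
      induction x with
      | zero => simp
      | tmul u w => rw [e, q0, q0]
      | add x y hx hy => rw [map_add, q_add, q_add, hx, hy]; congr 1; exact hg x y,
    k2, by omega, hH, hM⟩, aU, aW, q0, l5, kl⟩

namespace SS

variable {p : LinearMap.BilinForm F U} {β : LinearMap.BilinForm F W}
  {Q : QuadraticForm F (U ⊗[F] W)} {M : Subgroup ((U ⊗[F] W) ≃ₗ[F] (U ⊗[F] W))}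
  (h : SS p β Q M)
include h

theorem singL (w : W) : Sing Q (LW F U w) := by rintro _ ⟨u, rfl⟩; exact h.q0 u w

theorem AA (γ γ' : U →ₗ[F] U) (w : W) (x : U ⊗[F] W) :
    Dm γ (β w) w (Dm γ' (β w) w x) = 0 := Dm_Dm _ _ _ _ (h.aW w) x

theorem tvW (w : W) (c : F) (x : U ⊗[F] W) :
    TensorProduct.congr (1 : U ≃ₗ[F] U) (Classical.SpWitt.tv h.aW w (-c)).1 x =
      x + c • Dm LinearMap.id (β w) w x := by
  induction x with
  | zero => simp
  | tmul u v =>
    simp [Classical.SpWitt.tv_apply, Dm_apply, tmul_add, smul_tmul', smul_smul, ← h.aW.neg_eq w v]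
  | add x y hx hy => simp only [map_add, hx, hy]; module

theorem tvU (u : U) (c : F) (x : U ⊗[F] W) :
    TensorProduct.congr (Classical.SpWitt.tv h.aU u (-c)).1 (1 : W ≃ₗ[F] W) x =
      x + c • u ⊗ₜ cU W (p u) x := by
  induction x with
  | zero => simp
  | tmul a v =>
    simp [Classical.SpWitt.tv_apply, add_tmul, smul_tmul', smul_smul, ← h.aU.neg_eq u a]
  | add x y hx hy => simp only [map_add, hx, hy, tmul_add]; module

variable [FiniteDimensional F U] [FiniteDimensional F W]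

theorem memW {b : W ≃ₗ[F] W} (hb : b ∈ SG β) : TensorProduct.congr (1 : U ≃ₗ[F] U) b ∈ M := by
  have k : ∀ b : SG β, TensorProduct.congr (1 : U ≃ₗ[F] U) b.1 ∈ OG Q := fun b => h.inv _
    (h.tb.congr_mem (μ := 1) (by simp) (fun u v => by simp [b.2 u v])) (isT_congr _ _)
  have := eq_top_of_tv h.ndW h.aW ((OM Q).comap (MonoidHom.mk'
    (fun b : SG β => TensorProduct.congr (1 : U ≃ₗ[F] U) b.1)
    fun a b => by simpa using congr_mul 1 a.1 1 b.1)) fun v c => by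
      rw [← neg_neg c]
      exact h.unip (g := TensorProduct.congr _ _) (h.singL v) (k _) (fun x hx => by
        rw [h.tvW, Dm_LW _ _ (h.aW v) hx]; simp) fun y _ => by
        rw [h.tvW, add_sub_cancel_left]; exact Submodule.smul_mem _ _ (Dm_mem _ _ _ _)
  exact h.hH _ (this ▸ Subgroup.mem_top (⟨b, hb⟩ : SG β) :) (isT_congr _ _)

theorem memU {a : U ≃ₗ[F] U} (ha : a ∈ SG p) : TensorProduct.congr a (1 : W ≃ₗ[F] W) ∈ M := by
  have k : ∀ a : SG p, TensorProduct.congr a.1 (1 : W ≃ₗ[F] W) ∈ OG Q := fun a => h.inv _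
    (h.tb.congr_mem (μ := 1) (fun u v => by simp [a.2 u v]) (by simp)) (isT_congr _ _)
  have := eq_top_of_tv h.ndU h.aU ((OM Q).comap (MonoidHom.mk'
    (fun a : SG p => TensorProduct.congr a.1 (1 : W ≃ₗ[F] W))
    fun a b => by simpa using congr_mul a.1 1 b.1 1)) fun u c => by
      rw [← neg_neg c]
      exact h.unip (g := TensorProduct.congr _ _) (L := RW F W u)
        (by rintro _ ⟨w, rfl⟩; exact h.q0 u w) (k _)
        (by rintro _ ⟨w, rfl⟩; rw [h.tvU]; simp [h.aU u]) fun y _ => by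
        rw [h.tvU, add_sub_cancel_left]; exact Submodule.smul_mem _ _ (tmul_mem_RW _ _)
  exact h.hH _ (this ▸ Subgroup.mem_top (⟨a, ha⟩ : SG p) :) (isT_congr _ _)

theorem rootT (w : W) (c : F) :
    ∃ g ∈ M, IsT g ∧ ∀ x, g x = x + c • Dm LinearMap.id (β w) w x :=
  ⟨_, h.memW (Classical.SpWitt.tv h.aW w (-c)).2, isT_congr _ _, h.tvW w c⟩

theorem rootU (u : U) (c : F) : ∃ g ∈ M, ∀ x, g x = x + c • u ⊗ₜ cU W (p u) x :=
  ⟨_, h.memU (Classical.SpWitt.tv h.aU u (-c)).2, h.tvU u c⟩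

omit [FiniteDimensional F U] in
theorem hyp (w t : W) : ∃ b v, β w b = 0 ∧ β t b = 0 ∧ β w v = 0 ∧ β t v = 0 ∧ β b v = 1 ∧
    b ∉ Submodule.span F {w, t} := by
  obtain ⟨b, hb, hb'⟩ : ∃ b ∈ LinearMap.ker (β w) ⊓ LinearMap.ker (β t),
      b ∉ Submodule.span F {w, t} := by
    by_contra e
    push Not at e
    have d1 := finrank_le_inf_ker (⊤ : Submodule F W) (β w)
    have d2 := finrank_le_inf_ker (LinearMap.ker (β w)) (β t)
    have := (Submodule.finrank_mono e).trans (Max.finrank_span_pair_le w t)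
    rw [top_inf_eq, finrank_top] at d1
    have := h.l5
    omega
  obtain ⟨v, e1, e2⟩ := exists_orth_one h.ndW h.rW _ hb'
  exact ⟨b, v, hb.1, hb.2, e1 w (Submodule.subset_span (by simp)),
    e1 t (Submodule.subset_span (by simp)), e2, hb'⟩

variable [Finite F]

theorem le_of_one {u : U} {w a : W} (hu : u ≠ 0) (hw : w ≠ 0) (haw : a ∉ F ∙ w)
    (e : u ⊗ₜ a ∈ OE (M.subgroupOf (OG Q)) (u ⊗ₜ w)) :
    commutator (OG Q) ≤ M.subgroupOf (OG Q) := by
  have h0 := grow_sp h.ndW h.rW (Y := (OE (M.subgroupOf (OG Q)) (u ⊗ₜ w)).comap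
    (TensorProduct.mk F U W u)) haw fun v hv => by
      obtain ⟨g, hg, -, eg⟩ := h.rootT v (-1)
      have := h.oe_sub e hg (by simp [eg, Dm_apply, h.rW _ _ hv])
      simpa [eg, Dm_apply, smul_tmul', ← h.aW.neg_eq a v, neg_tmul] using this
  have h1 : ∀ u w v, β w v = 0 → u ⊗ₜ v ∈ OE (M.subgroupOf (OG Q)) (u ⊗ₜ w) := by
    intro u' w' v hv
    by_cases e1 : u' = 0
    · simp [e1]
    by_cases e2 : w' = 0
    · simpa [e2] using OE.zero_left _
    obtain ⟨a, rfl⟩ := Classical.SpWitt.witt_one h.ndU h.aU hu e1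
    obtain ⟨b, rfl⟩ := Classical.SpWitt.witt_one h.ndW h.aW hw e2
    obtain ⟨v, rfl⟩ := b.1.surjective v
    simpa using h.oe_map (h.oe_map (h0 v (by rwa [b.2] at hv)) (h.memU a.2)) (h.memW b.2)
  have h2 : ∀ u w a t, β w t = 0 → a ⊗ₜ t ∈ OE (M.subgroupOf (OG Q)) (u ⊗ₜ w) := by
    intro u w a t ht
    by_cases hu : u = 0
    · simpa [hu] using OE.zero_left _
    obtain ⟨b, v, e1, e2, e3, e4, e5, -⟩ := h.hyp w t
    have k : ∀ a, p a u • a ⊗ₜ t ∈ OE (M.subgroupOf (OG Q)) (u ⊗ₜ w) := fun a => by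
      simpa [h.pure, h.q0, e4, e5] using OE.grow (h1 u w v e3) (h.q0 a t) (h1 a t b e2)
        (by simp [h.pure, h.rW _ _ ht]) (by simp [h.pure, h.rW _ _ e1])
    obtain ⟨z, hz⟩ := exists_one h.ndU h.rU hu
    have hz' : p z u = -1 := by rw [← h.aU.neg_eq, hz]
    by_cases ha : p a u = 0
    · simpa [ha, hz', add_tmul] using sub_mem (k z) (k (a + z))
    · exact (Submodule.smul_mem_iff _ ha).1 (k a)
  obtain ⟨d, hd⟩ := exists_one h.ndU h.rU hu
  have h3 : ∀ a w, w ≠ 0 → OP (M.subgroupOf (OG Q)) (a ⊗ₜ w) := fun a w hw => ⟨h.q0 a w,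
    fun x hx => by
      obtain ⟨f, hf⟩ := exists_one h.ndW h.rW hw
      obtain ⟨t, s, e1, e2, e3, e4, e5, -⟩ := h.hyp w f
      rw [h.left] at hx
      have k := OE.grow (h2 a w d s e3) (h.q0 (cW U (β w) x) f) (h2 _ f u t e2)
        (by simp [h.pure, h.rU _ _ hx]) (by rw [h.pure, h.rW _ _ e1, mul_zero])
      simp only [h.pure, hd, e5, e4, mul_zero, zero_smul, sub_zero, one_smul, mul_one] at k
      have := eq_zero_of_ker (f := (OE (M.subgroupOf (OG Q)) (a ⊗ₜ w)).mkQ) (φ := β w)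
        (fun e => by simp [e] at hf) (fun b t ht => (Submodule.Quotient.mk_eq_zero _).2
          (h2 a w b t ht)) (x := x - cW U (β w) x ⊗ₜ f) (by simp [hf])
      simpa using add_mem ((Submodule.Quotient.mk_eq_zero _).1 this) k⟩
  obtain ⟨f, hf⟩ := exists_one h.ndW h.rW hw
  exact om_le_of_pair h.nd h.n5 (h3 u w hw) (h3 d f (by rintro rfl; simp at hf))
    (by simp [h.pure, hd, hf])

theorem le_of_not_std (hS : ¬ SpO.Std β M) : commutator (OG Q) ≤ M.subgroupOf (OG Q) := by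
  simp only [SpO.Std, not_forall, not_exists] at hS
  obtain ⟨w, hw, g, hg, e, hS⟩ := hS
  obtain ⟨y, hy⟩ := exists_one h.ndW h.rW hw
  have hy' : β y w = -1 := by rw [← h.aW.neg_eq, hy]
  obtain ⟨γ, hγ⟩ := h.zform hy hg e
  obtain ⟨n, hn⟩ := exists_not_eigen (γ := γ) fun c hc => by
    obtain ⟨x, hx⟩ := hS c
    exact hx (by simp [hγ, hc, Dm_apply, smul_tmul'])
  have hn0 : n ≠ 0 := by rintro rfl; simp at hn
  have a1 : ∀ u, p u (γ u) = 0 := fun u => by
    have := OM.og (h.hM hg) (u ⊗ₜ y)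
    simpa [hγ, q_add, Dm_apply, h.q0, h.pure, hy, hy'] using this
  have a2 : ∀ u, p n (γ u) = p (γ n) u := fun u => by
    have := a1 (n + u)
    simp only [map_add, LinearMap.add_apply, a1, ← h.aU.neg_eq (γ n) u] at this
    linear_combination this
  have h1 : γ n ⊗ₜ w ∈ OE (M.subgroupOf (OG Q)) (n ⊗ₜ w) := ⟨by simp [h.pure, a1], fun c => by
    obtain ⟨t, ht, et⟩ := h.rootU n c
    refine eich_mem_of_R (R.of_mul_inv (M.mul_mem (M.mul_mem ht hg) (M.inv_mem ht)) hg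
      (K := c • Dm ((p (γ n)).smulRight n - (p n).smulRight (γ n)) (β w) w) fun x => ?_)
      fun x => ?_
    · obtain ⟨x, rfl⟩ := t.surjective x
      have : cW U (β w) (t x) = cW U (β w) x + (c * p n (cW U (β w) x)) • n := by
        simp [et, dual_cU, smul_smul]
      simp only [LinearEquiv.mul_apply, LinearEquiv.coe_inv, LinearEquiv.symm_apply_apply, hγ,
        map_add t, map_add (cW U (β w)), Dm_apply, this, cW_tmul, h.aW.self_eq_zero,
        LinearMap.smul_apply, LinearMap.sub_apply, LinearMap.smulRight_apply]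
      simp only [et (_ ⊗ₜ w), cU_tmul, map_add, map_smul, a2, h.aU.self_eq_zero, h.rU _ _ (a1 n),
        add_tmul, sub_tmul, ← smul_tmul', tmul_smul, zero_smul, add_zero, smul_eq_mul]
      module
    · rw [eich_apply (h.q0 n w) (by simp [h.pure, a1])]
      simp only [q_smul, h.q0, p_smul_left, h.left, Dm_apply, LinearMap.smul_apply,
        LinearMap.sub_apply, LinearMap.smulRight_apply, sub_tmul, ← smul_tmul']
      module⟩
  have h2 := grow_sp h.ndU h.rU (Y := (OE (M.subgroupOf (OG Q)) (n ⊗ₜ w)).comap (inW F U w)) hn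
    fun v hv => by
      obtain ⟨g, hg, eg⟩ := h.rootU v (-1)
      have := h.oe_sub h1 hg (by simp [eg, h.rU _ _ hv])
      simpa [eg, ← smul_tmul', ← h.aU.neg_eq (γ n) v, tmul_neg] using this
  obtain ⟨b, e1, e2⟩ := exists_orth_one h.ndU h.rU _ hn
  have e3 := e1 n (Submodule.mem_span_singleton_self n)
  obtain ⟨t, ht⟩ := Classical.SpWitt.witt_one h.ndW h.aW hw (v := y) (by rintro rfl; simp at hy)
  have h3 := h.oe_map (h2 b e3) (h.memW t.2)
  simp only [inW_apply, congr_tmul, ht, LinearEquiv.coe_one, id] at h3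
  refine h.le_of_one hn0 hw (a := y) (fun e => ?_) ?_
  · obtain ⟨c, rfl⟩ := Submodule.mem_span_singleton.1 e
    simp [h.aW w] at hy
  · simpa [h.pure, h.q0, a1, ← h.aU.neg_eq (γ n) b, e2, hy'] using OE.grow h1 (h.q0 n y) h3
      (by simp [h.pure, h.aU n]) (by simp [h.pure, h.rU _ _ e3])

theorem two_one (hk : finrank F U ≤ 2) {u : U} {w : W} (hu : u ≠ 0) (hw : w ≠ 0) {y : U ⊗[F] W}
    (hy : y ∈ OE (M.subgroupOf (OG Q)) (u ⊗ₜ w)) (hy' : y ∉ LW F U w) :
    commutator (OG Q) ≤ M.subgroupOf (OG Q) := by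
  let f : W →ₗ[F] U := ⟨⟨fun v => cW U (β v) y, fun a b => by rw [map_add, cW_add]⟩,
    fun c a => by simp [cW_smul]⟩
  obtain ⟨v, e1, e2, e3⟩ := exists_not_mem_two (W := LinearMap.ker (β w)) (X := LinearMap.ker f)
    (Y := F ∙ w) (fun e => hy' (h.memL hw fun v hv => e (h.rW _ _ hv))) fun e => by
      obtain ⟨v, h1, h2⟩ := exists_ker_not_mem h.l3 (β w) w
      exact h2 (e h1)
  obtain ⟨g, hg, -, eg⟩ := h.rootT v 1
  have h1 : f v ⊗ₜ v ∈ OE (M.subgroupOf (OG Q)) (u ⊗ₜ w) := by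
    simpa [eg, Dm_apply, f] using h.oe_sub hy hg (by simp [eg, Dm_apply, h.rW _ _ e1])
  refine h.le_of_one hu hw e3 ?_
  obtain ⟨d, hd⟩ := exists_one h.ndU h.rU hu
  by_cases h0 : p u (f v) = 0
  · have := span_two h.aU hk hd (f v)
    rw [h0, zero_smul, zero_sub, ← neg_smul] at this
    rw [this, ← smul_tmul'] at h1
    exact (Submodule.smul_mem_iff _ fun e => e2 (by rw [LinearMap.mem_ker, this, e]; simp)).1 h1
  · obtain ⟨t, ht, et⟩ := h.rootU u 1
    exact (Submodule.smul_mem_iff _ h0).1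
      (by simpa [et] using h.oe_sub h1 ht (by simp [et, h.aU u]))

theorem two_two (hk : finrank F U ≤ 2) {c : F} (hc0 : c ≠ 0) (hc1 : c ≠ 1) {x y : U ⊗[F] W}
    (hx : ∀ d, x ∉ LW F U d) (hx0 : Q x = 0) (hy : y ∈ OE (M.subgroupOf (OG Q)) x)
    (hy' : y ∉ F ∙ x) : commutator (OG Q) ≤ M.subgroupOf (OG Q) := by
  have := h.ntU
  obtain ⟨e, he⟩ := exists_ne (0 : U)
  obtain ⟨f, hf⟩ := exists_one h.ndU h.rU he
  have hf' : p f e = -1 := by rw [← h.aU.neg_eq, hf]
  have fin : ∀ d, d ≠ 0 → e ⊗ₜ d ∈ OE (M.subgroupOf (OG Q)) x →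
      commutator (OG Q) ≤ M.subgroupOf (OG Q) := fun d hd hm =>
    h.two_one hk he hd (OE.swap hx0 (h.q0 _ _) hm) (hx d)
  have dc : ∀ x : U ⊗[F] W, x = f ⊗ₜ cU W (p e) x - e ⊗ₜ cU W (p f) x := fun x => by
    induction x with
    | zero => simp
    | tmul u v =>
      conv_lhs => rw [span_two h.aU hk hf u]
      simp [sub_tmul, smul_tmul']
    | add a b ha hb =>
      conv_lhs => rw [ha, hb]
      simp only [map_add, tmul_add]; abel
  have dx := dc x
  generalize hw₁ : cU W (p f) x = w₁ at dx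
  generalize hw₂ : cU W (p e) x = w₂ at dx
  have w0 : w₂ ≠ 0 := by rintro rfl; exact hx w₁ ⟨-e, by simp [dx, neg_tmul]⟩
  have w1 : w₁ ∉ F ∙ w₂ := fun e' => by
    obtain ⟨a, rfl⟩ := Submodule.mem_span_singleton.1 e'
    exact hx w₂ ⟨f - a • e, by simp [dx, sub_tmul, smul_tmul']⟩
  have ww : β w₂ w₁ = 0 := by simpa [dx, q_sub, h.q0, h.pure, hf'] using hx0
  by_cases hy₂ : cU W (p e) y ∈ F ∙ w₂
  · obtain ⟨a, ha⟩ := Submodule.mem_span_singleton.1 hy₂
    have h1 := dc (a • x - y)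
    rw [map_sub, map_smul, hw₂, ha, sub_self, tmul_zero, zero_sub, ← tmul_neg] at h1
    refine fin _ (fun e => hy' (Submodule.mem_span_singleton.2 ⟨a, sub_eq_zero.1 ?_⟩))
      (h1 ▸ sub_mem (Submodule.smul_mem _ a (OE.self hx0)) hy)
    rw [h1, e, tmul_zero]
  have nk : ∀ {a}, a ∉ F ∙ w₂ → ¬ LinearMap.ker (β w₂) ≤ LinearMap.ker (β a) := fun ha e => by
    obtain ⟨z, e1, e2⟩ := exists_orth_one h.ndW h.rW _ ha
    simpa [e2] using e (e1 w₂ (Submodule.mem_span_singleton_self w₂))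
  obtain ⟨v, v1, v2, v3⟩ : ∃ v, β w₂ v = 0 ∧ β v w₁ = 1 ∧ β v (cU W (p e) y) ≠ 0 := by
    obtain ⟨v, v1, v2, v3⟩ := exists_not_mem_two (nk w1) (nk hy₂)
    have v2' : β v w₁ ≠ 0 := fun e => v2 (h.rW _ _ e)
    exact ⟨(β v w₁)⁻¹ • v, by simp [show β w₂ v = 0 from v1], by simp [v2'], by
      simpa [v2'] using fun e => v3 (h.rW _ _ e)⟩
  have k : ∀ t : F, t • (e ⊗ₜ cU W (p e) y + (sS β w₂ v).lTensor U y) +
      (t * t) • e ⊗ₜ sS β w₂ v (cU W (p e) y) ∈ OE (M.subgroupOf (OG Q)) x := fun t => by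
    have v4 : β w₂ (t • v) = 0 := by simp [v1]
    obtain ⟨s, hs, es⟩ := h.rootU e t
    have e1 : ∀ z, (s * TensorProduct.congr 1 (uni _ (sS_sq h.aW v4)) : _ ≃ₗ[F] _) z - z =
        t • (e ⊗ₜ cU W (p e) z + (sS β w₂ v).lTensor U z) +
          (t * t) • e ⊗ₜ sS β w₂ v (cU W (p e) z) := fun z => by
      induction z with
      | zero => simp
      | tmul a b =>
        simp only [LinearEquiv.mul_apply, congr_tmul, es, uni_apply, sS_apply, cU_tmul,
          LinearMap.lTensor_tmul, tmul_add, tmul_smul, map_smul, map_add, LinearEquiv.coe_one, id,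
          LinearMap.smul_apply, smul_eq_mul]
        module
      | add a b ha hb =>
        simp only [map_add, tmul_add] at ha hb ⊢
        linear_combination (norm := module) ha + hb
    rw [← e1]
    refine h.oe_sub hy (M.mul_mem hs (h.memW (uni_sS_mem h.aW v4 _))) (sub_eq_zero.1 ?_)
    rw [e1, hw₂, dx]
    simp [h.aW w₂, h.rW _ _ v1, v2, ww]
  refine fin (sS β w₂ v (cU W (p e) y)) (fun e' => ?_) ?_
  · have := congrArg (fun z => β z w₁) e'
    simp only [sS_apply, map_add, map_smul, LinearMap.add_apply, LinearMap.smul_apply, ww, v2,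
      smul_eq_mul, map_zero, LinearMap.zero_apply] at this
    rw [sS_apply, show β w₂ (cU W (p e) y) = 0 by simpa using this] at e'
    simp [v3, w0] at e'
  · refine (Submodule.smul_mem_iff _ (mul_ne_zero hc0 (sub_ne_zero.2 hc1))).1 ?_
    convert sub_mem (k c) (Submodule.smul_mem _ c (k 1)) using 1
    module

theorem two_case (hk : finrank F U ≤ 2) {c : F} (hc0 : c ≠ 0) (hc1 : c ≠ 1)
    {m : (U ⊗[F] W) ≃ₗ[F] (U ⊗[F] W)} (hm : m ∈ M) (hn : ¬ IsT m) :
    commutator (OG Q) ≤ M.subgroupOf (OG Q) := by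
  have := h.ntU
  by_contra hc
  refine hn (isT_of_lines (by have := h.l3; omega) fun w => ?_)
  by_cases hw : w = 0
  · exact ⟨0, fun u => by simp [hw]⟩
  obtain ⟨e, he⟩ := exists_ne (0 : U)
  obtain ⟨f, hf⟩ := exists_one h.ndU h.rU he
  have k : ∀ u, m (u ⊗ₜ w) ∈ OE (M.subgroupOf (OG Q)) (m (e ⊗ₜ w)) := fun u =>
    h.oe_map ⟨by simp [h.pure, h.aW w], fun c => by
      obtain ⟨t, ht, -, et⟩ := h.rootT w (-(c * p e u))
      refine eich_mem_of_R (N := -(c * p e u) • Dm LinearMap.id (β w) w) ⟨t, ht, et⟩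
        fun x => ?_
      rw [eich_apply (h.q0 e w) (by simp [h.pure, h.aW w])]
      simp only [q_smul, h.q0, p_smul_left, h.left, Dm_apply, LinearMap.smul_apply,
        LinearMap.id_apply]
      generalize cW U (β w) x = z
      rw [span_two h.aU hk hf u, span_two h.aU hk hf z]
      simp only [map_sub, map_smul, LinearMap.sub_apply, LinearMap.smul_apply, hf,
        h.aU.self_eq_zero, ← h.aU.neg_eq e f, sub_tmul, ← smul_tmul', smul_eq_mul]
      module⟩ hm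
  have x0 : m (e ⊗ₜ w) ≠ 0 := by simpa using tmul_ne_zero he hw
  by_cases hx : ∃ d, m (e ⊗ₜ w) ∈ LW F U d
  · obtain ⟨d, u, hu⟩ := hx
    rw [inW_apply] at hu
    exact ⟨d, fun a => by_contra fun e' => hc (h.two_one hk (u := u) (w := d)
      (by rintro rfl; simp [← hu] at x0) (by rintro rfl; simp [← hu] at x0) (hu ▸ k a) e')⟩
  push Not at hx
  refine absurd (h.two_two hk hc0 hc1 hx (by rw [OM.og (h.hM hm), h.q0]) (k f) fun e' => ?_) hc
  obtain ⟨a, ha⟩ := Submodule.mem_span_singleton.1 e'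
  rw [← map_smul, m.injective.eq_iff, smul_tmul'] at ha
  simpa [h.aU e, hf] using congrArg (p e) (tmul_left_inj hw ha)

end SS

end Cfsg.Agent.Max2
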