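import Mathlib
import Cfsg.Agent.Max2.SS1
import Cfsg.Agent.Max2.OExt1

/-!
# `O(U) ⊗ O(W)` in `Ω(U ⊗ W)`: long root elements
-/

set_option autoImplicit false

namespace Cfsg.Agent.Max2

open Module Cfsg.Agent.Max TensorProduct Classical.SpWitt Cfsg.Agent.Orth QuadraticMap

section Orth

variable {F U : Type*} [Field F] [AddCommGroup U] [Module F U] {P : QuadraticForm F U}

theorem mem_of_sq (h2 : (2 : F) ≠ 0) {A : AddSubgroup U} {v : U} (h : ∀ s : F, s ^ 2 • v ∈ A)
    (t : F) : t • v ∈ A := by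
  convert A.sub_mem (h ((t + 1) / 2)) (h ((t - 1) / 2)) using 1
  rw [← sub_smul]; congr 1; field_simp; ring

theorem mem_of_smul_sub {Y : Submodule F U} {a b : U} {r : F} (ha : a ∈ Y) (k : r • a - b ∈ Y) :
    b ∈ Y := by simpa using sub_mem (Y.smul_mem r ha) k

theorem mem_of_eich {Y : Submodule F U} {n m : U} (hn : P n = 0) (hnm : polar P n m ≠ 0)
    (h1 : n ∈ Y) (h2 : m ∈ Y) (hY : ∀ c, polar P n c = 0 → (eich P n c).1 m ∈ Y) (a : U) :
    a ∈ Y := by
  have ha : polar P n (a - (polar P n a / polar P n m) • m) = 0 := by simp [hnm]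
  have := hY _ ha
  rw [eich_apply hn ha] at this
  simpa using add_mem ((Y.smul_mem_iff hnm).1 ((Y.sub_mem_iff_right (add_mem h2
    (Y.smul_mem _ h1))).1 this)) (Y.smul_mem (polar P n a / polar P n m) h2)

theorem eich_symm {n c : U} (hn : P n = 0) (hc : polar P n c = 0) (x : U) :
    (eich P n c).1.symm x = (eich P n (-c)).1 x := by rw [← eich_inv hn hc]; rfl

theorem cjm_eich {n c : U} (hn : P n = 0) (hc : polar P n c = 0) (γ : U →ₗ[F] U) (x : U) :
    (cjm (eich P n c).1 γ + cjm (eich P n (-c)).1 γ - (γ + γ)) x =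
      (2 * (P c ^ 2 * polar P n x * polar P n (γ n) - P c * polar P n (γ x) -
        polar P c x * polar P c (γ n) + polar P n x * polar P c (γ c))) • n -
      (2 * P c * polar P n x) • γ n +
      (2 * (polar P c x * polar P n (γ n) - polar P n x * polar P n (γ c))) • c := by
  have hc' : polar P n (-c) = 0 := by simp [hc]
  simp only [LinearMap.sub_apply, LinearMap.add_apply, cjm_apply, eich_symm hn hc,
    eich_symm hn hc', neg_neg, eich_apply hn hc, eich_apply hn hc', map_sub, map_add, map_smul,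
    map_neg, QuadraticMap.map_neg, polar_neg_left, polar_neg_right, polar_add_right,
    polar_sub_right, p_smul_right]
  module

variable [FiniteDimensional F U]

theorem nds_hyp (hP : ND P) {e f : U} (he : P e = 0) (hf : P f = 0) (hef : polar P e f = 1) :
    NDS P (perp P (Submodule.span F {e, f})) := fun w hw h =>
  congrArg Subtype.val (hP.nd_perp_hyp he hf hef ⟨w, hw⟩ fun z => h z z.2)

theorem exists_ns_hyp (hP : ND P) (hk : 3 ≤ finrank F U) {e f : U} (he : P e = 0) (hf : P f = 0)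
    (hef : polar P e f = 1) : ∃ c, polar P e c = 0 ∧ polar P f c = 0 ∧ P c ≠ 0 := by
  have := hP.finrank_perp_hyp he hf hef
  obtain ⟨c, hc, h⟩ := (nds_hyp hP he hf hef).exists_nonsing (by omega)
  exact ⟨c, (mem_perp_pair.1 hc).1, (mem_perp_pair.1 hc).2, h⟩

variable [Finite F]

theorem skew_eigen (h2 : (2 : F) ≠ 0) (hP : ND P) (hk : 3 ≤ finrank F U) {γ : U →ₗ[F] U}
    (hs : ∀ u v, polar P (γ u) v = -polar P u (γ v)) (h0 : γ ≠ 0) :
    ∃ n, P n = 0 ∧ γ n ∉ F ∙ n := by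
  by_contra hc
  push Not at hc
  obtain ⟨a, -, ha, ha'⟩ := (nds_top hP).exists_sing (by rwa [finrank_top])
    (X := LinearMap.ker γ) fun e => h0 (LinearMap.ker_eq_top.1 (top_le_iff.1 e))
  obtain ⟨f, hf, hf0⟩ := hP.exists_hyp (by rintro rfl; simp at ha') ha
  obtain ⟨c, c1, c2, c3⟩ := exists_ns_hyp hP hk ha hf0 hf
  obtain ⟨l, hl⟩ := Submodule.mem_span_singleton.1 (hc a ha)
  obtain ⟨m, hm⟩ := Submodule.mem_span_singleton.1 (hc f hf0)
  obtain ⟨t, ht⟩ := Submodule.mem_span_singleton.1 (hc (a + c - P c • f)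
    (by simp [q_sub, q_add, q_smul, ha, hf0, hf, c1, polar_comm _ c f, c2]))
  have e1 := hs a f
  have e2 := hs (a + c - P c • f) f
  have e3 := hs (a + c - P c • f) a
  rw [← ht] at e2 e3
  simp only [← hl, ← hm, p_smul_left, p_smul_right, polar_sub_left, polar_add_left, p_self, ha,
    hf0, hf, polar_comm _ c, c1, c2, polar_comm _ f a] at e1 e2 e3
  refine ha' ?_
  rw [LinearMap.mem_ker, ← hl, show l = 0 from mul_left_cancel₀ (mul_ne_zero h2 c3)
    (by linear_combination P c * (e1 - e2) - e3), zero_smul]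

theorem sym_scalar (h2 : (2 : F) ≠ 0) (hP : ND P) (hk : 3 ≤ finrank F U)
    (hq : finrank F U = 3 → ∃ s : F, s ≠ 0 ∧ s ^ 2 ≠ 1) {γ : U →ₗ[F] U}
    (hs : ∀ u v, polar P (γ u) v = polar P u (γ v)) (h0 : ∀ n, P n = 0 → polar P n (γ n) = 0) :
    ∃ c : F, γ = c • LinearMap.id := by
  obtain ⟨n, hn0, hn⟩ := exists_singular P hk
  obtain ⟨f, hf, hf0⟩ := hP.exists_hyp hn0 hn
  refine ⟨polar P n (γ f), sub_eq_zero.1 ?_⟩
  have a1 : ∀ u v, polar P ((γ - polar P n (γ f) • LinearMap.id : U →ₗ[F] U) u) v =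
      polar P u ((γ - polar P n (γ f) • LinearMap.id : U →ₗ[F] U) v) := fun u v => by simp [hs]
  have a2 : ∀ x, P x = 0 → polar P x ((γ - polar P n (γ f) • LinearMap.id : U →ₗ[F] U) x) = 0 :=
    fun x hx => by simp [h0 x hx, hx]
  have a3 : polar P n ((γ - polar P n (γ f) • LinearMap.id : U →ₗ[F] U) f) = 0 := by simp [hf]
  generalize γ - polar P n (γ f) • LinearMap.id = δ at a1 a2 a3
  have sy : ∀ u v, polar P u (δ v) = polar P v (δ u) := fun u v => by rw [← a1, polar_comm]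
  have hU := nds_hyp hP hn hf0 hf
  have hd := hP.finrank_perp_hyp hn hf0 hf
  have k : ∀ c ∈ perp P (Submodule.span F {n, f}), ∀ t : F, t ≠ 0 → polar P c (δ c) = 0 ∧
      t ^ 2 * polar P n (δ c) = P c * polar P f (δ c) := fun c hc t ht => by
    obtain ⟨c1, c2⟩ := mem_perp_pair.1 hc
    have e : ∀ c, polar P n c = 0 → polar P f c = 0 → t * polar P c (δ c) +
        2 * (t ^ 2 * polar P n (δ c) - P c * polar P f (δ c)) = 0 := fun c c1 c2 => by
      have := a2 (t • n + c - (P c / t) • f) (by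
        simp [q_sub, q_add, q_smul, hn, hf0, hf, c1, polar_comm _ c f, c2, ht])
      simp only [map_sub, map_add, map_smul, polar_sub_left, polar_add_left, polar_sub_right,
        polar_add_right, p_smul_left, p_smul_right, a2 n hn, a2 f hf0, a3, sy f n, sy c n,
        sy c f] at this
      field_simp at this
      exact mul_left_cancel₀ ht (by linear_combination this)
    have e1 := e c c1 c2
    have e2 := e (-c) (by simp [c1]) (by simp [c2])
    simp only [map_neg, polar_neg_left, polar_neg_right, QuadraticMap.map_neg, neg_neg] at e2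
    exact ⟨mul_left_cancel₀ (mul_ne_zero h2 ht) (by linear_combination e1 + e2),
      mul_left_cancel₀ (mul_ne_zero h2 h2) (by linear_combination e1 - e2)⟩
  have k3 : perp P (Submodule.span F {n, f}) ≤ LinearMap.ker (P.polarBilin f ∘ₗ δ) := by
    refine ns_le h2 hU fun c hc hc0 => ?_
    change polar P f (δ c) = 0
    by_cases h3 : finrank F U = 3
    · obtain ⟨s, hs0, hs1⟩ := hq h3
      refine mul_left_cancel₀ (mul_ne_zero hc0 (sub_ne_zero.2 hs1)) ?_
      linear_combination (k c hc s hs0).2 - s ^ 2 * (k c hc 1 one_ne_zero).2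
    obtain ⟨⟨c', hc'⟩, e1, e2⟩ := hU.nd.exists_orth_nonsingular h2 (by omega) (u := ⟨c, hc⟩) hc0
    replace e1 : polar P c c' = 0 := e1
    replace e2 : P c' ≠ 0 := e2
    have b1 := (k c hc 1 one_ne_zero).2
    have b2 := (k _ (add_mem hc hc') 1 one_ne_zero).2
    have b3 := (k _ (sub_mem hc hc') 1 one_ne_zero).2
    simp only [q_add, q_sub, e1, map_add δ, map_sub δ, polar_add_right, polar_sub_right] at b2 b3
    exact mul_left_cancel₀ (mul_ne_zero h2 e2) (by linear_combination 2 * b1 - b2 - b3)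
  have k4 : ∀ c ∈ perp P (Submodule.span F {n, f}), ∀ x, polar P x (δ c) = 0 := fun c hc x => by
    have b1 : polar P f (δ c) = 0 := k3 hc
    have b2 : polar P n (δ c) = 0 := by simpa [b1] using (k c hc 1 one_ne_zero).2
    have hx := hyp_proj_mem hn hf0 hf x
    have b3 := (k _ (add_mem hc hx) 1 one_ne_zero).1
    rw [map_add, polar_add_left, polar_add_right, polar_add_right, (k c hc 1 one_ne_zero).1,
      (k _ hx 1 one_ne_zero).1, sy c] at b3
    simp only [polar_sub_left, p_smul_left, b1, b2] at b3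
    exact mul_left_cancel₀ h2 (by linear_combination b3)
  ext x
  refine hP _ fun y => ?_
  have b1 := k4 _ (hyp_proj_mem hn hf0 hf x) y
  have b2 := k4 _ (hyp_proj_mem hn hf0 hf y) n
  have b3 := k4 _ (hyp_proj_mem hn hf0 hf y) f
  simp only [map_sub, map_smul, polar_sub_right, p_smul_right, a2 n hn, a2 f hf0, a3, sy f n,
    sy y n, sy y f] at b1 b2 b3
  rw [polar_comm]
  linear_combination b1 + polar P f x * b2 + polar P n x * b3

end Orth

variable {F U W : Type*} [Field F] [AddCommGroup U] [Module F U] [AddCommGroup W] [Module F W]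

/-- An overgroup `M` of `O(U) ⊗ O(W)` in `Ω(U ⊗ W)`. -/
structure OO (P : QuadraticForm F U) (S : QuadraticForm F W) (Q : QuadraticForm F (U ⊗[F] W))
    (M : Subgroup ((U ⊗[F] W) ≃ₗ[F] (U ⊗[F] W))) : Prop
    extends TO 1 P.polarBilin S.polarBilin Q M where
  two : (2 : F) ≠ 0
  k3 : 3 ≤ finrank F U
  l5 : 5 ≤ finrank F W
  kl : finrank F U < finrank F W

namespace OO

variable {P : QuadraticForm F U} {S : QuadraticForm F W} {Q : QuadraticForm F (U ⊗[F] W)}
  {M : Subgroup ((U ⊗[F] W) ≃ₗ[F] (U ⊗[F] W))} (h : OO P S Q M)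
include h

theorem nU : ND P := (nd_iff P).2 h.ndU

theorem nW : ND S := (nd_iff S).2 h.ndW

theorem pu (u u' : U) (w w' : W) : polar Q (u ⊗ₜ w) (u' ⊗ₜ w') = polar P u u' * polar S w w' :=
  h.pure u u' w w'

theorem lf (u : U) (w : W) (x : U ⊗[F] W) :
    polar Q (u ⊗ₜ w) x = polar P u (cW U (S.polarBilin w) x) := h.left u w x

theorem qq (u : U) (w : W) : Q (u ⊗ₜ w) = 2 * P u * S w := mul_left_cancel₀ h.two (by
  have := h.pu u u w w
  simp only [p_self] at this
  linear_combination this)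

theorem singL {w : W} (hw : S w = 0) : Sing Q (LW F U w) := by
  rintro _ ⟨u, rfl⟩; simp [h.qq, hw]

theorem memU {a : OG P} (ha : a ∈ commutator (OG P)) :
    TensorProduct.congr a.1 (1 : W ≃ₗ[F] W) ∈ M :=
  h.hH _ ⟨_, map_mem_commutator (MonoidHom.mk' (fun a : OG P => (⟨_, h.inv _
    (h.tb.congr_mem (a := a.1) (b := 1) (μ := 1) (fun u v => by simp) (by simp))
    (isT_congr _ _)⟩ : OG Q)) fun a b => Subtype.ext (by simpa using congr_mul a.1 1 b.1 1)) ha,
    rfl⟩ (isT_congr _ _)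

theorem memW {b : OG S} (hb : b ∈ commutator (OG S)) :
    TensorProduct.congr (1 : U ≃ₗ[F] U) b.1 ∈ M :=
  h.hH _ ⟨_, map_mem_commutator (MonoidHom.mk' (fun b : OG S => (⟨_, h.inv _
    (h.tb.congr_mem (a := 1) (b := b.1) (μ := 1) (by simp) (fun u v => by simp))
    (isT_congr _ _)⟩ : OG Q)) fun a b => Subtype.ext (by simpa using congr_mul 1 a.1 1 b.1)) hb,
    rfl⟩ (isT_congr _ _)

variable [FiniteDimensional F U] [FiniteDimensional F W]

omit [FiniteDimensional F W] in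
theorem eU (n c : U) : TensorProduct.congr (eich P n c).1 (1 : W ≃ₗ[F] W) ∈ M :=
  h.memU (h.nU.eich_mem_commutator (good_of_two_ne_zero h.two) n c)

omit [FiniteDimensional F U] in
theorem eW (n c : W) : TensorProduct.congr (1 : U ≃ₗ[F] U) (eich S n c).1 ∈ M :=
  h.memW (h.nW.eich_mem_commutator (good_of_two_ne_zero h.two) n c)

variable [Finite F]

omit [FiniteDimensional F U] in
theorem trW {w w' : W} (hw : w ≠ 0) (hw' : w' ≠ 0) (e : S w = 0) (e' : S w' = 0) :
    ∃ b : W ≃ₗ[F] W, TensorProduct.congr (1 : U ≃ₗ[F] U) b ∈ M ∧ b w = w' :=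
  let ⟨b, hb, e⟩ := sing_trans h.nW (good_of_two_ne_zero h.two) (by have := h.l5; omega) hw hw' e e'
  ⟨b.1, h.memW hb, e⟩

theorem le_of_ns {n y : U} {w : W} (hn0 : n ≠ 0) (hn : P n = 0) (hy : P y ≠ 0)
    (hny : polar P n y = 0) (hw0 : w ≠ 0) (hw : S w = 0)
    (e : y ⊗ₜ w ∈ OE (M.subgroupOf (OG Q)) (n ⊗ₜ w)) :
    commutator (OG Q) ≤ M.subgroupOf (OG Q) := by
  have h2 := h.two
  have nn : polar P n n = 0 := by simp [hn]
  have h0 : ∀ w', w' ≠ 0 → S w' = 0 → y ⊗ₜ w' ∈ OE (M.subgroupOf (OG Q)) (n ⊗ₜ w') :=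
    fun w' e0 e1 => by
      obtain ⟨b, hb, rfl⟩ := h.trW hw0 e0 hw e1
      simpa using h.oe_map e hb
  have h1 : ∀ w, w ≠ 0 → S w = 0 → ∀ v, n ⊗ₜ v ∈ OE (M.subgroupOf (OG Q)) (n ⊗ₜ w) := by
    intro w hw0 hw v
    obtain ⟨f, hf, hf0⟩ := h.nW.exists_hyp hw0 hw
    have k := OE.grow (h0 w hw0 hw) (u := n ⊗ₜ f) (by simp [h.qq, hn])
      (h0 f (by rintro rfl; simp at hf) hf0) (by simp [h.pu, hn]) (by simp [h.pu, polar_comm _ y, hny])
    simp only [h.pu, h.qq, hny, hf0, p_self, polar_comm _ f w, hf, mul_zero, zero_smul,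
      sub_zero, mul_one] at k
    replace k := (Submodule.smul_mem_iff _ (mul_ne_zero h2 hy)).1 k
    exact mem_of_eich (Y := (OE _ (n ⊗ₜ w)).comap (TensorProduct.mk F U W n)) hw (by simp [hf])
      (OE.self (by simp [h.qq, hn])) k (fun c hc => by
        simpa [eich_apply_left hw hc] using h.oe_map k (h.eW w c)) v
  obtain ⟨f, hf, hf0⟩ := h.nU.exists_hyp hn0 hn
  obtain ⟨c, c1, c2, c3⟩ := exists_ns_hyp h.nU h.k3 hn hf0 hf
  obtain ⟨m, hm, hm0, hnm⟩ : ∃ m, (eich P f c).1 n = m ∧ P m = 0 ∧ polar P n m ≠ 0 :=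
    ⟨_, rfl, by simp [hn], by simp [eich_apply hf0 c2, hn, hf, c1, polar_comm _ c, polar_comm _ f, c3]⟩
  have hmn : polar P m n ≠ 0 := by rwa [polar_comm]
  have h3 : ∀ w, w ≠ 0 → S w = 0 → ∀ v, m ⊗ₜ v ∈ OE (M.subgroupOf (OG Q)) (m ⊗ₜ w) :=
    fun w hw0 hw v => by simpa [hm] using h.oe_map (h1 w hw0 hw v) (h.eU f c)
  have h4 : ∀ w, w ≠ 0 → S w = 0 → ∀ a v, polar S w v = 0 →
      a ⊗ₜ v ∈ OE (M.subgroupOf (OG Q)) (n ⊗ₜ w) := by
    intro w hw0 hw a v hv
    obtain ⟨g, hg, hg0⟩ := h.nW.exists_hyp hw0 hw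
    obtain ⟨d, d1, -, d3⟩ := exists_ns_hyp h.nW h.l3 hw hg0 hg
    have k : ∀ v, polar S w v = 0 → ∀ t, (polar P m n * polar S v t) • m ⊗ₜ w -
        (polar P m n * polar S w t) • m ⊗ₜ v ∈ OE (M.subgroupOf (OG Q)) (n ⊗ₜ w) :=
      fun v hv t => by
      simpa [h.pu, h.qq, hm0] using OE.grow (h1 w hw0 hw t) (u := m ⊗ₜ w) (by simp [h.qq, hw])
        (h3 w hw0 hw v) (by simp [h.pu, hw]) (by simp [h.pu, polar_comm _ v, hv])
    have k1 : m ⊗ₜ w ∈ OE (M.subgroupOf (OG Q)) (n ⊗ₜ w) :=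
      (Submodule.smul_mem_iff _ (mul_ne_zero hmn (mul_ne_zero h2 d3))).1
        (by simpa [d1] using k d d1 d)
    have k2 : m ⊗ₜ v ∈ OE (M.subgroupOf (OG Q)) (n ⊗ₜ w) := (Submodule.smul_mem_iff _ hmn).1
      (by simpa [hg] using mem_of_smul_sub k1 (k v hv g))
    exact mem_of_eich (Y := (OE _ (n ⊗ₜ w)).comap (inW F U v)) hn hnm (h1 w hw0 hw v) k2
      (fun c hc => by simpa [eich_apply_left hn hc] using h.oe_map k2 (h.eU n c)) a
  have h5 : ∀ w, w ≠ 0 → S w = 0 → OP (M.subgroupOf (OG Q)) (n ⊗ₜ w) := fun w hw0 hw =>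
    ⟨by simp [h.qq, hn], fun x hx => by
      obtain ⟨g, hg, hg0⟩ := h.nW.exists_hyp hw0 hw
      rw [h.lf] at hx
      have k := OE.grow (h4 w hw0 hw m w (by simp [hw])) (u := n ⊗ₜ g) (by simp [h.qq, hn])
        (h4 g (by rintro rfl; simp at hg) hg0 (cW U (S.polarBilin w) x) g (by simp [hg0]))
        (by simp [h.pu, hn]) (by rw [h.pu, polar_comm, hx, zero_mul])
      have k' := (Submodule.smul_mem_iff _ (show polar Q (n ⊗ₜ g) (m ⊗ₜ w) ≠ 0 by
        simpa [h.pu, polar_comm _ g, hg] using hnm)).1 (mem_of_smul_sub (h1 w hw0 hw g) k)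
      have := eq_zero_of_ker (f := (OE (M.subgroupOf (OG Q)) (n ⊗ₜ w)).mkQ) (φ := S.polarBilin w)
        (fun e => by simpa [hg] using LinearMap.congr_fun e g)
        (fun b t ht => (Submodule.Quotient.mk_eq_zero _).2 (h4 w hw0 hw b t ht))
        (x := x - cW U (S.polarBilin w) x ⊗ₜ g) (by simp [hg])
      simpa using add_mem ((Submodule.Quotient.mk_eq_zero _).1 this) k'⟩
  obtain ⟨g, hg, hg0⟩ := h.nW.exists_hyp hw0 hw
  refine om_le_of_pair h.nd h.n5 (h5 w hw0 hw) ((h5 g (by rintro rfl; simp at hg) hg0).map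
    (g := ⟨_, OM.og (h.hM (h.eU f c))⟩) (h.eU f c)) ?_
  simpa [hm, h.pu, hg] using hnm

/-- The elements of `M` centralising `(U ⊗ w)^⊥` are trivial. -/
def Std (S : QuadraticForm F W) (M : Subgroup ((U ⊗[F] W) ≃ₗ[F] (U ⊗[F] W))) : Prop :=
  ∀ w, w ≠ 0 → S w = 0 → ∀ g ∈ M, (∀ x, cW U (S.polarBilin w) x = 0 → g x = x) → ∀ x, g x = x

omit [FiniteDimensional F U] [FiniteDimensional F W] [Finite F] h in
theorem cj_Dm {γ : U →ₗ[F] U} {φ : Dual F W} {w : W} (e : R M (Dm γ φ w)) {a : U ≃ₗ[F] U}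
    (ha : TensorProduct.congr a (1 : W ≃ₗ[F] W) ∈ M) : R M (Dm (cjm a γ) φ w) :=
  e.conj' ha fun x => by
    rw [Dm_apply, Dm_apply, cW_congr, congr_tmul, cjm_apply, LinearEquiv.symm_apply_apply]
    rfl

theorem le_of_not_std (h4 : finrank F U = 4 → ¬ IsPlus P) (hS : ¬ Std S M) :
    commutator (OG Q) ≤ M.subgroupOf (OG Q) := by
  simp only [Std, not_forall] at hS
  obtain ⟨w, hw0, hw, g, hg, e, x₀, hS⟩ := hS
  have h2 := h.two
  obtain ⟨y, hy, hy0⟩ := h.nW.exists_hyp hw0 hw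
  obtain ⟨γ, hγ⟩ := h.zform (w := w) (y := y) hy hg e
  have ww : S.polarBilin w w = 0 := by simp [hw]
  have sk : ∀ u v, polar P (γ u) v = -polar P u (γ v) := fun u v => by
    have := h.map hg (u ⊗ₜ y) (v ⊗ₜ y)
    simp only [hγ, Dm_apply, cW_tmul, polarBilin_apply_apply, hy, one_smul, polar_add_left,
      polar_add_right, h.pu, p_self, hw, polar_comm _ y w] at this
    linear_combination this
  obtain ⟨n, hn, hn'⟩ := skew_eigen h2 h.nU h.k3 sk fun e => hS (by simp [hγ, e, Dm_apply])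
  have hn0 : n ≠ 0 := by rintro rfl; simp at hn'
  have s0 : ∀ u, polar P u (γ u) = 0 := fun u => mul_left_cancel₀ h2 (by
    have := sk u u; rw [polar_comm] at this; linear_combination this)
  obtain ⟨f, hf, hf0⟩ := h.nU.exists_hyp hn0 hn
  obtain ⟨c, c1, -, c3⟩ := exists_ns_hyp h.nU h.k3 hn hf0 hf
  obtain ⟨z, hz, z1, z2⟩ : ∃ z, (2 * P c) • γ n - (2 * polar P c (γ n)) • c = z ∧
      polar P n z = 0 ∧ z ∉ F ∙ n := ⟨_, rfl, by simp [s0, c1], fun e => by
    obtain ⟨t, ht⟩ := Submodule.mem_span_singleton.1 e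
    have := congrArg (polar P c) ht
    simp only [p_smul_right, polar_sub_right, p_self, polar_comm _ c n, c1] at this
    rw [show polar P c (γ n) = 0 from mul_left_cancel₀ (mul_ne_zero h2 c3)
      (by linear_combination this), mul_zero, zero_smul, sub_zero] at ht
    exact hn' ((Submodule.smul_mem_iff _ (mul_ne_zero h2 c3)).1
      (Submodule.mem_span_singleton.2 ⟨t, ht⟩))⟩
  have q1 : Q (n ⊗ₜ w) = 0 := by simp [h.qq, hw]
  have h1 : z ⊗ₜ w ∈ OE (M.subgroupOf (OG Q)) (n ⊗ₜ w) := ⟨by simp [h.pu, hw], fun t =>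
    (mem_of_sq h2 (A := OA (M.subgroupOf (OG Q)) (n ⊗ₜ w)) (fun s => ⟨by simp [h.pu, hw], by
      have h0 : R M (Dm γ (S.polarBilin w) w) := ⟨g, hg, hγ⟩
      have AA := fun γ γ' : U →ₗ[F] U => Dm_Dm γ γ' (φ := S.polarBilin w) (S.polarBilin w) w ww
      refine eich_mem_of_R ((((cj_Dm h0 (h.eU n (s • c))).add (cj_Dm h0 (h.eU n (-(s • c))))
        (AA _ _)).sub (h0.add h0 (AA _ _)) (by simp [AA]) (by simp [AA]))) fun x => ?_
      have := cjm_eich hn (c := s • c) (by simp [c1]) γ (cW U (S.polarBilin w) x)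
      simp only [LinearMap.sub_apply, LinearMap.add_apply] at this
      rw [eich_apply q1 (by simp [h.pu, hw])]
      simp only [LinearMap.sub_apply, LinearMap.add_apply, Dm_apply, ← add_tmul, ← sub_tmul, this,
        q_smul, h.qq, hw, p_smul_left, h.lf, ← hz, polar_sub_left, map_smul, p_smul_right, s0, sk,
        show polar P n (γ c) = -polar P c (γ n) by rw [← sk, polar_comm]]
      simp only [add_tmul, sub_tmul, ← smul_tmul']
      module⟩) t).2⟩
  by_cases hz0 : P z = 0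
  swap
  · exact h.le_of_ns hn0 hn hz0 z1 hw0 hw h1
  have hk : 4 < finrank F U := by
    have hs : Sing P (Submodule.span F {n, z}) := fun x hx => by
      obtain ⟨a, b, rfl⟩ := Submodule.mem_span_pair.1 hx
      simp [q_add, q_smul, hn, hz0, z1]
    have d := Orth.finrank_span_pair_eq (Orth.linearIndependent_pair_of_notMem hn0 z2)
    have := h.nU.two_mul_finrank_le hs
    by_contra e
    exact h4 (by omega) ⟨_, hs, by omega⟩
  obtain ⟨u, u1, u2, u3⟩ := h.nU.exists_hyp_partner _ z2 hz0 fun x hx => by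
    obtain ⟨a, rfl⟩ := Submodule.mem_span_singleton.1 hx; simp [z1]
  replace u1 := u1 n (Submodule.mem_span_singleton_self n)
  obtain ⟨d, d1, d2, d3⟩ := h.nU.exists_nonsingular_perp_pair (u := n) (v := u) hk
  have := h.oe_sub h1 (h.eU u d) (by
    simp [eich_apply_of_orth u3 d2 (x := n) (by rwa [polar_comm]) (by rwa [polar_comm])])
  rw [congr_tmul, LinearEquiv.coe_one, id, ← sub_tmul] at this
  refine h.le_of_ns hn0 hn ?_ (by simp [eich_apply u3 d2, u1, d1]) hw0 hw this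
  rw [eich_apply u3 d2, add_sub_assoc, add_sub_cancel_left]
  simp [q_sub, q_smul, u3, polar_comm _ u z, u2, d2, d3]

end OO

end Cfsg.Agent.Max2
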