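import Mathlib
import Cfsg.Agent.Max2.SS1

/-!
# `Sp(U) ⊗ Sp(W)` in `Ω⁺(U ⊗ W)`: the stabiliser of `U ⊗ w`
-/

set_option autoImplicit false

namespace Cfsg.Agent.Max2

open Module Cfsg.Agent.Max TensorProduct Classical.SpWitt Cfsg.Agent.Orth QuadraticMap

variable {F U W : Type*} [Field F] [AddCommGroup U] [Module F U] [AddCommGroup W] [Module F W]

namespace SS

variable {p : LinearMap.BilinForm F U} {β : LinearMap.BilinForm F W}
  {Q : QuadraticForm F (U ⊗[F] W)} {M : Subgroup ((U ⊗[F] W) ≃ₗ[F] (U ⊗[F] W))}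
  (h : SS p β Q M)
include h

/-- The maps `γ` such that `M` contains elements acting as `1 + γ ⊗ (β v ⊗ w)` on `(U ⊗ w)^⊥`. -/
def Gm : Submodule F (U →ₗ[F] U) where
  carrier := {γ | ∀ w v, β v w = 0 → QD β M γ w v}
  add_mem' := fun {γ γ'} e e' w v hv => by
    obtain ⟨g, hg, e⟩ := e w v hv
    obtain ⟨g', hg', e'⟩ := e' w v hv
    refine ⟨g * g', M.mul_mem hg hg', fun x hx => ?_⟩
    rw [LinearEquiv.mul_apply, e' x hx, e _ (by simp [Dm_apply, hx, h.aW w])]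
    simp [Dm_apply, hv, add_tmul, add_right_comm, add_assoc]
  zero_mem' := fun w v _ => ⟨1, M.one_mem, fun x _ => by simp [Dm_apply]⟩
  smul_mem' := fun c γ e w v hv => by
    obtain ⟨g, hg, e⟩ := e w (c • v) (by simp [hv])
    exact ⟨g, hg, fun x hx => by simp [e x hx, Dm_apply, cW_smul]⟩

variable [FiniteDimensional F U] [FiniteDimensional F W]

theorem nu {w v : W} (hv : β w v = 0) : ∃ g ∈ M, ∀ x,
    g x = x + (Dm LinearMap.id (β v) w x + Dm LinearMap.id (β w) v x) := by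
  refine ⟨_, h.memW (uni_sS_mem h.aW hv (sS_sq h.aW hv)), fun x => ?_⟩
  induction x with
  | zero => simp
  | tmul u z => simp [uni_apply, sS_apply, Dm_apply, tmul_add, smul_tmul']
  | add x y hx hy => simp only [map_add, hx, hy]; module

theorem gm_of {γ : U →ₗ[F] U} {w v : W} (hw : w ≠ 0) (hv : β v w = 0) (hv0 : v ∉ F ∙ w)
    (e : QD β M γ w v) : γ ∈ h.Gm := fun w' v' hv' => by
  by_cases h0 : v' ∈ F ∙ w'
  · obtain ⟨c, rfl⟩ := Submodule.mem_span_singleton.1 h0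
    exact ⟨1, M.one_mem, fun x hx => by simp [Dm_apply, cW_smul, hx]⟩
  by_cases h1 : w' = 0
  · exact ⟨1, M.one_mem, fun x hx => by simp [Dm_apply, h1]⟩
  obtain ⟨b, -, rfl, rfl⟩ := witt_two h.ndW h.aW ⊤ (fun _ _ => trivial)
    (Orth.linearIndependent_pair_of_notMem hw hv0) (Orth.linearIndependent_pair_of_notMem h1 h0)
    (by rw [h.rW _ _ hv, h.rW _ _ hv'])
  obtain ⟨g, hg, e⟩ := e
  refine ⟨_, M.mul_mem (M.mul_mem (h.memW b.2) hg) (M.inv_mem (h.memW b.2)), fun x hx => ?_⟩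
  obtain ⟨x, rfl⟩ := (TensorProduct.congr (1 : U ≃ₗ[F] U) b.1).surjective x
  have k : ∀ z, cW U (β (b.1 z)) (TensorProduct.congr (1 : U ≃ₗ[F] U) b.1 x) = cW U (β z) x :=
    fun z => by
      rw [congr_one_apply, show β (b.1 z) ∘ₗ (b.1 : W →ₗ[F] W) = β z from LinearMap.ext (b.2 z)]
  rw [k] at hx
  simp [e x hx, Dm_apply, k]

theorem gm_id : LinearMap.id ∈ h.Gm := fun w v hv => by
  obtain ⟨g, hg, e⟩ := h.nu (h.rW _ _ hv)
  exact ⟨g, hg, fun x hx => by simp [e, Dm_apply, hx]⟩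

theorem gm_tv {γ δ : U →ₗ[F] U} (e : γ ∈ h.Gm) (z : U)
    (hδ : ∀ u, δ u = (p z (γ u) - p z u * p z (γ z)) • z - p z u • γ z) : δ ∈ h.Gm := by
  rw [← h.Gm.add_mem_iff_left e]
  intro w v hv
  obtain ⟨g, hg, e⟩ := e w v hv
  obtain ⟨t, ht, et⟩ := h.rootU z 1
  refine ⟨_, M.mul_mem (M.mul_mem ht hg) (M.inv_mem ht), fun x hx => ?_⟩
  obtain ⟨x, rfl⟩ := t.surjective x
  have k : ∀ φ, cW U φ (t x) = cW U φ x + p z (cW U φ x) • z := fun φ => by simp [et, dual_cU]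
  have hx' : cW U (β w) x = 0 := by
    have := congrArg (p z) hx
    rw [k] at this hx
    simpa [show p z (cW U (β w) x) = 0 by simpa [h.aU z] using this] using hx
  simp only [LinearEquiv.mul_apply, LinearEquiv.coe_inv, LinearEquiv.symm_apply_apply, e x hx',
    map_add t, Dm_apply, k, et (_ ⊗ₜ w), LinearMap.add_apply, hδ]
  simp only [cU_tmul, map_add, map_smul, h.aU.self_eq_zero, add_tmul, sub_tmul, ← smul_tmul',
    tmul_smul, smul_eq_mul]
  module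

theorem gm_mul {γ γ' γs : U →ₗ[F] U} (e : γ ∈ h.Gm) (e' : γ' ∈ h.Gm)
    (hs : ∀ u u', p (γ' u) u' = p u (γs u')) : γ ∘ₗ γs ∈ h.Gm := by
  have := h.ntW
  obtain ⟨w, hw⟩ := exists_ne (0 : W)
  obtain ⟨v', h1, h2⟩ := exists_ker_not_mem h.l3 (β w) w
  obtain ⟨v, s, e1, e2, e3, e4, e5, -⟩ := h.hyp w v'
  obtain ⟨g, hg, e⟩ := e w v (h.rW _ _ e1)
  obtain ⟨g', hg', e'⟩ := e' v' s (h.rW _ _ e4)
  have f : ∀ a, g (a ⊗ₜ w) = a ⊗ₜ w := fun a => by
    simp [e (a ⊗ₜ w) (by simp [h.aW w]), Dm_apply, h.rW _ _ e1]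
  have f' : ∀ a, g' (a ⊗ₜ w) = a ⊗ₜ w := fun a => by
    simp [e' (a ⊗ₜ w) (by simp [h.rW _ _ h1]), Dm_apply, h.rW _ _ e3]
  refine h.gm_of hw (h.rW _ _ h1) h2 ⟨(g' * g)⁻¹ * (g * g'),
    M.mul_mem (M.inv_mem (M.mul_mem hg' hg)) (M.mul_mem hg hg'), fun x hx => ?_⟩
  have k1 : cW U (β w) (g' x) = 0 := h.ndU.2 _ fun a => by
    rw [← h.left, ← f', h.map hg', h.left, hx, map_zero]
  have k2 : cW U (β v) (g' x) = cW U (β v) x + γs (cW U (β v') x) :=
    sub_eq_zero.1 (h.ndU.2 _ fun a => by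
      have : g' (a ⊗ₜ v + γ' a ⊗ₜ v') = a ⊗ₜ v := by
        simp [e' _ (show cW U (β v') (a ⊗ₜ v + γ' a ⊗ₜ v') = 0 by simp [e2, h.aW v']), Dm_apply,
          h.rW _ _ e4, ← h.aW.neg_eq v s, e5, neg_tmul]
      rw [map_sub, ← h.left, ← this, h.map hg', polar_add_left, h.left, h.left, hs]
      simp)
  rw [LinearEquiv.mul_apply, LinearEquiv.coe_inv, LinearEquiv.symm_apply_eq]
  simp only [LinearEquiv.mul_apply, e _ k1, e x hx, map_add, Dm_apply, f, f', k2, add_tmul,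
    LinearMap.comp_apply, add_assoc]

theorem gm_adj (hS : SpO.Std β M) {γ : U →ₗ[F] U} (e : γ ∈ h.Gm) :
    ∃ c : F, ∀ u u', p (γ u') u + p u' (γ u) = c * p u' u := by
  have := h.ntW
  obtain ⟨w, hw⟩ := exists_ne (0 : W)
  obtain ⟨v, s, e1, -, e3, -, e5, -⟩ := h.hyp w w
  obtain ⟨y, hy⟩ := exists_one h.ndW h.rW hw
  have hy' : β y w = -1 := by rw [← h.aW.neg_eq, hy]
  obtain ⟨g, hg, e⟩ := e w v (h.rW _ _ e1)
  obtain ⟨q, hq, eq⟩ := h.nu e3
  have f : ∀ a, g (a ⊗ₜ w) = a ⊗ₜ w := fun a => by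
    simp [e (a ⊗ₜ w) (by simp [h.aW w]), Dm_apply, h.rW _ _ e1]
  obtain ⟨N, ⟨t, ht, h1⟩, -, h2, h3⟩ := heisX (B := Q.polarBilin) (fun x y e => by
      simpa [polar_comm _ y x] using e) (X := LW F U w) hg (h.sg hg) hq (h.sg hq)
    (by rintro _ ⟨u, rfl⟩; exact f u)
    (by rintro _ ⟨u, rfl⟩; simp [eq, Dm_apply, h.aW w, h.rW _ _ e3])
    (fun y hy => by rw [e y (h.perpL.1 hy)]; simpa using Dm_mem _ _ _ _)
    (fun y hy => by rw [eq, Dm_apply _ _ s, h.perpL.1 hy]; simpa using Dm_mem _ _ _ _)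
  obtain ⟨c, hc⟩ := hS w hw t ht fun x hx => by rw [h1, h2 x (h.perpL.2 hx), add_zero]
  have o : ∀ u x, polar Q (u ⊗ₜ w) (g x - x) = 0 := fun u x => by
    rw [polar_sub_right, ← h.map hg _ x, f, sub_self]
  have k : ∀ u u', polar Q (q (u' ⊗ₜ y) - u' ⊗ₜ y) (g (u ⊗ₜ y) - u ⊗ₜ y) = -p (γ u') u := by
    intro u u'
    have a1 := h.map hg (u' ⊗ₜ s) (u ⊗ₜ y)
    have a2 := o (γ u') (u ⊗ₜ y)
    rw [e _ (by simp [e3])] at a1
    simp only [eq, add_sub_cancel_left, polar_add_left, Dm_apply, o, cW_tmul, hy, e5, one_smul,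
      LinearMap.id_apply, zero_add] at a1 ⊢
    rw [polar_sub_right] at a2 ⊢
    rw [h.pure _ _ w, hy] at a2
    linear_combination a1 - a2
  refine ⟨c, fun u u' => ?_⟩
  have := h3 (u ⊗ₜ y) (u' ⊗ₜ y)
  rw [add_left_cancel ((h1 _).symm.trans (hc _))] at this
  simp only [polarBilin_apply_apply, k, polar_comm _ (g _ - _), Dm_apply, cW_tmul, hy, one_smul,
    LinearMap.id_apply, p_smul_right, h.pure, hy', ← h.aU.neg_eq u' (γ u)] at this
  linear_combination this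

theorem gm_scalar [Finite F] (hk : 3 ≤ finrank F U) (hS : SpO.Std β M) {γ : U →ₗ[F] U} (e : γ ∈ h.Gm) :
    ∃ c : F, γ = c • LinearMap.id := by
  by_contra hn
  push Not at hn
  obtain ⟨n, hn⟩ := exists_not_eigen hn
  have hn0 : n ≠ 0 := by rintro rfl; simp at hn
  have nn := h.aU.self_eq_zero
  obtain ⟨c, hc⟩ := h.gm_adj hS e
  have h1 := h.gm_tv e n (δ := (c - p n (γ n)) • (p n).smulRight n - sS p n (γ n)) fun u => by
    simp only [LinearMap.sub_apply, LinearMap.smul_apply, LinearMap.smulRight_apply, sS_apply,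
      eq_sub_of_add_eq' (hc u n)]
    module
  obtain ⟨z, z1, z2, z3⟩ := exists_not_mem_two (W := LinearMap.ker (p n))
    (X := LinearMap.ker (p (γ n))) (Y := F ∙ n) (fun e => by
      obtain ⟨z, e1, e2⟩ := exists_orth_one h.ndU h.rU _ hn
      simpa [e2] using e (e1 n (Submodule.mem_span_singleton_self n))) fun e => by
      obtain ⟨v, h1, h2⟩ := exists_ker_not_mem hk (p n) n
      exact h2 (e h1)
  replace z1 : p n z = 0 := z1
  have h2 := (h.Gm.smul_mem_iff z2).1 (h.gm_tv h1 z (δ := p (γ n) z • sS p n z) fun u => by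
    simp only [LinearMap.sub_apply, LinearMap.smul_apply, LinearMap.smulRight_apply, sS_apply,
      map_sub, map_add, map_smul, z1, h.rU _ _ z1, ← h.aU.neg_eq (γ n) z, smul_eq_mul]
    module)
  obtain ⟨y, y1, y2⟩ := exists_orth_one h.ndU h.rU _ z3
  replace y1 := y1 n (Submodule.mem_span_singleton_self n)
  have h3 := h.gm_tv h2 y (δ := -sS p n y) fun u => by
    simp only [LinearMap.neg_apply, sS_apply, map_add, map_smul, y1, y2, h.rU _ _ y1,
      ← h.aU.neg_eq z y, smul_eq_mul]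
    module
  have h4 : (p n).smulRight n ∈ h.Gm := by
    convert h.gm_mul h2 h3 (γs := sS p n y) fun u u' => by
      simp [← h.aU.neg_eq n u, ← h.aU.neg_eq y u]; ring using 1
    ext u
    simp [nn, y1, y2, h.rU _ _ z1]
  obtain ⟨m, hm⟩ := exists_one h.ndU h.rU hn0
  have hm' : p m n = -1 := by rw [← h.aU.neg_eq, hm]
  have h5 := h.gm_tv h4 m (δ := (p m).smulRight m - sS p n m) fun u => by
    simp only [LinearMap.sub_apply, LinearMap.smulRight_apply, sS_apply, map_smul, hm, hm',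
      smul_eq_mul]
    module
  obtain ⟨d, hd⟩ := h.gm_adj hS (h.Gm.sub_mem h4 (h.gm_mul h4 h5
    (γs := sS p n m - (p m).smulRight m) fun u u' => by
      simp [← h.aU.neg_eq n u, ← h.aU.neg_eq m u]; ring))
  obtain ⟨u, -, u0, u1, u2⟩ := exists_ne_zero_two_ker (U := (⊤ : Submodule F U))
    (by rwa [finrank_top]) (p n) (p m)
  obtain ⟨x, hx⟩ := exists_one h.ndU h.rU u0
  have d0 : d = 0 := by simpa [hx, u1, u2, h.rU _ _ u1, nn, hm] using (hd x u).symm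
  simpa [d0, nn, hm, hm'] using hd m n

variable [Finite F]

theorem d1a (hk : 3 ≤ finrank F U) (hS : SpO.Std β M) {w : W} (hw : w ≠ 0)
    (g : (U ⊗[F] W) ≃ₗ[F] (U ⊗[F] W)) (hg : g ∈ M) (f : ∀ u, g (u ⊗ₜ w) = u ⊗ₜ w)
    (e : ∀ x, cW U (β w) x = 0 → g x - x ∈ LW F U w) :
    ∃ ν : W →ₗ[F] W, ∀ u v, g (u ⊗ₜ v) = u ⊗ₜ ν v := by
  obtain ⟨χ, hχ⟩ := exists_dual_one (F := F) hw
  have := h.ntU
  obtain ⟨u₀, hu₀⟩ := exists_ne (0 : U)
  obtain ⟨ψ, hψ⟩ := exists_dual_one (F := F) hu₀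
  obtain ⟨v, hv⟩ := sp_exists_dual h.ndW
    (ψ ∘ₗ cW U χ ∘ₗ ((g : _ →ₗ[F] _) - LinearMap.id) ∘ₗ TensorProduct.mk F U W u₀)
  have hv0 : β w v = 0 := h.rW _ _ (by simp [hv, f])
  have e1 : ∀ x, cW U (β w) x = 0 → g x = x + Dm LinearMap.id (β v) w x := fun x hx => by
    have := eq_zero_of_ker (f := (g : _ →ₗ[F] _) - LinearMap.id - Dm LinearMap.id (β v) w)
      (φ := β w) (fun e => hw (h.ndW.1 w fun y => by simp [e])) (fun u z hz => ?_) hx
    · rw [← sub_eq_iff_eq_add']; exact sub_eq_zero.1 this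
    obtain ⟨c, hc⟩ : ∃ c : F, cW U χ ∘ₗ ((g : _ →ₗ[F] _) - LinearMap.id) ∘ₗ inW F U z =
        c • LinearMap.id := by
      by_cases hz' : z ∈ F ∙ w
      · obtain ⟨a, rfl⟩ := Submodule.mem_span_singleton.1 hz'
        exact ⟨0, by ext u; simp [f]⟩
      have hz1 := h.rW _ _ hz
      refine h.gm_scalar hk hS (h.gm_of hw hz1 hz' ?_)
      obtain ⟨t, ht, -, et⟩ := h.rootT z 1
      simp only [one_smul] at et
      refine ⟨(t * g)⁻¹ * (g * t), M.mul_mem (M.inv_mem (M.mul_mem ht hg)) (M.mul_mem hg ht),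
        fun x hx => ?_⟩
      have e1 := eq_of_mem_LW hχ (e x hx)
      have e2 := eq_of_mem_LW hχ (e (cW U (β z) x ⊗ₜ z) (by simp [hz]))
      have e3 : cW U (β z) (g x) = cW U (β z) x := by
        rw [← sub_eq_zero, ← map_sub, ← e1]; simp [hz1]
      rw [LinearEquiv.mul_apply, LinearEquiv.coe_inv, LinearEquiv.symm_apply_eq, map_add]
      simp only [LinearEquiv.mul_apply, Dm_apply, f, et, map_add, LinearMap.id_apply, cW_tmul, hz1,
        zero_smul, zero_tmul, add_zero, LinearMap.comp_apply, inW_apply, LinearMap.sub_apply,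
        LinearEquiv.coe_coe, e3]
      rw [e2]; abel
    have h1 : ∀ u, cW U χ (g (u ⊗ₜ z) - u ⊗ₜ z) = c • u := fun u => LinearMap.congr_fun hc u
    have h2 : β v z = c := by
      rw [hv]; exact (congrArg ψ (h1 u₀)).trans (by simp [hψ])
    have h3 := eq_of_mem_LW hχ (e (u ⊗ₜ z) (by simp [hz]))
    simp only [LinearMap.sub_apply, LinearEquiv.coe_coe, LinearMap.id_apply, Dm_apply, cW_tmul, h2]
    rw [← h3, h1, sub_self]
  obtain ⟨q, hq, eq⟩ := h.nu hv0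
  obtain ⟨c, hc⟩ := hS w hw (g * q⁻¹) (M.mul_mem hg (M.inv_mem hq)) fun x hx => by
    have : q.symm x = x - Dm LinearMap.id (β v) w x := by
      rw [LinearEquiv.symm_apply_eq, eq]
      simp [Dm_apply, hx, h.aW w, h.rW _ _ hv0]
    rw [LinearEquiv.mul_apply, LinearEquiv.coe_inv, this, map_sub, e1 x hx, Dm_apply, f]; simp
  refine ⟨LinearMap.id + (β v + c • β w).smulRight w + (β w).smulRight v, fun u z => ?_⟩
  have := hc (q (u ⊗ₜ z))
  rw [LinearEquiv.mul_apply, LinearEquiv.coe_inv, LinearEquiv.symm_apply_apply, eq] at this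
  rw [this]
  simp only [Dm_apply, map_add, cW_tmul, h.aW.self_eq_zero, hv0, zero_smul, LinearMap.id_apply,
    zero_tmul, add_zero]
  simp only [LinearMap.add_apply, LinearMap.id_apply, LinearMap.smulRight_apply,
    LinearMap.smul_apply, tmul_add, tmul_smul, ← smul_tmul', smul_eq_mul]
  module

theorem isT_of_stab (hk : 3 ≤ finrank F U) (hS : SpO.Std β M) {w w' : W} (hw : w ≠ 0)
    {g : (U ⊗[F] W) ≃ₗ[F] (U ⊗[F] W)} (hg : g ∈ M) (hL : im (LW F U w) g = LW F U w') :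
    IsT g := by
  have := h.ntU
  have hw' : w' ≠ 0 := by
    rintro rfl
    obtain ⟨u, hu⟩ := exists_ne (0 : U)
    obtain ⟨u', e⟩ : g (u ⊗ₜ w) ∈ LW F U (0 : W) := hL ▸ apply_mem_im.2 (tmul_mem_LW u w)
    exact tmul_ne_zero hu hw (by simpa using e.symm)
  obtain ⟨b, e⟩ := Classical.SpWitt.witt_one h.ndW h.aW hw' hw
  obtain ⟨y, hy⟩ := exists_one h.ndW h.rW hw
  refine ((tSub F U W).mul_mem_cancel_left (isT_congr 1 b.1)).1 (h.isT_of_fix (h.aW w) hy (h.aW y)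
    (h.singL w) (fun v hv => ?_) (h.d1a hk hS hw) (M.mul_mem (h.memW b.2) hg) ?_)
  · obtain ⟨q, hq, eq⟩ := h.nu hv
    exact ⟨q, hq, fun u => by simp [eq, Dm_apply, h.aW w, h.rW _ _ hv],
      fun x hx => by simpa [eq, Dm_apply, hx] using tmul_mem_LW _ _,
      fun u => by simpa [eq, Dm_apply, hy] using tmul_mem_LW _ _⟩
  rw [im_mul, hL]
  refine le_antisymm ?_ ?_
  · rintro _ ⟨_, ⟨u, rfl⟩, rfl⟩; exact ⟨u, by simp [e]⟩
  · rintro _ ⟨u, rfl⟩; exact ⟨_, tmul_mem_LW u w', by simp [e]⟩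

omit [Finite F] in
theorem ulem {w : W} (hw : w ≠ 0) {m t : (U ⊗[F] W) ≃ₗ[F] (U ⊗[F] W)} (ht : IsT t)
    (e : ∀ x, t x = x + cjm m (Dm LinearMap.id (β w) w) x) :
    ∃ w', im (LW F U w) m = LW F U w' := by
  have := h.ntU
  obtain ⟨y, hy⟩ := exists_one h.ndW h.rW hw
  obtain ⟨ν, hν⟩ := left_scalar h.kl ht (f := cW U (β w) ∘ₗ m.symm.toLinearMap) fun x hx => by
    rw [e, cjm_apply, Dm_apply, show cW U (β w) (m.symm x) = 0 from hx]; simp
  exact std_of_left' hw hy one_ne_zero (by simpa using e) hν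

theorem norm_T (hk : 3 ≤ finrank F U) (hS : SpO.Std β M) {w : W} (hw : w ≠ 0)
    {g s : (U ⊗[F] W) ≃ₗ[F] (U ⊗[F] W)} (hg : g ∈ M)
    (e : ∀ x, s x = x + Dm LinearMap.id (β w) w x) (ht : IsT (g * s * g⁻¹)) : IsT g := by
  obtain ⟨w', e'⟩ := h.ulem hw (m := g) ht fun x => by simp [e]
  exact h.isT_of_stab hk hS hw hg e'

end SS

end Cfsg.Agent.Max2
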