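import Mathlib
import Cfsg.Agent.Max2.SS2

/-!
# Maximality of `Sp(U) ⊗ Sp(W)` in `Ω⁺(U ⊗ W)`
-/

set_option autoImplicit false

namespace Cfsg.Agent.Max2

open Module Cfsg.Agent.Max TensorProduct Classical.SpWitt Cfsg.Agent.Orth QuadraticMap

variable {F U W : Type*} [Field F] [AddCommGroup U] [Module F U] [AddCommGroup W] [Module F W]

namespace SS

variable {p : LinearMap.BilinForm F U} {β : LinearMap.BilinForm F W}
  {Q : QuadraticForm F (U ⊗[F] W)} {M : Subgroup ((U ⊗[F] W) ≃ₗ[F] (U ⊗[F] W))}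
  (h : SS p β Q M) [FiniteDimensional F U] [FiniteDimensional F W] [Finite F]
include h

theorem odd_case (h2 : (2 : F) ≠ 0) (hk : 3 ≤ finrank F U) (hS : SpO.Std β M) {m : (U ⊗[F] W) ≃ₗ[F] (U ⊗[F] W)}
    (hm : m ∈ M) : IsT m := by
  have := h.ntU
  have hl := h.l3
  have := h.ntW
  obtain ⟨w₀, hw₀⟩ := exists_ne (0 : W)
  have iw₀ := h.aW.self_eq_zero w₀
  obtain ⟨u₀, hu₀⟩ := exists_ne (0 : U)
  by_contra hn
  have ns : ∀ w', im (LW F U w₀) m ≠ LW F U w' := fun w' e => hn (h.isT_of_stab hk hS hw₀ hm e)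
  set X := im (LW F U w₀) m with hX
  have hXk : finrank F X = finrank F U := by rw [hX, finrank_im, finrank_LW hw₀]
  obtain ⟨ψ₀, hψ₀⟩ : ∃ ψ, cU W ψ (m (u₀ ⊗ₜ w₀)) ≠ 0 := by
    by_contra e
    push Not at e
    exact tmul_ne_zero hu₀ hw₀ (m.map_eq_zero_iff.1 (eq_zero_of_cU e))
  obtain ⟨x₁, hx₁, ψ₁, hψ₁⟩ : ∃ x ∈ X, ∃ ψ, cU W ψ x ∉ F ∙ cU W ψ₀ (m (u₀ ⊗ₜ w₀)) := by
    by_contra e
    push Not at e
    refine ns _ (Submodule.eq_of_le_of_finrank_eq (fun x hx => mem_LW_of hψ₀ fun φ hφ =>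
      eq_zero_of_dual (F := F) fun ψ => ?_) (by rw [hXk, finrank_LW hψ₀]))
    obtain ⟨c, hc⟩ := Submodule.mem_span_singleton.1 (e x hx ψ)
    rw [← dual_cU, ← hc, map_smul, hφ, smul_zero]
  obtain ⟨w, -, -, -, -, -, -, hwy⟩ := h.hyp (cU W ψ₀ (m (u₀ ⊗ₜ w₀))) (cU W ψ₁ x₁)
  have iw := h.aW.self_eq_zero w
  have hw : w ≠ 0 := by rintro rfl; exact hwy (Submodule.zero_mem _)
  obtain ⟨s, hs, hsT, es⟩ := h.rootT w 1
  obtain ⟨t₀, ht₀, -, et₀⟩ := h.rootT w₀ 1
  simp only [one_smul] at es et₀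
  have ht := M.mul_mem (M.mul_mem hm ht₀) (M.inv_mem hm)
  have et : ∀ x, (m * t₀ * m⁻¹) x = x + cjm m (Dm LinearMap.id (β w₀) w₀) x := fun x => by
    simp [et₀]
  generalize m * t₀ * m⁻¹ = t at ht et
  have hP : Subgroup.closure {s, t} ≤ M := (Subgroup.closure_le _).2 (by
    rintro _ (rfl | rfl); exacts [hs, ht])
  rcases quad_cases h2 (A := Dm LinearMap.id (β w) w)
    (A' := cjm m (Dm LinearMap.id (β w₀) w₀)) es et (fun x => by simp [h.AA])
    (fun x => by simp [h.AA]) with hp | ⟨j, hj, j1, jj, jA, jA'⟩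
  · have : Finite (U ⊗[F] W) := Module.finite_of_finite F
    have : Finite ((U ⊗[F] W) ≃ₗ[F] (U ⊗[F] W)) := DFunLike.finite _
    have : Fact (ringChar F).Prime := ⟨CharP.char_is_prime F _⟩
    have := le_of_pgroup (H := tSub F U W) hp (Subgroup.subset_closure (by simp)) hsT
      fun g hg e => h.norm_T hk hS hw (hP hg) es e
    obtain ⟨w', e⟩ := h.ulem hw₀ (this (Subgroup.subset_closure (by simp))) et
    exact ns w' e
  have hj' := h.map (hP hj)
  obtain ⟨y, hy⟩ := exists_one h.ndW h.rW hw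
  obtain ⟨y₀, hy₀⟩ := exists_one h.ndW h.rW hw₀
  have mv : ∀ x, j x - x ∈ LW F U w ⊔ X := by
    refine Subgroup.closure_induction (p := fun g _ => ∀ x, g x - x ∈ LW F U w ⊔ X) ?_ (by simp)
      (fun g g' _ _ e e' x => ?_) (fun g _ e x => ?_) hj
    · rintro _ (rfl | rfl) x
      · rw [es, add_sub_cancel_left]
        exact Submodule.mem_sup_left (Dm_mem _ _ _ _)
      · rw [et, add_sub_cancel_left]
        exact Submodule.mem_sup_right (apply_mem_im.2 (Dm_mem _ _ _ _))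
    · simpa using Submodule.add_mem _ (e (g' x)) (e' x)
    · simpa using Submodule.neg_mem _ (e (g.symm x))
  have jL : ∀ x ∈ LW F U w, j x ∈ LW F U w := by
    rintro _ ⟨u, rfl⟩
    have := jA (u ⊗ₜ y)
    simp only [Dm_apply (x := u ⊗ₜ y), cW_tmul, hy, one_smul, LinearMap.id_apply] at this
    rw [inW_apply, this]; exact Dm_mem _ _ _ _
  have jX : ∀ x ∈ X, j x ∈ X := by
    rintro _ ⟨_, ⟨u, rfl⟩, rfl⟩
    have := jA' (m (u ⊗ₜ y₀))
    simp only [LinearMap.comp_apply, LinearEquiv.coe_coe, LinearEquiv.symm_apply_apply,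
      Dm_apply (x := u ⊗ₜ y₀), cW_tmul, hy₀, one_smul, LinearMap.id_apply] at this
    rw [inW_apply, LinearEquiv.coe_coe, this]; exact apply_mem_im.2 (Dm_mem _ _ _ _)
  have iso : ∀ x ∈ X, ∀ x' ∈ X, polar Q x x' = 0 := by
    rintro _ ⟨_, ⟨u, rfl⟩, rfl⟩ _ ⟨_, ⟨u', rfl⟩, rfl⟩
    simp [h.map hm, h.pure, iw₀]
  have spl : ∀ z, ∃ x ∈ X, j x = -x ∧ (2 : F) • (z - j z) - x ∈ LW F U w := fun z => by
    obtain ⟨a, ha, b, hb, e⟩ := Submodule.mem_sup.1 (mv z)
    refine ⟨j b - b, X.sub_mem (jX b hb) hb, by simp [jj], ?_⟩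
    convert (LW F U w).sub_mem (jL a ha) ha using 1
    rw [eq_sub_of_add_eq e]; simp only [map_sub, jj]; module
  have inL : ∀ z, cW U (β w) z = 0 → z - j z ∈ LW F U w := fun z hz => by
    obtain ⟨x, hx, e1, e2⟩ := spl z
    have h1 : cW U (β w) (j z) = 0 := by
      have := jA z
      rw [Dm_apply, Dm_apply, hz, map_zero, zero_tmul, map_zero] at this
      exact tmul_left_inj hw (by simpa using this.symm)
    have h3 : cW U (β w) x = 0 := by simpa [hz, h1] using cW_LW iw e2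
    have : x = 0 := h.nd x fun v => mul_left_cancel₀ h2 (by
      obtain ⟨a, ha, b, hb, e⟩ := Submodule.mem_sup.1 (mv v)
      have h5 := congrArg (fun z => polar Q z x) e
      have h4 := hj' v x
      simp only [polar_add_left, polar_sub_left, h.perpL.2 h3 a ha, iso b hb x hx, e1,
        polar_neg_right] at h5 h4
      rw [polar_comm]
      linear_combination h5 - h4)
    rw [this, sub_zero] at e2
    exact ((LW F U w).smul_mem_iff h2).1 e2
  obtain ⟨b, hb⟩ : ∃ b : W →ₗ[F] W, ∀ u v, j (u ⊗ₜ v) = u ⊗ₜ b v := by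
    obtain ⟨a, b, e⟩ := h.isT_of_stab hk hS hw (hP hj) (w' := w) (Submodule.eq_of_le_of_finrank_eq
      (by rintro _ ⟨x, hx, rfl⟩; exact jL x hx) (finrank_im _ _))
    obtain ⟨v, hv, hv'⟩ := exists_ker_not_mem hl (β w) w
    obtain ⟨φ, h1, h2⟩ := exists_dual_two hv'
    have k : ∀ u, u = φ (b v) • a u := fun u => by
      simpa [e, h2, sub_eq_zero] using cW_LW h1 (inL (u ⊗ₜ v) (by simp [hv]))
    have hc : φ (b v) ≠ 0 := fun e => hu₀ (by simpa [e] using k u₀)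
    refine ⟨(φ (b v))⁻¹ • (b : W →ₗ[F] W), fun u v' => ?_⟩
    rw [e]; conv_rhs => rw [k u]
    simp [smul_tmul', smul_smul, hc]
  have bb : ∀ v, b (b v) = v := fun v => tmul_right_inj (F := F) hu₀ (by rw [← hb, ← hb, jj])
  have b1 : ∀ v, β w v = 0 → ∃ c : F, b v = v + c • w := fun v hv => by
    obtain ⟨u, e⟩ := inL (u₀ ⊗ₜ v) (by simp [hv])
    rw [hb, ← tmul_sub, inW_apply] at e
    obtain ⟨c, hc⟩ := Submodule.mem_span_singleton.1 (mem_span_of_tmul_eq' hu₀ e.symm)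
    exact ⟨-c, by rw [neg_smul, hc]; abel⟩
  by_cases hε : β w (b y) = 1
  · have bw : b w = w := tmul_right_inj (F := F) hu₀ (by
      simpa [Dm_apply, hb, hy, hε] using jA (u₀ ⊗ₜ y))
    have b2 : ∀ v, β w v = 0 → b v = v := fun v hv => by
      obtain ⟨c, hc⟩ := b1 v hv
      have := bb v
      rw [hc, map_add, map_smul, bw, hc, add_assoc, add_eq_left, ← two_smul F, smul_eq_zero] at this
      rw [hc, this.resolve_left h2, add_zero]
    have b3 : b y = y := by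
      have := b2 (b y - y) (by simp [hy, hε])
      rw [map_sub, bb] at this
      have h3 : (2 : F) • (b y - y) = 0 := by rw [two_smul]; nth_rw 1 [← this]; abel
      exact sub_eq_zero.1 ((smul_eq_zero.1 h3).resolve_left h2)
    refine j1 (LinearEquiv.toLinearMap_injective (TensorProduct.ext' fun u v => ?_))
    have := b2 (v - β w v • y) (by simp [hy])
    rw [map_sub, map_smul, b3, sub_left_inj] at this
    simp [hb, this]
  have all : ∀ x ∈ X, j x = -x := by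
    have : X ⊓ LinearMap.ker (j.toLinearMap + LinearMap.id) = X := by
      refine Submodule.eq_of_le_of_finrank_le inf_le_left ?_
      rw [hXk]
      refine LinearMap.finrank_le_finrank_of_surjective (f := cW U (β w) ∘ₗ Submodule.subtype _)
        fun u => ?_
      obtain ⟨x, hx, e1, e2⟩ := spl (((2 * (1 - β w (b y)))⁻¹ • u) ⊗ₜ y)
      refine ⟨⟨x, hx, by simp [e1]⟩, ?_⟩
      have := cW_LW iw e2
      have h3 := sub_ne_zero.2 (Ne.symm hε)
      simp only [hb, map_sub, map_smul, cW_tmul, hy, sub_eq_zero] at this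
      simp only [LinearMap.comp_apply, Submodule.subtype_apply, ← this]
      match_scalars; field_simp
    intro x hx
    rw [← this] at hx
    exact eq_neg_of_add_eq_zero_left hx.2
  have cmp : ∀ x ∈ X, ∀ ψ, cU W ψ x ∈ Submodule.span F {w, b y - y} := fun x hx ψ => by
    have h1 : ∀ x, cU W ψ (j x) = b (cU W ψ x) := fun x => by
      induction x with
      | zero => simp
      | tmul u v => simp [hb]
      | add x y hx hy => simp only [map_add, hx, hy]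
    have h3 := h1 x
    rw [all x hx, map_neg] at h3
    obtain ⟨c, hc⟩ := b1 (cU W ψ x - β w (cU W ψ x) • y) (by simp [hy])
    rw [map_sub, map_smul, ← h3] at hc
    refine (Submodule.smul_mem_iff _ h2).1
      (Submodule.mem_span_pair.2 ⟨-c, -β w (cU W ψ x), ?_⟩)
    rw [neg_smul, ← sub_eq_iff_eq_add'.2 hc]; module
  refine hwy ?_
  rw [Submodule.eq_of_le_of_finrank_le (S₂ := Submodule.span F {w, b y - y})
    (Submodule.span_le.2 ?_) ?_]
  · exact Submodule.subset_span (by simp)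
  · rintro _ (rfl | rfl)
    exacts [cmp _ (apply_mem_im.2 (tmul_mem_LW _ _)) _, cmp _ hx₁ _]
  · rw [Orth.finrank_span_pair_eq (Orth.linearIndependent_pair_of_notMem hψ₀ hψ₁)]
    exact Max.finrank_span_pair_le _ _

omit [Finite F] in
theorem root1 (h2 : (2 : F) = 0) (w : W) : ∃ s ∈ M, s * s = 1 ∧ IsT s ∧
    ∀ x, s x = x + Dm LinearMap.id (β w) w x := by
  obtain ⟨s, hs, hsT, es⟩ := h.rootT w 1
  refine ⟨s, hs, LinearEquiv.ext fun x => ?_, hsT, by simpa using es⟩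
  simp [es, h.AA, add_assoc, ← two_smul F, h2]

omit [Finite F] in
theorem root2 (h2 : (2 : F) = 0) (w : W) {m : (U ⊗[F] W) ≃ₗ[F] (U ⊗[F] W)}
    (hm : m ∈ M) : ∃ t ∈ M, t * t = 1 ∧ ∀ x, t x = x + cjm m (Dm LinearMap.id (β w) w) x := by
  obtain ⟨s, hs, ss, -, es⟩ := h.root1 h2 w
  exact ⟨_, M.mul_mem (M.mul_mem hm hs) (M.inv_mem hm), by rw [conj_mul, ss]; simp,
    fun x => by simp [es]⟩

theorem star (h2 : (2 : F) = 0) (hk : 3 ≤ finrank F U) (hS : SpO.Std β M) {w w₀ : W} (hw : w ≠ 0)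
    (hw₀ : w₀ ≠ 0) {m : (U ⊗[F] W) ≃ₗ[F] (U ⊗[F] W)} (hm : m ∈ M)
    {x : U ⊗[F] W} (hx : x ∈ im (LW F U w₀) m) (h1 : cW U (β w) x = 0) (h0 : x ∉ LW F U w) :
    ∀ y ∈ im (LW F U w₀) m, cW U (β w) y = 0 := by
  have : Finite (U ⊗[F] W) := Module.finite_of_finite F
  have : Finite ((U ⊗[F] W) ≃ₗ[F] (U ⊗[F] W)) := DFunLike.finite _
  obtain ⟨s, hs, ss, hsT, es⟩ := h.root1 h2 w
  obtain ⟨t, ht, tt, et⟩ := h.root2 h2 w₀ hm
  obtain ⟨i, a, e, -⟩ := dih ss tt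
  have hd := M.pow_mem (M.mul_mem ht hs) i
  have d1 : ((t * s) ^ i) x = x := pow_fix (by
    simp [es, et, Dm_apply, h1, cW_LW (h.aW w₀) (mem_im.1 hx)]) i
  have d2 := pow_sub_mem (Z := LW F U w ⊔ im (LW F U w₀) m) (g := t * s) (fun x => by
    rw [LinearEquiv.mul_apply, et, es, add_right_comm, add_assoc, add_sub_cancel_left]
    exact add_mem (Submodule.mem_sup_right (apply_mem_im.2 (Dm_mem _ _ _ _)))
      (Submodule.mem_sup_left (Dm_mem _ _ _ _))) i
  generalize (t * s) ^ i = d at e hd d1 d2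
  obtain ⟨w', e'⟩ := h.ulem hw₀ (m := d * m) (mem_of_invol (H := tSub F U W) ss hs
    hsT (fun g hg => h.norm_T hk hS hw hg es) a _
    (M.mul_mem (M.mul_mem hd ht) (M.inv_mem hd)) (by rw [conj_mul, tt]; simp) e)
    fun x => by simp [et]; rfl
  rw [im_mul] at e'
  obtain ⟨u, rfl⟩ : x ∈ LW F U w' := by rw [← e', ← d1]; exact apply_mem_im.2 hx
  have hu : u ≠ 0 := by rintro rfl; simp at h0
  have ww : β w w' = 0 := by simpa [hu] using h1
  intro y hy
  obtain ⟨_, ⟨a, rfl⟩, _, ⟨b, rfl⟩, rfl⟩ := Submodule.mem_sup.1 (le_sup_of_disj (X' := LW F U w')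
    (e' ▸ im_le_of_sub d2 le_sup_right) (eq_bot_iff.2 fun z hz => by_contra fun z0 =>
      h0 (LW_eq_of hz.1 hz.2 z0 ▸ tmul_mem_LW u w')) (by rw [← e', finrank_im]) hy)
  simp [h.aW w, ww]

theorem star_ns (h2 : (2 : F) = 0) (hk : 3 ≤ finrank F U) (hS : SpO.Std β M) {w w₀ : W} (hw : w ≠ 0)
    (hw₀ : w₀ ≠ 0) {m : (U ⊗[F] W) ≃ₗ[F] (U ⊗[F] W)} (hm : m ∈ M)
    (hn : ¬ IsT m) {x : U ⊗[F] W} (hx : x ∈ im (LW F U w₀) m) (h1 : cW U (β w) x = 0) :
    x ∈ LW F U w := by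
  by_contra h0
  have k := h.star h2 hk hS hw hw₀ hm hx h1 h0
  obtain ⟨s, hs, ss, hsT, es⟩ := h.root1 h2 w
  obtain ⟨t, ht, tt, et⟩ := h.root2 h2 w₀ hm
  have : t * s * t⁻¹ = s := by
    refine mul_inv_eq_of_eq_mul (LinearEquiv.ext fun y => ?_)
    have e1 := k _ (apply_mem_im.2 (Dm_mem LinearMap.id (β w₀) w₀ (m.symm y)))
    have e2 := (h.kerN hm (y := Dm LinearMap.id (β w) w y)).1 fun z hz =>
      (polar_comm _ _ _).trans (h.perpL.2 (k z hz) _ (Dm_mem _ _ _ _))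
    simp only [LinearEquiv.mul_apply, es, et, map_add, cjm_apply]
    rw [Dm_apply _ _ w (m _), e1, Dm_apply _ _ w₀ (m.symm (Dm _ _ _ _)), e2]
    simp [add_right_comm]
  obtain ⟨w', e⟩ := h.ulem hw₀ (m := m) (h.norm_T hk hS hw ht es (this.symm ▸ hsT)) et
  exact hn (h.isT_of_stab hk hS hw₀ hm e)

theorem key_even (h2 : (2 : F) = 0) (hk : 3 ≤ finrank F U) (hS : SpO.Std β M) {w w' w₀ : W} (hw : w ≠ 0)
    (hw' : w' ∉ F ∙ w) (ww : β w w' = 0) (hw₀ : w₀ ≠ 0)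
    {m : (U ⊗[F] W) ≃ₗ[F] (U ⊗[F] W)} (hm : m ∈ M) (hn : ¬ IsT m) :
    ∀ x ∈ im (LW F U w₀) m, ∀ x' ∈ im (LW F U w₀) m,
      polar Q x' (Dm LinearMap.id (β w) w x + Dm LinearMap.id (β w') w' x) = 0 := by
  have : Finite (U ⊗[F] W) := Module.finite_of_finite F
  have : Finite ((U ⊗[F] W) ≃ₗ[F] (U ⊗[F] W)) := DFunLike.finite _
  have := h.ntU
  have hw0' : w' ≠ 0 := by rintro rfl; simp at hw'
  have ww' := h.rW _ _ ww
  have iw := h.aW.self_eq_zero w
  have iw' := h.aW.self_eq_zero w'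
  have iw₀ := h.aW.self_eq_zero w₀
  obtain ⟨φ', φ1, φ2⟩ := exists_dual_two hw'
  obtain ⟨φ, φ3, φ4⟩ := exists_dual_two (not_mem_span_symm hw' hw)
  set L := LW F U w ⊔ LW F U w' with hL
  let N₂ := Dm (LinearMap.id : U →ₗ[F] U) (β w) w + Dm LinearMap.id (β w') w'
  have hN : ∀ x, N₂ x = cW U (β w) x ⊗ₜ w + cW U (β w') x ⊗ₜ w' := fun _ => rfl
  have NL : ∀ x, N₂ x ∈ L := fun x => Submodule.add_mem_sup (Dm_mem _ _ _ _) (Dm_mem _ _ _ _)
  have L1 : ∀ x ∈ L, cW U (β w) x = 0 ∧ cW U (β w') x = 0 := fun x hx => by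
    obtain ⟨_, ⟨a, rfl⟩, _, ⟨b, rfl⟩, rfl⟩ := Submodule.mem_sup.1 hx
    simp [iw, iw', ww, ww']
  have L2 : ∀ x ∈ L, N₂ x = 0 := fun x hx => by simp [hN, L1 x hx]
  have L3 : ∀ x ∈ L, ∀ y ∈ L, polar Q x y = 0 := fun x hx y hy => by
    obtain ⟨a, ha, b, hb, rfl⟩ := Submodule.mem_sup.1 hx
    rw [polar_add_left, h.perpL.2 (L1 y hy).1 a ha, h.perpL.2 (L1 y hy).2 b hb, add_zero]
  have ns : ∀ {m}, m ∈ M → ¬ IsT m → ∀ x ∈ im (LW F U w₀) m, cW U (β w) x = 0 →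
      cW U (β w') x = 0 → x = 0 := fun hm hn x hx e e' => by
    obtain ⟨u, rfl⟩ := h.star_ns h2 hk hS hw hw₀ hm hn hx e
    have := cW_LW φ3 (h.star_ns h2 hk hS hw0' hw₀ hm hn hx e')
    simp [show u = 0 by simpa [φ4] using this]
  obtain ⟨s, hs, ss, es⟩ : ∃ s ∈ M, s * s = 1 ∧ ∀ x, s x = x + N₂ x := by
    obtain ⟨s, hs, -, -, es⟩ := h.root1 h2 w
    obtain ⟨s', hs', -, -, es'⟩ := h.root1 h2 w'
    have e : ∀ x, (s * s') x = x + N₂ x := fun x => by
      simp [es, es', hN, Dm_apply, ww, add_right_comm, add_assoc]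
    refine ⟨_, M.mul_mem hs hs', LinearEquiv.ext fun x => ?_, e⟩
    rw [LinearEquiv.mul_apply, e, e]
    simp [L2 _ (NL x), add_assoc, ← two_smul F, h2]
  obtain ⟨t, ht, tt, et⟩ := h.root2 h2 w₀ hm
  obtain ⟨i, a, e, e'⟩ := dih ss tt
  have hd := M.pow_mem (M.mul_mem ht hs) i
  have d2 := pow_sub_mem (Z := L ⊔ im (LW F U w₀) m) (g := t * s) (fun x => by
    rw [LinearEquiv.mul_apply, et, es, add_right_comm, add_assoc, add_sub_cancel_left]
    exact add_mem (Submodule.mem_sup_right (apply_mem_im.2 (Dm_mem _ _ _ _)))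
      (Submodule.mem_sup_left (NL _))) i
  generalize (t * s) ^ i = d at e e' hd d2
  have hm' := M.mul_mem hd hm
  have et' : ∀ x, (d * t * d⁻¹) x = x + cjm (d * m) (Dm LinearMap.id (β w₀) w₀) x := fun x => by
    simp [et]; rfl
  have d3 : im (LW F U w₀) (d * m) ≤ L ⊔ im (LW F U w₀) m :=
    im_mul _ d m ▸ im_le_of_sub d2 le_sup_right
  generalize d * t * d⁻¹ = t' at e e' et'
  generalize d * m = m' at hm' et' d3
  set N := cjm m (Dm LinearMap.id (β w₀) w₀) with hN0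
  set N' := cjm m' (Dm LinearMap.id (β w₀) w₀) with hN'
  have N'X : ∀ x, N' x ∈ im (LW F U w₀) m' := fun x => apply_mem_im.2 (Dm_mem _ _ _ _)
  have N'0 : ∀ y, (∀ x ∈ im (LW F U w₀) m', polar Q x y = 0) ↔ N' y = 0 := fun y => by
    rw [h.kerN hm', hN', cjm_apply, m'.map_eq_zero_iff, Dm_apply]
    exact ⟨fun e => by simp [e], fun e => tmul_left_inj hw₀ (by simpa using e)⟩
  have iso : ∀ x ∈ im (LW F U w₀) m', ∀ x' ∈ im (LW F U w₀) m', polar Q x x' = 0 := by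
    rintro _ ⟨_, ⟨u, rfl⟩, rfl⟩ _ ⟨_, ⟨u', rfl⟩, rfl⟩
    simp [h.map hm', h.pure, iw₀]
  have N'N : ∀ x ∈ im (LW F U w₀) m', N' x = 0 := fun x hx => (N'0 x).1 fun y hy => iso y hy x hx
  obtain ⟨u₀, hu₀⟩ := exists_ne (0 : U)
  obtain ⟨y₀, hy₀⟩ := exists_one h.ndW h.rW hw₀
  by_cases hc : L ⊓ im (LW F U w₀) m' = ⊥
  · have hc' : ∀ x ∈ L, x ∈ im (LW F U w₀) m' → x = 0 := fun x e e' => hc.le ⟨e, e'⟩
    obtain ⟨x₀, hx₀, x0, x1⟩ : ∃ x ∈ im (LW F U w₀) m', x ≠ 0 ∧ N' (N₂ x) = 0 := by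
      obtain ⟨z, hz, z0, z1⟩ := exists_fixed_two h2
        (Y := im (LW F U w₀) m' ⊔ (im (LW F U w₀) m').map N₂)
        (Submodule.mem_sup_left (apply_mem_im.2 (tmul_mem_LW u₀ w₀)))
        (by simpa using tmul_ne_zero hu₀ hw₀) a _ e fun y hy => by
          have := add_mem hy (Submodule.mem_sup_left (N'X y))
          rw [LinearEquiv.mul_apply, et', es]
          obtain ⟨a, ha, _, ⟨b, hb, rfl⟩, e⟩ := Submodule.mem_sup.1 this
          refine add_mem this ?_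
          rw [← e, map_add, L2 _ (NL b), add_zero]
          exact Submodule.mem_sup_right ⟨a, ha, rfl⟩
      obtain ⟨x₁, h1, _, ⟨x₂, h3, rfl⟩, rfl⟩ := Submodule.mem_sup.1 hz
      have z2 := congrArg s z1
      rw [← LinearEquiv.mul_apply, ← mul_assoc, ss, one_mul, et', es, add_right_inj, map_add,
        map_add, N'N _ h1, L2 _ (NL _), zero_add, add_zero] at z2
      have z3 := hc' _ (NL x₁) (z2 ▸ N'X _)
      by_cases h0 : x₂ = 0
      · exact ⟨x₁, h1, by simpa [h0] using z0, by simp [z3]⟩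
      · exact ⟨x₂, h3, h0, z2.trans z3⟩
    have cl : ∀ x ∈ im (LW F U w₀) m', ∀ x' ∈ im (LW F U w₀) m', polar Q x' (N₂ x) = 0 := by
      by_cases h0 : N₂ x₀ = 0
      · intro x hx x' _
        rw [hN, h.star h2 hk hS hw hw₀ hm' hx₀
          (by simpa [hN, φ3, φ4] using congrArg (cW U φ) h0)
          (fun e => x0 (hc' _ (Submodule.mem_sup_left e) hx₀)) x hx,
          h.star h2 hk hS hw0' hw₀ hm' hx₀
          (by simpa [hN, φ1, φ2] using congrArg (cW U φ') h0)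
          (fun e => x0 (hc' _ (Submodule.mem_sup_right e) hx₀)) x hx]
        simp
      intro x hx x' hx'
      have k : ∀ x ∈ im (LW F U w₀) m', m'.symm (s x) ∈ im (LW F U w₀) (m'⁻¹ * s * m') := by
        rintro _ ⟨x, hx, rfl⟩; exact ⟨x, hx, rfl⟩
      have := (h.kerN hm').2 (h.star h2 hk hS hw₀ hw₀
        (M.mul_mem (M.mul_mem (M.inv_mem hm') hs) hm') (k x₀ hx₀)
        ((h.kerN hm').1 ((N'0 _).2 (by rw [es, map_add, N'N _ hx₀, x1, add_zero])))
        (fun e => h0 (hc' _ (NL _) (by simpa [es] using sub_mem (mem_im.2 e) hx₀))) _ (k x hx))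
        x' hx'
      rwa [es, polar_add_right, iso x' hx' x hx, zero_add] at this
    have k := le_sup_of_disj d3 hc (by rw [finrank_im, finrank_im])
    intro x hx x' hx'
    obtain ⟨a, ha, b, hb, rfl⟩ := Submodule.mem_sup.1 (k hx)
    obtain ⟨a', ha', b', hb', rfl⟩ := Submodule.mem_sup.1 (k hx')
    change polar Q _ (N₂ _) = 0
    rw [map_add N₂, L2 a ha, zero_add, polar_add_left, L3 a' ha' _ (NL b), cl b hb b' hb', add_zero]
  exfalso
  obtain ⟨z, ⟨hz, hz'⟩, z0⟩ := Submodule.exists_mem_ne_zero_of_ne_bot hc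
  obtain ⟨v, hv⟩ := IsT.im_LW (by_contra fun e => z0 (ns hm' e z hz' (L1 z hz).1 (L1 z hz).2)) w₀
  have XL : im (LW F U w₀) m' ≤ L := by
    obtain ⟨u, rfl⟩ := hv ▸ hz'
    obtain ⟨a, b, rfl⟩ := Submodule.mem_span_pair.1 (show v ∈ Submodule.span F {w, w'} from
      by_contra fun e => by
        obtain ⟨χ, c1, c2, c3⟩ := exists_dual_three e
        obtain ⟨a, ha, b, hb, e⟩ := Submodule.mem_sup.1 hz
        have := congrArg (cW U χ) e
        rw [map_add, cW_LW c1 ha, cW_LW c2 hb] at this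
        exact z0 (by simp [show u = 0 by simpa [c3] using this.symm]))
    rw [hv]
    rintro _ ⟨u, rfl⟩
    rw [inW_apply, tmul_add, tmul_smul, tmul_smul]
    exact Submodule.add_mem_sup (Submodule.smul_mem _ _ (tmul_mem_LW _ _))
      (Submodule.smul_mem _ _ (tmul_mem_LW _ _))
  have eρ : ∀ x, (s * t') x = x + (N' x + N₂ x) := fun x => by
    rw [LinearEquiv.mul_apply, et', es, map_add, L2 _ (XL (N'X x)), add_zero, add_assoc]
  have ρρ : s * t' * (s * t') = 1 := LinearEquiv.ext fun x => by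
    have e1 := (N'0 (N₂ x)).1 fun y hy => L3 y (XL hy) _ (NL x)
    rw [LinearEquiv.mul_apply, eρ, eρ]
    simp [N'N _ (N'X x), L2 _ (NL x), L2 _ (XL (N'X x)), e1, add_assoc, ← two_smul F, h2]
  rw [inv_eq_of_mul_eq_one_right ρρ, mul_inv_eq_iff_eq_mul] at e'
  have k : ∀ x ∈ im (LW F U w₀) m, N₂ x ∈ LW F U v := by
    rintro _ ⟨_, ⟨u, rfl⟩, rfl⟩
    have e1 : N (m (u ⊗ₜ y₀)) = m (u ⊗ₜ w₀) := by simp [hN0, Dm_apply, hy₀]
    rw [inW_apply, LinearEquiv.coe_coe, ← e1]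
    generalize m (u ⊗ₜ y₀) = y
    have e2 := LinearEquiv.congr_fun e' y
    rw [LinearEquiv.mul_apply, LinearEquiv.mul_apply _ t, eρ, eρ, et, et] at e2
    have e3 : N (N' y + N₂ y) = N' (N y) + N₂ (N y) := by
      simp only [map_add] at e2 ⊢
      linear_combination (norm := abel) e2
    have e4 := add_mem (XL (N'X (N y))) (NL (N y))
    have e5 := ns hm hn _ (e3 ▸ apply_mem_im.2 (Dm_mem _ _ _ _)) (L1 _ e4).1 (L1 _ e4).2
    rw [eq_neg_of_add_eq_zero_right e5, ← hv]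
    exact neg_mem (N'X _)
  have x0 : m (u₀ ⊗ₜ w₀) ≠ 0 := by simpa using tmul_ne_zero hu₀ hw₀
  have hx := apply_mem_im (g := m).2 (tmul_mem_LW (F := F) u₀ w₀)
  obtain ⟨u, hu⟩ := k _ hx
  have c1 := congrArg (cW U φ) hu
  have c2 := congrArg (cW U φ') hu
  simp only [hN, inW_apply, map_add, cW_tmul, φ1, φ2, φ3, φ4, one_smul, zero_smul, add_zero,
    zero_add] at c1 c2
  obtain ⟨u', e1⟩ := h.star_ns h2 hk hS (w := φ' v • w - φ v • w') (fun e => by
    have d1 := congrArg φ e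
    have d2 := congrArg φ' e
    simp only [map_sub, map_smul, φ1, φ2, φ3, φ4, smul_eq_mul, map_zero] at d1 d2
    exact x0 (ns hm hn _ hx (by simp [← c1, show φ v = 0 by simpa using d2])
      (by simp [← c2, show φ' v = 0 by simpa using d1]))) hw₀
    hm hn hx (by
      rw [map_sub, cW_sub, map_smul, map_smul, cW_smul, cW_smul, ← c1, ← c2]
      simp [smul_smul, mul_comm])
  exact x0 (ns hm hn _ hx (by simp [← e1, iw, ww]) (by simp [← e1, iw', ww']))

theorem even_case (h2 : (2 : F) = 0) (hk : 3 ≤ finrank F U) (hS : SpO.Std β M)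
    {m : (U ⊗[F] W) ≃ₗ[F] (U ⊗[F] W)} (hm : m ∈ M) : IsT m := by
  by_contra hn
  have := h.ntU
  have := h.ntW
  obtain ⟨w, hw⟩ := exists_ne (0 : W)
  obtain ⟨w', e1, e2⟩ := exists_ker_not_mem h.l3 (β w) w
  obtain ⟨w'', -, e3, e4, -, -, -, e5⟩ := h.hyp w w'
  obtain ⟨χ, c1, c2, c3⟩ := exists_dual_three e5
  have inj : Function.Injective (cW U (β w) ∘ₗ (im (LW F U w) m).subtype) :=
    (injective_iff_map_eq_zero _).2 fun x hx => by
      obtain ⟨u, hu⟩ := h.star_ns h2 hk hS hw hw hm hn x.2 hx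
      obtain ⟨u', hu'⟩ := h.star_ns h2 hk hS (w := w') (by rintro rfl; simp at e2) hw hm hn x.2
        (by simp [← hu, h.rW _ _ e1])
      by_contra x0
      exact e2 (mem_span_of_tmul_eq' (fun e => x0 (Subtype.ext (by simp [← hu', e])))
        (hu'.trans hu.symm))
  have sj := (LinearMap.injective_iff_surjective_of_finrank_eq_finrank
    (by rw [finrank_im, finrank_LW hw])).1 inj
  obtain ⟨u, hu⟩ := exists_ne (0 : U)
  obtain ⟨u', hu'⟩ := exists_one h.ndU h.rU hu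
  obtain ⟨⟨x, hx⟩, e⟩ := sj u
  obtain ⟨⟨x', hx'⟩, e'⟩ := sj u'
  replace e : cW U (β w) x = u := e
  replace e' : cW U (β w) x' = u' := e'
  have k : ∀ a b c : F, b ≠ 0 ∨ c ≠ 0 → 1 + p (a • u + b • cW U (β w') x + c • cW U (β w'') x)
      (a • u' + b • cW U (β w') x' + c • cW U (β w'') x') = 0 := fun a b c hb => by
    have := h.key_even h2 hk hS hw (w' := a • w + b • w' + c • w'') (fun e => by
      have hc : c = 0 := by
        obtain ⟨d, hd⟩ := Submodule.mem_span_singleton.1 e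
        simpa [c1, c2, c3] using (congrArg χ hd).symm
      rw [hc, zero_smul, add_zero, Submodule.add_mem_iff_right _
        (Submodule.smul_mem _ _ (Submodule.mem_span_singleton_self w)),
        Submodule.smul_mem_iff _ (hb.resolve_right fun e => e hc)] at e
      exact e2 e) (by simp [h.aW w, e1, e3]) hw hm hn x hx x' hx'
    simpa only [polar_add_left, polar_comm _ x', Dm_apply, h.left, LinearMap.id_apply, e, e', hu',
      map_add β, map_smul β, cW_add, cW_smul] using this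
  have a1 := k 1 1 1 (by simp)
  have a2 := k 1 1 0 (by simp)
  have a3 := k 1 0 1 (by simp)
  have a4 := k 0 1 1 (by simp)
  have a5 := k 0 1 0 (by simp)
  have a6 := k 0 0 1 (by simp)
  simp only [map_add, LinearMap.add_apply, one_smul, zero_smul, zero_add, add_zero, hu']
    at a1 a2 a3 a4 a5 a6
  exact one_ne_zero (α := F) (by linear_combination a2 + a3 + a4 - a1 - a5 - a6)

theorem main (hq : finrank F U = 2 → ∃ c : F, c ≠ 0 ∧ c ≠ 1) {m : (U ⊗[F] W) ≃ₗ[F] (U ⊗[F] W)}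
    (hm : m ∈ M) (hn : ¬ IsT m) : commutator (OG Q) ≤ M.subgroupOf (OG Q) := by
  by_cases hk : finrank F U ≤ 2
  · obtain ⟨c, hc0, hc1⟩ := hq (hk.antisymm h.k2)
    exact h.two_case hk hc0 hc1 hm hn
  by_cases hS : SpO.Std β M
  · by_cases h2 : (2 : F) = 0
    · exact absurd (h.even_case h2 (by omega) hS hm) hn
    · exact absurd (h.odd_case h2 (by omega) hS hm) hn
  · exact h.le_of_not_std hS

end SS

/-- An Eichler transformation moving a pure tensor to a tensor of rank two. -/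
theorem not_isT_eich {ε : F} {p : LinearMap.BilinForm F U} {β : LinearMap.BilinForm F W}
    {Q : QuadraticForm F (U ⊗[F] W)} {M : Subgroup ((U ⊗[F] W) ≃ₗ[F] (U ⊗[F] W))}
    (h : TO ε p β Q M) [FiniteDimensional F U] [FiniteDimensional F W] {u : U} {w v : W}
    (hu : u ≠ 0) (hw : w ≠ 0) (hv : v ∉ F ∙ w) (h0 : Q (u ⊗ₜ w) = 0) (h1 : Q (u ⊗ₜ v) = 0)
    (h2 : p u u = 0) : ∃ g ∈ OM Q, ¬ IsT g := by
  refine ⟨_, ⟨_, h.nd.eich_mem_commutator (good_of_five_le h.n5) (u ⊗ₜ w) (u ⊗ₜ v), rfl⟩, ?_⟩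
  rintro ⟨a, b, e⟩
  obtain ⟨f, hf⟩ := exists_one h.ndU h.rU hu
  obtain ⟨y, -, y0, y1, y2⟩ := exists_ne_zero_two_ker (U := (⊤ : Submodule F W))
    (by rw [finrank_top]; exact h.l3) (β w) (β v)
  obtain ⟨z, z1, z2⟩ := exists_orth_one h.ndW h.rW _ hv
  replace z1 := z1 w (Submodule.mem_span_singleton_self w)
  simp only [Subgroup.coe_subtype, eich_apply h0 (show polar Q (u ⊗ₜ w) (u ⊗ₜ v) = 0 by
    simp [h.pure, h2]), h.pure, h1] at e
  obtain ⟨c, hc⟩ := Submodule.mem_span_singleton.1 (mem_span_of_tmul_eq (u := a f) (u' := f)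
    (w := b y) (w' := y) (by simpa using y0) (by simpa [y1, y2] using (e f y).symm))
  obtain ⟨ψ, h3, h4⟩ := exists_dual_two (F := F) (a := f) (x := u) fun e => by
    obtain ⟨d, rfl⟩ := Submodule.mem_span_singleton.1 e
    have : d ≠ 0 := by rintro rfl; simp at hu
    simp [show p f f = 0 by simpa [this] using h2] at hf
  simpa [hf, z1, z2, h3, h4, ← hc, hw] using congrArg (cU W ψ) (e f z)

open Geo in
theorem max_om_spsp [Finite F] {ι : Type} [Fintype ι] [DecidableEq ι]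
    {Q : QuadraticForm F (ι → F)} {n₁ n₂ : ℕ} (h1 : 2 ≤ n₁) (h12 : n₁ < n₂) (h5 : 5 ≤ n₂)
    (hex : ¬ (Nat.card F = 2 ∧ n₁ = 2)) {e : ι ≃ Fin n₁ × Fin n₂} {P : GL ι F}
    {f₁ : (Fin n₁ → F) → (Fin n₁ → F) → F} {f₂ : (Fin n₂ → F) → (Fin n₂ → F) → F}
    (hf₁ : IsSymplecticForm f₁) (hf₂ : IsSymplecticForm f₂)
    (hT : IsTensorFormStructure id (polar Q) f₁ f₂ e P)
    (hpure : ∀ (x₁ : Fin n₁ → F) (x₂ : Fin n₂ → F),
      Q (P.1.mulVec ((fun a : Fin n₁ × Fin n₂ => x₁ a.1 * x₂ a.2) ∘ e)) = 0) :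
    IsMaximalIn (omegaGL ⇑Q) (tensorProductSubgroup n₁ n₂ e P ⊓ omegaGL ⇑Q) := by
  obtain ⟨c, hc, hT⟩ := tensor_form (σ := RingHom.id F) hT (bilOf hf₁.bilinear) (fun _ _ => rfl)
    (bilOf hf₂.bilinear) fun _ _ => rfl
  have hS := fun M => SS.mk' (M := M) (Q := Q.comp (tenE e P).symm.toLinearMap)
    (p := c • bilOf hf₁.bilinear)
    ⟨fun x hx => (bilOf_nd hf₁.bilinear hf₁.nondegenerate).1 x fun y => by simpa [hc] using hx y,
      fun x hx => (bilOf_nd hf₁.bilinear hf₁.nondegenerate).2 x fun y => by simpa [hc] using hx y⟩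
    (bilOf_nd hf₂.bilinear hf₂.nondegenerate) (fun x => by simp [bilOf_apply, hf₁.alternating])
    hf₂.alternating (fun u w u' w' => by
      simpa [polar, bilOf_apply, mul_assoc] using hT u w u' w')
    (fun u w => by simpa [tenE_symm] using hpure u w) (by simpa) (by simpa) (by simpa)
  refine isMaximalIn_Om' (tenE e P) IsT (mem_tensor_iff e P) ?_ fun M a b ⟨g, hg, hn⟩ =>
    (hS M a b).main (fun h => exists_ne_zero_one fun e => hex ⟨e, by simpa using h⟩) hg hn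
  have h := hS _ (fun g hg _ => hg) le_rfl
  have := h.ntU
  have := h.ntW
  obtain ⟨u, hu⟩ := exists_ne (0 : Fin n₁ → F)
  obtain ⟨w, hw⟩ := exists_ne (0 : Fin n₂ → F)
  obtain ⟨v, -, hv⟩ := exists_ker_not_mem h.l3 0 w
  exact not_isT_eich h.toTO hu hw hv (h.q0 _ _) (h.q0 _ _) (h.aU u)

end Cfsg.Agent.Max2
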