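import Mathlib
import Cfsg.Agent.Max2.OO1

/-!
# `O(U) ⊗ O(W)` in `Ω(U ⊗ W)`: the stabiliser of `U ⊗ w`
-/

set_option autoImplicit false

namespace Cfsg.Agent.Max2

open Module Cfsg.Agent.Max TensorProduct Classical.SpWitt Cfsg.Agent.Orth QuadraticMap

variable {F U W : Type*} [Field F] [AddCommGroup U] [Module F U] [AddCommGroup W] [Module F W]

theorem std_left [Nontrivial U] [FiniteDimensional F U] [FiniteDimensional F W] {w y : W}
    {φ : Dual F W} (hw : w ≠ 0) (hy : φ y = 1) {g : (U ⊗[F] W) ≃ₗ[F] (U ⊗[F] W)}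
    (e : ∀ v, ∃ v', ∀ u, cjm g (Dm LinearMap.id φ w) (u ⊗ₜ v) = u ⊗ₜ v') :
    ∃ w', im (LW F U w) g = LW F U w' := by
  obtain ⟨u₀, hu₀⟩ := exists_ne (0 : U)
  choose ν hν using e
  obtain ⟨v, hv⟩ : ∃ v, ν v ≠ 0 := by
    by_contra hn
    push Not at hn
    have : cjm g (Dm LinearMap.id φ w) = 0 := TensorProduct.ext' fun u v => by
      rw [hν, hn]; simp
    have := LinearMap.congr_fun this (g (u₀ ⊗ₜ y))
    simp [Dm_apply, hy, tmul_ne_zero hu₀ hw] at this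
  refine ⟨ν v, (Submodule.eq_of_le_of_finrank_eq ?_
    (by rw [finrank_im, finrank_LW hw, finrank_LW hv])).symm⟩
  rintro _ ⟨u, rfl⟩
  rw [inW_apply, ← hν]
  exact apply_mem_im.2 (Dm_mem _ _ _ _)

/-- The actions on `(U ⊗ w)^⊥` of elements of `M` in the unipotent radical. -/
def QT {S : QuadraticForm F W} (M : Subgroup ((U ⊗[F] W) ≃ₗ[F] (U ⊗[F] W))) {w : W}
    (hw : S w = 0) : AddSubgroup (U ⊗[F] W →ₗ[F] U) where
  carrier := {Θ | (∀ u, Θ (u ⊗ₜ w) = 0) ∧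
    ∃ g ∈ M, ∀ x, cW U (S.polarBilin w) x = 0 → g x = x + Θ x ⊗ₜ w}
  zero_mem' := ⟨fun _ => rfl, 1, M.one_mem, fun x _ => by simp⟩
  add_mem' := by
    rintro Θ Θ' ⟨e, g, hg, f⟩ ⟨e', g', hg', f'⟩
    refine ⟨fun u => by simp [e, e'], g * g', M.mul_mem hg hg', fun x hx => ?_⟩
    rw [LinearEquiv.mul_apply, f' x hx, f _ (by simp [hx, hw])]
    simp [e, add_tmul, add_right_comm, add_assoc]
  neg_mem' := by
    rintro Θ ⟨e, g, hg, f⟩
    refine ⟨fun u => by simp [e], g⁻¹, M.inv_mem hg, fun x hx => ?_⟩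
    rw [LinearEquiv.coe_inv, LinearEquiv.symm_apply_eq, f _ (by simp [hx, hw])]
    simp [e, neg_tmul]

/-- The maps `γ` with `γ ⊗ (β v ⊗ w)` in `QT`. -/
def GT {S : QuadraticForm F W} (M : Subgroup ((U ⊗[F] W) ≃ₗ[F] (U ⊗[F] W))) {w : W}
    (hw : S w = 0) (v : W) : Submodule F (U →ₗ[F] U) where
  carrier := {γ | ∀ s : F, s • γ ∘ₗ cW U (S.polarBilin v) ∈ QT M hw}
  zero_mem' := fun s => by simp
  add_mem' := fun e e' s => by simpa [LinearMap.add_comp] using (QT M hw).add_mem (e s) (e' s)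
  smul_mem' := fun c γ e s => by simpa [LinearMap.smul_comp, smul_smul] using e (s * c)

namespace OO

variable {P : QuadraticForm F U} {S : QuadraticForm F W} {Q : QuadraticForm F (U ⊗[F] W)}
  {M : Subgroup ((U ⊗[F] W) ≃ₗ[F] (U ⊗[F] W))} (h : OO P S Q M)
include h

theorem qt_cj {w : W} {hw : S w = 0} {Θ : U ⊗[F] W →ₗ[F] U} (e : Θ ∈ QT M hw)
    {t : (U ⊗[F] W) ≃ₗ[F] (U ⊗[F] W)} (ht : t ∈ M) (a : U ≃ₗ[F] U)
    (et : ∀ u, t (u ⊗ₜ w) = a u ⊗ₜ w) : a.toLinearMap ∘ₗ Θ ∘ₗ t.symm.toLinearMap ∈ QT M hw := by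
  obtain ⟨e, g, hg, f⟩ := e
  refine ⟨fun u => ?_, _, M.mul_mem (M.mul_mem ht hg) (M.inv_mem ht), fun x hx => ?_⟩
  · have : t.symm (u ⊗ₜ w) = a.symm u ⊗ₜ w := by simp [LinearEquiv.symm_apply_eq, et]
    simp [this, e]
  · simp [f _ (h.perp_symm ht (by rintro _ ⟨u, rfl⟩; exact ⟨_, (et u).symm⟩) hx), et]

omit h in
theorem eich_W {w v : W} (hw : S w = 0) (hv : polar S w v = 0) (x : U ⊗[F] W) :
    TensorProduct.congr (1 : U ≃ₗ[F] U) (eich S w v).1 x = x + (cW U (S.polarBilin v) x -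
      S v • cW U (S.polarBilin w) x) ⊗ₜ w - cW U (S.polarBilin w) x ⊗ₜ v := by
  induction x with
  | zero => simp
  | tmul u z =>
    simp only [congr_tmul, eich_apply hw hv, cW_tmul, polarBilin_apply_apply, tmul_sub, tmul_add,
      tmul_smul, sub_tmul, ← smul_tmul', LinearEquiv.coe_one, id]
    module
  | add x y hx hy => simp only [map_add, hx, hy, add_tmul, sub_tmul, smul_add]; abel

variable [FiniteDimensional F U] [FiniteDimensional F W]

omit [FiniteDimensional F U] in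
theorem qt_id {w v : W} (hw : S w = 0) (hv : polar S w v = 0) :
    cW U (S.polarBilin v) ∈ QT M hw :=
  ⟨fun u => by simp [polar_comm _ v, hv], _, h.eW w v, fun x hx => by simp [eich_W hw hv, hx]⟩

omit [FiniteDimensional F U] in
theorem qt_comm (hS : Std S M) {w v v' : W} (hw0 : w ≠ 0) {hw : S w = 0} (hv : polar S w v = 0)
    (hvv : polar S v' v ≠ 0) {γ γ' : U →ₗ[F] U} (e : γ ∘ₗ cW U (S.polarBilin v) ∈ QT M hw)
    (e' : γ' ∘ₗ cW U (S.polarBilin v') ∈ QT M hw)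
    (hs : ∀ u u', polar P (γ' u) u' = polar P u (γ' u')) (u u' : U) :
    polar P u (γ (γ' u')) = polar P u' (γ (γ' u)) := by
  obtain ⟨y, hy, -⟩ := h.nW.exists_hyp hw0 hw
  have fm : ∀ {Θ : U ⊗[F] W →ₗ[F] U} {g : (U ⊗[F] W) ≃ₗ[F] (U ⊗[F] W)}, g ∈ M →
      (∀ u, Θ (u ⊗ₜ w) = 0) → (∀ x, cW U (S.polarBilin w) x = 0 → g x = x + Θ x ⊗ₜ w) →
      (∀ x ∈ LW F U w, g x = x) ∧ ∀ u z, cW U (S.polarBilin w) z = 0 →
      cW U (S.polarBilin w) (g (u ⊗ₜ y) - u ⊗ₜ y) = 0 ∧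
      polar Q (g (u ⊗ₜ y) - u ⊗ₜ y) z = -polar P u (Θ z) := by
    intro Θ g hg e f
    have f0 : ∀ u, g (u ⊗ₜ w) = u ⊗ₜ w := fun u => by simp [f (u ⊗ₜ w) (by simp [hw]), e]
    have h1 : ∀ u u', polar Q (u' ⊗ₜ w) (g (u ⊗ₜ y)) = polar Q (u' ⊗ₜ w) (u ⊗ₜ y) :=
      fun u u' => by rw [← h.map hg (u' ⊗ₜ w) (u ⊗ₜ y), f0]
    refine ⟨by rintro _ ⟨u, rfl⟩; exact f0 u, fun u z hz =>
      ⟨h.perpL.1 (by rintro _ ⟨u', rfl⟩; simp [h1]), ?_⟩⟩
    have h2 := h.map hg (u ⊗ₜ y) z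
    rw [f z hz, polar_add_right, polar_comm _ _ (_ ⊗ₜ w), h1, h.pu, hy] at h2
    rw [polar_sub_left, polar_comm _ u]
    linear_combination h2
  obtain ⟨e0, g, hg, e⟩ := e
  obtain ⟨e0', g', hg', e'⟩ := e'
  obtain ⟨f1, f2⟩ := fm hg e0 e
  obtain ⟨f1', f2'⟩ := fm hg' e0' e'
  obtain ⟨N, ⟨t, ht, h1⟩, -, h2, h3⟩ := heisX (B := Q.polarBilin) (fun x y e => by
      simpa [polar_comm _ y x] using e) (X := LW F U w) hg (h.sg hg) hg' (h.sg hg') f1 f1'
    (fun y hy => by rw [e y (h.perpL.1 hy)]; simpa using tmul_mem_LW _ _)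
    (fun y hy => by rw [e' y (h.perpL.1 hy)]; simpa using tmul_mem_LW _ _)
  have hc := hS w hw0 hw t ht fun x hx => by rw [h1, h2 x (h.perpL.2 hx), add_zero]
  have k : ∀ u u', polar Q (g (u ⊗ₜ y) - u ⊗ₜ y) (g' (u' ⊗ₜ y) - u' ⊗ₜ y) =
      polar S v' v * polar P u (γ (γ' u')) := by
    intro u u'
    have : cW U (S.polarBilin v) (g' (u' ⊗ₜ y) - u' ⊗ₜ y) = -(polar S v' v • γ' u') :=
      sub_eq_zero.1 (h.nU _ fun a => by
        rw [polar_sub_left, polar_comm, ← h.lf, polar_comm, (f2' u' (a ⊗ₜ v) (by simp [hv])).2]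
        simp [hs])
    rw [(f2 u _ (f2' u' 0 (map_zero _)).1).2, LinearMap.comp_apply, this]
    simp
  have := h3 (u ⊗ₜ y) (u' ⊗ₜ y)
  rw [show N (u ⊗ₜ y) = 0 by simpa using (h1 _).symm.trans (hc _)] at this
  simp only [polarBilin_apply_apply, k, polar_comm _ (g' _ - _), map_zero] at this
  exact mul_left_cancel₀ hvv (by linear_combination -this)

variable [Finite F]

theorem gt_scalar (hq : finrank F U = 3 → ∃ s : F, s ≠ 0 ∧ s ^ 2 ≠ 1) (hS : Std S M) {w v : W}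
    (hw0 : w ≠ 0) {hw : S w = 0} (hv : polar S w v = 0) (hv0 : S v = 0) (hv' : v ∉ F ∙ w)
    {γ : U →ₗ[F] U} (e : γ ∈ GT M hw v) : ∃ c : F, γ = c • LinearMap.id := by
  have h2 := h.two
  obtain ⟨a, a1, a2, a3⟩ := h.nW.exists_hyp_partner _ hv' hv0 fun x hx => by
    obtain ⟨a, rfl⟩ := Submodule.mem_span_singleton.1 hx; simp [hv]
  replace a1 := a1 w (Submodule.mem_span_singleton_self w)
  obtain ⟨b, b1, b2, b3⟩ := h.nW.exists_nonsingular_perp_pair (u := w) (v := a) h.l5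
  have bw : (eich S a b).1 w = w :=
    eich_apply_of_orth a3 b2 (by rwa [polar_comm]) (by rwa [polar_comm])
  have vv : polar S ((eich S a b).1 v) v ≠ 0 := by
    simp [eich_apply a3 b2, hv0, polar_comm _ a v, a2, b3]
  have wv : polar S w ((eich S a b).1 v) = 0 := by rw [← hv, ← OG.map_polar (eich S a b) w v, bw]
  have mv : ∀ γ ∈ GT M hw v, γ ∘ₗ cW U (S.polarBilin ((eich S a b).1 v)) ∈ QT M hw := by
    intro γ e
    convert h.qt_cj (e 1) (h.eW a b) 1 fun u => by simp [bw] using 1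
    refine TensorProduct.ext' fun u z => ?_
    simp [← OG.polar_inv_right]; rfl
  have sy : ∀ γ ∈ GT M hw v, ∀ u u', polar P (γ u) u' = polar P u (γ u') := fun γ e u u' => by
    rw [polar_comm]
    exact h.qt_comm hS hw0 hv vv (by simpa using e 1) (γ' := LinearMap.id) (h.qt_id hw wv)
      (fun _ _ => rfl) u' u
  have cj : ∀ γ ∈ GT M hw v, ∀ n c, cjm (eich P n c).1 γ ∈ GT M hw v := fun γ e n c s => by
    convert h.qt_cj (e s) (h.eU n c) (eich P n c).1 fun u => by simp using 1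
    refine TensorProduct.ext' fun u z => ?_
    simp; rfl
  by_contra hn
  obtain ⟨n, hn, α⟩ : ∃ n, P n = 0 ∧ polar P n (γ n) ≠ 0 := by
    by_contra e'
    push Not at e'
    exact hn (sym_scalar h2 h.nU h.k3 hq (sy γ e) e')
  have ev : ∀ c, cjm (eich P n c).1 γ + cjm (eich P n (-c)).1 γ - (γ + γ) ∈ GT M hw v := fun c =>
    sub_mem (add_mem (cj γ e n c) (cj γ e n (-c))) (add_mem e e)
  obtain ⟨f, hf, hf0⟩ := h.nU.exists_hyp (by rintro rfl; simp at α) hn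
  obtain ⟨c, c1, c2, c3⟩ := exists_ns_hyp h.nU h.k3 hn hf0 hf
  have h4 : (P.polarBilin n).smulRight n ∈ GT M hw v := by
    by_cases h3 : finrank F U = 3
    · obtain ⟨s, hs0, hs1⟩ := hq h3
      refine (Submodule.smul_mem_iff _ (show 2 * (s ^ 2 * (s ^ 2 - 1)) * P c ^ 2 *
        polar P n (γ n) ≠ 0 by simp [h2, hs0, sub_ne_zero.2 hs1, c3, α])).1 ?_
      convert sub_mem (ev (s • c)) (Submodule.smul_mem _ (s ^ 2) (ev c)) using 1
      ext x
      rw [LinearMap.sub_apply, LinearMap.smul_apply _ (_ - _), cjm_eich hn c1,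
        cjm_eich hn (by simp [c1])]
      simp only [LinearMap.smul_apply, LinearMap.smulRight_apply, polarBilin_apply_apply, q_smul,
        p_smul_left, p_smul_right, map_smul]
      module
    have hd := h.nU.finrank_perp_hyp hn hf0 hf
    have := h.k3
    obtain ⟨⟨d, hd⟩, e1, e2⟩ := (nds_hyp h.nU hn hf0 hf).nd.exists_orth_nonsingular h2 (by omega)
      (u := ⟨c, mem_perp_pair.2 ⟨c1, c2⟩⟩) c3
    replace e1 : polar P c d = 0 := e1
    replace e2 : P d ≠ 0 := e2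
    have d1 := (mem_perp_pair.1 hd).1
    refine (Submodule.smul_mem_iff _ (show 2 * 2 * 2 * P c * P d * polar P n (γ n) ≠ 0 by
      simp [h2, c3, e2, α])).1 ?_
    convert sub_mem (add_mem (ev (c + d)) (ev (c - d)))
      (Submodule.smul_mem _ (2 : F) (add_mem (ev c) (ev d))) using 1
    ext x
    rw [LinearMap.sub_apply, LinearMap.smul_apply _ (_ + _), LinearMap.add_apply (_ - _),
      LinearMap.add_apply (_ - _), cjm_eich hn c1, cjm_eich hn d1, cjm_eich hn (by simp [c1, d1]),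
      cjm_eich hn (by simp [c1, d1])]
    simp only [LinearMap.smul_apply, LinearMap.smulRight_apply, polarBilin_apply_apply, q_add,
      q_sub, e1, polar_add_left, polar_sub_left, polar_add_right, polar_sub_right, map_add γ,
      map_sub γ]
    module
  have h5 := cj _ h4 f c
  have := h.qt_comm hS hw0 hv vv (by simpa using h4 1) (mv _ h5) (sy _ h5) ((eich P f c).1 n) n
  have hnm : polar P n ((eich P f c).1 n) ≠ 0 := by
    simp [eich_apply hf0 c2, hn, hf, c1, polar_comm _ c, polar_comm _ f, c3]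
  simp [cjm_apply, ← OG.map_polar (eich P f c) n ((eich P f c).1.symm _), hn, hnm,
    polar_comm _ _ n] at this

theorem d1a (hq : finrank F U = 3 → ∃ s : F, s ≠ 0 ∧ s ^ 2 ≠ 1) (hS : Std S M) {w : W}
    (hw0 : w ≠ 0) (hw : S w = 0) (g : (U ⊗[F] W) ≃ₗ[F] (U ⊗[F] W)) (hg : g ∈ M)
    (f : ∀ u, g (u ⊗ₜ w) = u ⊗ₜ w)
    (e : ∀ x, cW U (S.polarBilin w) x = 0 → g x - x ∈ LW F U w) :
    ∃ ν : W →ₗ[F] W, ∀ u v, g (u ⊗ₜ v) = u ⊗ₜ ν v := by
  obtain ⟨y, hy, hy0⟩ := h.nW.exists_hyp hw0 hw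
  have hχ : S.polarBilin y w = 1 := by simpa [polar_comm _ y] using hy
  have := h.ntU
  obtain ⟨u₀, hu₀⟩ := exists_ne (0 : U)
  obtain ⟨ψ, hψ⟩ := exists_dual_one (F := F) hu₀
  let Θ := cW U (S.polarBilin y) ∘ₗ ((g : _ →ₗ[F] _) - LinearMap.id)
  have gΘ : ∀ x, cW U (S.polarBilin w) x = 0 → g x = x + Θ x ⊗ₜ w := fun x hx => by
    rw [← sub_eq_iff_eq_add']; exact (eq_of_mem_LW hχ (e x hx)).symm
  have hΘ : Θ ∈ QT M hw := ⟨fun u => by simp [Θ, f], g, hg, gΘ⟩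
  let Z : Submodule F W := (F ∙ LinearMap.id).comap
    (LinearMap.llcomp F U _ U Θ ∘ₗ (TensorProduct.mk F U W).flip)
  have hZ : ∀ z, z ∈ Z ↔ ∃ c : F, c • LinearMap.id = Θ ∘ₗ inW F U z := fun z =>
    Submodule.mem_span_singleton
  have hd := h.nW.finrank_perp_hyp hw hy0 hy
  have := h.l5
  have k : perp S (Submodule.span F {w, y}) ≤ Z := by_contra fun hc => by
    obtain ⟨a, ha, a0, a1⟩ := (nds_hyp h.nW hw hy0 hy).exists_sing (by omega) hc
    obtain ⟨a2, a3⟩ := mem_perp_pair.1 ha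
    obtain ⟨b, b1, b2, b3⟩ := h.nW.exists_nonsingular_perp_pair (u := w) (v := a) h.l5
    obtain ⟨c, hc⟩ := h.gt_scalar hq hS hw0 (hw := hw) a2 a0 (fun e => by
      obtain ⟨c, rfl⟩ := Submodule.mem_span_singleton.1 e
      simp [show c = 0 by simpa [polar_comm _ y, hy] using a3] at a1)
      (γ := Θ ∘ₗ inW F U a) fun t => by
      have k : ∀ b, polar S w b = 0 → polar S a b = 0 → Θ ∘ₗ (TensorProduct.congr 1
          (eich S a (-b)).1).toLinearMap ∈ QT M hw := fun b b1 b2 => by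
        convert h.qt_cj hΘ (h.eW a b) 1 fun u => by
          simp [eich_apply_of_orth a0 b2 (x := w) (by rwa [polar_comm]) (by rwa [polar_comm])]
          using 1
        refine TensorProduct.ext' fun u z => ?_
        simp [eich_symm a0 b2]; rfl
      have := mem_of_sq h.two (A := QT M hw) (v := (2 * S b) • (Θ ∘ₗ inW F U a) ∘ₗ
        cW U (S.polarBilin a)) (fun s => by
          convert sub_mem (add_mem hΘ hΘ) (add_mem (k (s • b) (by simp [b1]) (by simp [b2]))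
            (k (-(s • b)) (by simp [b1]) (by simp [b2]))) using 1
          refine TensorProduct.ext' fun u z => ?_
          simp only [LinearMap.smul_apply, LinearMap.comp_apply, cW_tmul, LinearMap.sub_apply,
            LinearMap.add_apply, LinearEquiv.coe_coe, congr_tmul, neg_neg,
            eich_apply a0 (show polar S a (s • b) = 0 by simp [b2]),
            eich_apply a0 (show polar S a (-(s • b)) = 0 by simp [b2]), QuadraticMap.map_neg,
            q_smul, tmul_add, tmul_sub, tmul_smul, tmul_neg, map_add, map_sub, map_smul, map_neg,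
            smul_neg, inW_apply, LinearEquiv.coe_one, id, polarBilin_apply_apply, polar_neg_left]
          module) (t / (2 * S b))
      rwa [smul_smul, div_mul_cancel₀ _ (mul_ne_zero h.two b3)] at this
    exact a1 ((hZ a).2 ⟨c, hc.symm⟩)
  obtain ⟨v, hv⟩ := sp_exists_dual h.ndW (ψ ∘ₗ Θ ∘ₗ TensorProduct.mk F U W u₀)
  have hv0 : polar S w v = 0 := h.rW _ _ (by simp [hv, hΘ.1])
  have e1 : ∀ x, cW U (S.polarBilin w) x = 0 → Θ x = cW U (S.polarBilin v) x := fun x hx =>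
    sub_eq_zero.1 (eq_zero_of_ker (f := Θ - cW U (S.polarBilin v)) (φ := S.polarBilin w)
      (fun e => by simpa [hy] using LinearMap.congr_fun e y) (fun u z hz => by
        have := add_mem (k (hyp_proj_mem hw hy0 hy z)) (Z.smul_mem (polar S y z)
          ((hZ w).2 ⟨0, by ext u; simp [hΘ.1]⟩))
        rw [show polar S w z = 0 from hz, zero_smul, sub_zero, sub_add_cancel] at this
        obtain ⟨c, hc⟩ := (hZ z).1 this
        have h1 : ∀ u, Θ (u ⊗ₜ z) = c • u := fun u => (LinearMap.congr_fun hc u).symm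
        simp [hv, h1, hψ]) hx)
  have := hS w hw0 hw _ (M.mul_mem (M.inv_mem (h.eW w v)) hg) fun x hx => by
    rw [LinearEquiv.mul_apply, LinearEquiv.coe_inv, LinearEquiv.symm_apply_eq, eich_W hw hv0, hx,
      ← e1 x hx, gΘ x hx]
    simp
  refine ⟨(eich S w v).1, fun u z => ?_⟩
  have := this (u ⊗ₜ z)
  rwa [LinearEquiv.mul_apply, LinearEquiv.coe_inv, LinearEquiv.symm_apply_eq] at this

theorem isT_of_stab (hq : finrank F U = 3 → ∃ s : F, s ≠ 0 ∧ s ^ 2 ≠ 1) (hS : Std S M) {w w' : W}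
    (hw0 : w ≠ 0) (hw : S w = 0) {g : (U ⊗[F] W) ≃ₗ[F] (U ⊗[F] W)} (hg : g ∈ M)
    (hL : im (LW F U w) g = LW F U w') : IsT g := by
  have := h.ntU
  obtain ⟨u, hu⟩ := h.nU.exists_nonsingular
  have hw' : w' ≠ 0 := by
    rintro rfl
    obtain ⟨u', e⟩ : g (u ⊗ₜ w) ∈ LW F U (0 : W) := hL ▸ apply_mem_im.2 (tmul_mem_LW u w)
    exact tmul_ne_zero (ne_zero_of_Q_ne_zero hu) hw0 (by simpa using e.symm)
  have hw1 : S w' = 0 := by
    obtain ⟨x, hx, e⟩ : u ⊗ₜ w' ∈ im (LW F U w) g := hL ▸ tmul_mem_LW u w'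
    have := OM.og (h.hM hg) x
    rw [show g x = u ⊗ₜ w' from e, h.singL hw x hx, h.qq] at this
    simpa [h.two, hu] using this
  obtain ⟨b, hb, e⟩ := h.trW hw' hw0 hw1 hw
  obtain ⟨y, hy, hy0⟩ := h.nW.exists_hyp hw0 hw
  refine ((tSub F U W).mul_mem_cancel_left (isT_congr 1 b)).1 (h.isT_of_fix (w := w) (y := y)
    (by simp [hw]) hy (by simp [hy0]) (h.singL hw) (fun v hv => ?_) (h.d1a hq hS hw0 hw)
    (M.mul_mem hb hg) ?_)
  · have hv' : polar S w (-v) = 0 := by simpa using hv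
    refine ⟨_, h.eW w (-v), fun u => by simp [eich_apply_left hw hv'],
      fun x hx => by simpa [eich_W hw hv', hx] using tmul_mem_LW _ _, fun u => ?_⟩
    rw [eich_W hw hv']
    convert tmul_mem_LW (-(polar S v y • u) - S v • u) w using 1
    simp [hy, tmul_neg]; abel
  rw [im_mul, hL]
  refine le_antisymm ?_ ?_
  · rintro _ ⟨_, ⟨u, rfl⟩, rfl⟩; exact ⟨u, by simp [e]⟩
  · rintro _ ⟨u, rfl⟩; exact ⟨_, tmul_mem_LW u w', by simp [e]⟩

theorem isT_of_plane (hq : finrank F U = 3 → ∃ s : F, s ≠ 0 ∧ s ^ 2 ≠ 1) (hS : Std S M)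
    {w v w' : W} (hw0 : w ≠ 0) (hw : S w = 0) (hv : S v = 0) (hwv : polar S w v = 0)
    {g : (U ⊗[F] W) ≃ₗ[F] (U ⊗[F] W)} (hg : g ∈ M) (hw' : w' ≠ 0)
    (hL : LW F U w' ≤ im (LW F U w ⊔ LW F U v) g) : IsT g := by
  have := h.ntU
  obtain ⟨c, c1, c2, c3⟩ := h.nW.exists_nonsingular_perp_pair (u := w) (v := v) h.l5
  obtain ⟨y, hy, -⟩ := h.nW.exists_hyp hw0 hw
  have hq' := M.mul_mem (M.mul_mem hg (h.eW w c)) (M.inv_mem hg)
  have f : ∀ u, (g * TensorProduct.congr 1 (eich S w c).1 * g⁻¹ : _ ≃ₗ[F] _) (u ⊗ₜ w') =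
      u ⊗ₜ w' := fun u => by
    obtain ⟨x, hx, e⟩ := hL (tmul_mem_LW u w')
    obtain ⟨_, ⟨a, rfl⟩, _, ⟨b, rfl⟩, rfl⟩ := Submodule.mem_sup.1 hx
    rw [← e]
    simp [eich_apply_left hw c1, eich_apply_of_orth hw c1 hwv (by rwa [polar_comm])]
  have hw1 : S w' = 0 := by
    obtain ⟨u, hu⟩ := h.nU.exists_nonsingular
    obtain ⟨x, hx, e⟩ := hL (tmul_mem_LW u w')
    obtain ⟨_, ⟨a, rfl⟩, _, ⟨b, rfl⟩, rfl⟩ := Submodule.mem_sup.1 hx
    have := OM.og (h.hM hg) (a ⊗ₜ w + b ⊗ₜ v)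
    rw [show g (a ⊗ₜ w + b ⊗ₜ v) = u ⊗ₜ w' from e] at this
    simpa [h.two, hu, h.qq, q_add, h.pu, hw, hv, hwv] using this
  have hT := h.isT_of_stab hq hS hw' hw1 hq' (w' := w') (le_antisymm
    (by rintro _ ⟨_, ⟨u, rfl⟩, rfl⟩; exact ⟨u, (f u).symm⟩)
    (by rintro _ ⟨u, rfl⟩; exact ⟨_, ⟨u, rfl⟩, f u⟩))
  choose ν hν using left_of_fix hT hw' f
  obtain ⟨w₁, e⟩ := std_left (φ := S.polarBilin w) hw0 (y := y) hy (g := g) fun z =>
    ⟨(2 * S c)⁻¹ • (ν z + ν z - ν (ν z) - z), fun u => by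
      have e1 : ∀ x, (2 * S c) • cjm g (Dm LinearMap.id (S.polarBilin w) w) x =
          (g * TensorProduct.congr 1 (eich S w c).1 * g⁻¹ : _ ≃ₗ[F] _) x +
          (g * TensorProduct.congr 1 (eich S w c).1 * g⁻¹ : _ ≃ₗ[F] _) x -
          (g * TensorProduct.congr 1 (eich S w c).1 * g⁻¹ : _ ≃ₗ[F] _)
          ((g * TensorProduct.congr 1 (eich S w c).1 * g⁻¹ : _ ≃ₗ[F] _) x) - x := fun x => by
        obtain ⟨x, rfl⟩ := g.surjective x
        simp only [LinearEquiv.mul_apply, LinearEquiv.coe_inv, LinearEquiv.symm_apply_apply,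
          cjm_apply, ← map_add g, ← map_sub g, ← map_smul g, eich_W hw c1, Dm_apply]
        congr 1
        simp only [map_add, map_sub, map_smul, smul_zero, cW_tmul, polarBilin_apply_apply, p_self, hw, c1,
          polar_comm _ c w, LinearMap.id_apply, mul_zero, zero_smul, add_zero, sub_zero, sub_tmul,
          ← smul_tmul']
        module
      rw [tmul_smul, tmul_sub, tmul_sub, tmul_add, ← hν (ν z), ← hν z, ← e1,
        inv_smul_smul₀ (mul_ne_zero h.two c3)]⟩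
  exact h.isT_of_stab hq hS hw0 hw hg e

end OO

end Cfsg.Agent.Max2
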