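import Mathlib
import Cfsg.Agent.Max2.OO2
import Cfsg.Agent.Max2.SS3

/-!
# Maximality of `O(U) ⊗ O(W)` in `Ω(U ⊗ W)`
-/

set_option autoImplicit false

namespace Cfsg.Agent.Max2

open Module Cfsg.Agent.Max TensorProduct Classical.SpWitt Cfsg.Agent.Orth QuadraticMap

section Quad

variable {F V : Type*} [Field F] [AddCommGroup V] [Module F V] {Q : QuadraticForm F V}
  {A A' : V →ₗ[F] V} {j : V ≃ₗ[F] V}

theorem inv_split (jj : ∀ x, j (j x) = x) (jA : ∀ x, j (A x) = A (j x))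
    (jA' : ∀ x, j (A' x) = A' (j x))
    (mv : ∀ x, j x - x ∈ LinearMap.range A ⊔ LinearMap.range A') (z : V) :
    ∃ x ∈ LinearMap.range A', j x = -x ∧ (2 : F) • (z - j z) - x ∈ LinearMap.range A := by
  obtain ⟨_, ⟨a, rfl⟩, _, ⟨b, rfl⟩, e⟩ := Submodule.mem_sup.1 (mv z)
  refine ⟨j (A' b) - A' b, ⟨j b - b, by simp [jA']⟩, by simp [jj], j a - a, ?_⟩
  rw [map_sub, ← jA, eq_sub_of_add_eq e]; simp only [map_sub, jj]; module

theorem inv_ker (h2 : (2 : F) ≠ 0) (hQ : ND Q) (hj : ∀ x y, polar Q (j x) (j y) = polar Q x y)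
    (sA : ∀ x y, polar Q (A x) y = -polar Q x (A y))
    (sA' : ∀ x y, polar Q (A' x) y = -polar Q x (A' y)) (AA : ∀ x, A (A x) = 0)
    (AA' : ∀ x, A' (A' x) = 0) (jj : ∀ x, j (j x) = x) (jA : ∀ x, j (A x) = A (j x))
    (jA' : ∀ x, j (A' x) = A' (j x))
    (mv : ∀ x, j x - x ∈ LinearMap.range A ⊔ LinearMap.range A') {z : V} (hz : A z = 0) :
    z - j z ∈ LinearMap.range A := by
  obtain ⟨_, ⟨x, rfl⟩, e1, y, e2⟩ := inv_split jj jA jA' mv z
  have h3 : A (A' x) = 0 := by simpa [AA, hz, ← jA] using congrArg A e2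
  have : A' x = 0 := hQ _ fun v => mul_left_cancel₀ h2 (by
    obtain ⟨_, ⟨a, rfl⟩, _, ⟨b, rfl⟩, e⟩ := Submodule.mem_sup.1 (mv v)
    have h5 := congrArg (fun z => polar Q z (A' x)) e
    have h4 := hj v (A' x)
    simp only [polar_add_left, polar_sub_left, sA, sA', h3, AA', e1, polar_neg_right,
      polar_zero_right] at h5 h4
    rw [polar_comm]
    linear_combination h5 - h4)
  rw [this, sub_zero] at e2
  exact (Submodule.smul_mem_iff _ h2).1 ⟨y, e2⟩

theorem exists_plane [FiniteDimensional F V] [Finite F] (hQ : ND Q) (h5 : 5 ≤ finrank F V)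
    {T : Submodule F V} (hT : finrank F T ≤ 3) (hT0 : T ≠ ⊥) :
    ∃ w v, Q w = 0 ∧ Q v = 0 ∧ polar Q w v = 0 ∧ w ∉ T ∧ v ∉ T ⊔ F ∙ w := by
  obtain ⟨w, hw, h1, h2⟩ : ∃ w, Q w = 0 ∧ w ∉ T ∧ w ∉ perp Q T := by
    by_contra e
    push Not at e
    rcases (nds_top hQ).sing_into (by rw [finrank_top]; omega) (X := T) (Y := perp Q T)
      (fun x hx y hy _ _ => mem_perp.1 hy x hx) (fun a _ ha => or_iff_not_imp_left.2 (e a ha))
      with e | e
    · have := Submodule.finrank_mono e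
      rw [finrank_top] at this; omega
    · exact hT0 (eq_bot_iff.2 fun x hx => hQ x fun y => mem_perp.1 (e trivial) x hx)
  have hw0 : w ≠ 0 := by rintro rfl; simp at h1
  obtain ⟨f, hf, hf0⟩ := hQ.exists_hyp hw0 hw
  have hd := hQ.finrank_perp_hyp hw hf0 hf
  obtain ⟨v, hv, v1, v2⟩ := (nds_hyp hQ hw hf0 hf).exists_sing (by omega) (X := T ⊔ F ∙ w)
    fun e => h2 (mem_perp.2 fun x hx => by
      have d1 := hQ.finrank_perp_singleton hw0
      have d2 := Submodule.finrank_add_le_finrank_add_finrank T (F ∙ w)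
      have d3 := finrank_span_one_le (F := F) w
      have : perp Q (F ∙ w) = T ⊔ F ∙ w := Submodule.eq_of_le_of_finrank_le (fun y hy => by
        simpa [mem_perp_singleton.1 hy] using add_mem (e (hyp_proj_mem hw hf0 hf y))
          (Submodule.mem_sup_right (Submodule.smul_mem _ (polar Q f y)
            (Submodule.mem_span_singleton_self w)))) (by omega)
      rw [polar_comm]
      exact mem_perp_singleton.1 (this ▸ Submodule.mem_sup_left hx))
  exact ⟨w, v, hw, v1, (mem_perp_pair.1 hv).1, h1, v2⟩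

end Quad

variable {F U W : Type*} [Field F] [AddCommGroup U] [Module F U] [AddCommGroup W] [Module F W]

theorem mem_LW_sup [FiniteDimensional F U] {s s' : W} {x : U ⊗[F] W}
    (h : ∀ ψ, cU W ψ x ∈ Submodule.span F {s, s'}) : x ∈ LW F U s ⊔ LW F U s' := by
  let b := Module.finBasis F U
  have : ∀ x : U ⊗[F] W, ∑ i, b i ⊗ₜ cU W (b.coord i) x = x := fun x => by
    induction x with
    | zero => simp
    | tmul u w => simp [smul_tmul', ← sum_tmul]
    | add x y hx hy => simp only [map_add, tmul_add, Finset.sum_add_distrib, hx, hy]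
  rw [← this x]
  refine Submodule.sum_mem _ fun i _ => ?_
  obtain ⟨c, d, e⟩ := Submodule.mem_span_pair.1 (h (b.coord i))
  rw [← e, tmul_add, tmul_smul, tmul_smul]
  exact Submodule.add_mem_sup (Submodule.smul_mem _ _ (tmul_mem_LW _ _))
    (Submodule.smul_mem _ _ (tmul_mem_LW _ _))

theorem finrank_LW_sup_le [FiniteDimensional F U] [FiniteDimensional F W] (s s' : W) :
    finrank F ↥(LW F U s ⊔ LW F U s') ≤ 2 * finrank F U := by
  have h : ∀ s : W, finrank F (LW F U s) ≤ finrank F U := fun s => LinearMap.finrank_range_le _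
  linarith [Submodule.finrank_add_le_finrank_add_finrank (LW F U s) (LW F U s'), h s, h s']

/-- The nilpotent part of `1 ⊗ e` for the long root element `e` of the plane `⟨w, v⟩`. -/
noncomputable def eN (U : Type*) [AddCommGroup U] [Module F U] (S : QuadraticForm F W) (w v : W) :
    U ⊗[F] W →ₗ[F] U ⊗[F] W :=
  Dm LinearMap.id (S.polarBilin v) w - Dm LinearMap.id (S.polarBilin w) v

theorem eN_apply (S : QuadraticForm F W) (w v : W) (x : U ⊗[F] W) :
    eN U S w v x = cW U (S.polarBilin v) x ⊗ₜ w - cW U (S.polarBilin w) x ⊗ₜ v := rfl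

/-- A basis of a totally singular plane. -/
structure SPl (S : QuadraticForm F W) (w v : W) : Prop where
  w0 : w ≠ 0
  qw : S w = 0
  qv : S v = 0
  wv : polar S w v = 0
  nv : v ∉ F ∙ w

namespace SPl

variable {S : QuadraticForm F W} {w v : W} (d : SPl S w v)
include d

theorem NN (x : U ⊗[F] W) : eN U S w v (eN U S w v x) = 0 := by
  simp [eN_apply, d.qw, d.qv, d.wv, polar_comm _ v w]

theorem root (x : U ⊗[F] W) :
    TensorProduct.congr (1 : U ≃ₗ[F] U) (eich S w v).1 x = x + eN U S w v x := by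
  simp [OO.eich_W d.qw d.wv, d.qv, eN_apply, add_sub_assoc]

variable [FiniteDimensional F W] (hS : ND S)
include hS

theorem dual : ∃ y z, polar S w y = 0 ∧ polar S v y = 1 ∧ polar S w z = 1 ∧ polar S v z = 0 := by
  obtain ⟨y, h1, h2⟩ := hS.exists_orth_polar_one _ d.nv
  obtain ⟨z, h3, h4⟩ := hS.exists_orth_polar_one _ (not_mem_span_symm d.nv d.w0)
  exact ⟨y, z, h1 w (Submodule.mem_span_singleton_self w), h2, h4,
    h3 v (Submodule.mem_span_singleton_self v)⟩

theorem range_eN : LinearMap.range (eN U S w v) = LW F U w ⊔ LW F U v := by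
  obtain ⟨y, z, h1, h2, h3, h4⟩ := d.dual hS
  refine le_antisymm ?_ (sup_le ?_ ?_)
  · rintro _ ⟨x, rfl⟩
    exact sub_mem (Submodule.mem_sup_left (tmul_mem_LW _ _))
      (Submodule.mem_sup_right (tmul_mem_LW _ _))
  · rintro _ ⟨u, rfl⟩; exact ⟨u ⊗ₜ y, by simp [eN_apply, h1, h2]⟩
  · rintro _ ⟨u, rfl⟩; exact ⟨-(u ⊗ₜ z), by simp [eN_apply, h3, h4, neg_tmul]⟩

theorem finrank_eN [FiniteDimensional F U] :
    finrank F (LinearMap.range (eN U S w v)) = 2 * finrank F U := by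
  obtain ⟨y, z, h1, h2, h3, h4⟩ := d.dual hS
  have := Submodule.finrank_sup_add_finrank_inf_eq (LW F U w) (LW F U v)
  rw [finrank_LW d.w0, finrank_LW (by rintro rfl; simp at h2), show LW F U w ⊓ LW F U v = ⊥ from
    eq_bot_iff.2 fun x hx => by
      obtain ⟨u, rfl⟩ := hx.1
      have := cW_LW (φ := S.polarBilin z) (by simpa [polar_comm _ z]) hx.2
      simp [show u = 0 by simpa [polar_comm _ z, h3] using this], finrank_bot] at this
  rw [d.range_eN hS]; omega

end SPl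

namespace OO

variable {P : QuadraticForm F U} {S : QuadraticForm F W} {Q : QuadraticForm F (U ⊗[F] W)}
  {M : Subgroup ((U ⊗[F] W) ≃ₗ[F] (U ⊗[F] W))} (h : OO P S Q M)
include h

theorem skew (w v : W) (x y : U ⊗[F] W) :
    polar Q (eN U S w v x) y = -polar Q x (eN U S w v y) := by
  rw [polar_comm _ x]
  simp only [eN_apply, polar_sub_left, h.lf]
  rw [polar_comm _ (cW U (S.polarBilin v) x), polar_comm _ (cW U (S.polarBilin w) x)]
  ring

theorem skew' (w v : W) {m : (U ⊗[F] W) ≃ₗ[F] (U ⊗[F] W)} (hm : m ∈ M) (x y : U ⊗[F] W) :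
    polar Q (cjm m (eN U S w v) x) y = -polar Q x (cjm m (eN U S w v) y) := by
  rw [cjm_apply, cjm_apply, ← h.symm hm, h.skew, polar_comm _ x, ← h.symm hm, polar_comm]

variable [FiniteDimensional F U] [FiniteDimensional F W] [Finite F]

theorem norm_T (hq : finrank F U = 3 → ∃ s : F, s ≠ 0 ∧ s ^ 2 ≠ 1) (hS : Std S M) {w v : W}
    (d : SPl S w v) {g : (U ⊗[F] W) ≃ₗ[F] (U ⊗[F] W)} (hg : g ∈ M)
    (ht : IsT (g * TensorProduct.congr 1 (eich S w v).1 * g⁻¹)) : IsT g := by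
  have := h.ntU
  have := h.ntW
  obtain ⟨u₀, hu₀⟩ := exists_ne (0 : U)
  obtain ⟨y, -, h1, h2, -⟩ := d.dual h.nW
  have n0 : cjm g (eN U S w v) ≠ 0 := fun e => by
    simpa [eN_apply, h1, h2, tmul_ne_zero hu₀ d.w0] using LinearMap.congr_fun e (g (u₀ ⊗ₜ y))
  have hX : ∀ x, cjm g (eN U S w v) x ∈ im (LW F U w ⊔ LW F U v) g := fun x =>
    apply_mem_im.2 (by rw [← d.range_eN h.nW]; exact ⟨_, rfl⟩)
  rcases ht.quad h.two (N := cjm g (eN U S w v)) (fun x => by simp [d.root])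
    (fun x => by simp [d.NN]) with ⟨ν, hν⟩ | ⟨α, hα⟩
  · obtain ⟨z, hz⟩ : ∃ z, ν z ≠ 0 := by
      by_contra hn
      push Not at hn
      exact n0 (TensorProduct.ext' fun u z => by rw [hν, hn]; simp)
    refine h.isT_of_plane hq hS d.w0 d.qw d.qv d.wv hg hz ?_
    rintro _ ⟨u, rfl⟩
    rw [inW_apply, ← hν]; exact hX _
  exfalso
  obtain ⟨a, ha⟩ : ∃ a, α a ≠ 0 := by
    by_contra hn
    push Not at hn
    exact n0 (TensorProduct.ext' fun u z => by rw [hα, hn]; simp)
  have sk : ∀ u u', polar P (α u) u' = -polar P u (α u') := fun u u' => by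
    simpa [hα, h.pu, h2] using h.skew' w v hg (u ⊗ₜ v) (u' ⊗ₜ y)
  obtain ⟨f, hf⟩ := h.nU.exists_polar_one ha
  obtain ⟨φ, e1, e2⟩ := exists_dual_two (F := F) (a := α a) (x := α f) fun e => by
    obtain ⟨c, hc⟩ := Submodule.mem_span_singleton.1 e
    have e1 := sk a a
    have e2 := sk a f
    rw [← hc, p_smul_right, hf, polar_comm _ a] at e2
    rw [polar_comm _ a] at e1
    exact h.two (by linear_combination 2 * e2 - c * e1)
  let T := (TensorProduct.mk F U W (α a)).coprod (TensorProduct.mk F U W (α f))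
  have d1 := Submodule.finrank_mono (show LinearMap.range T ≤ im (LW F U w ⊔ LW F U v) g by
    rintro _ ⟨⟨z, z'⟩, rfl⟩
    exact add_mem (hα a z ▸ hX _) (hα f z' ▸ hX _))
  rw [LinearMap.finrank_range_of_inj ((injective_iff_map_eq_zero _).2 fun ⟨z, z'⟩ e => by
    have : z' = 0 := by simpa [T, e1, e2] using congrArg (cU W φ) e
    subst this
    simp [show z = 0 by by_contra hz; exact tmul_ne_zero ha hz (by simpa [T] using e)]),
    finrank_im, finrank_prod] at d1
  have := finrank_LW_sup_le (F := F) (U := U) w v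
  have := h.kl
  omega

theorem isT_of_std (hq : finrank F U = 3 → ∃ s : F, s ≠ 0 ∧ s ^ 2 ≠ 1) (hS : Std S M)
    {m : (U ⊗[F] W) ≃ₗ[F] (U ⊗[F] W)} (hm : m ∈ M) : IsT m := by
  have h2 := h.two
  have := h.ntU
  have := h.ntW
  obtain ⟨u₀, hu₀⟩ := exists_ne (0 : U)
  obtain ⟨z₀, hz₀⟩ := exists_ne (0 : W)
  have pl : ∀ {T : Submodule F W} {w v}, S w = 0 → S v = 0 → polar S w v = 0 → w ∉ T →
      v ∉ T ⊔ F ∙ w → SPl S w v := fun a b c d e =>
    ⟨by rintro rfl; simp at d, a, b, c, fun e' => e (Submodule.mem_sup_right e')⟩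
  obtain ⟨w₀, v₀, d₀⟩ : ∃ w v, SPl S w v := by
    obtain ⟨w, v, a, b, c, d, e⟩ := exists_plane h.nW h.l5 (T := F ∙ z₀)
      ((finrank_span_one_le _).trans (by omega)) (by simpa)
    exact ⟨w, v, pl a b c d e⟩
  by_contra hn
  set A' := cjm m (eN U S w₀ v₀) with hA'
  have hX : LinearMap.range A' = im (LW F U w₀ ⊔ LW F U v₀) m := by
    rw [← d₀.range_eN h.nW]
    ext x
    exact ⟨by rintro ⟨y, rfl⟩; exact ⟨_, ⟨_, rfl⟩, rfl⟩,
      by rintro ⟨_, ⟨y, rfl⟩, rfl⟩; exact ⟨m y, by simp [hA']⟩⟩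
  have hXk : finrank F (LinearMap.range A') = 2 * finrank F U := by
    rw [hX, finrank_im, ← d₀.range_eN h.nW, d₀.finrank_eN h.nW]
  let C : Set W := {s | ∃ x ∈ LinearMap.range A', ∃ ψ, cU W ψ x = s}
  have nx : ∀ s s', s ≠ 0 → ∃ c ∈ C, c ∉ Submodule.span F {s, s'} := fun s s' hs => by
    by_contra e
    push Not at e
    refine hn (h.isT_of_plane hq hS d₀.w0 d₀.qw d₀.qv d₀.wv hm hs ?_)
    rw [← hX, Submodule.eq_of_le_of_finrank_le (S₂ := LW F U s ⊔ LW F U s')
      (fun x hx => mem_LW_sup fun ψ => e _ ⟨x, hx, ψ, rfl⟩) (hXk ▸ finrank_LW_sup_le s s')]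
    exact le_sup_left
  obtain ⟨s₁, c₁, n₁⟩ := nx z₀ z₀ hz₀
  replace n₁ : s₁ ≠ 0 := by rintro rfl; simp at n₁
  obtain ⟨s₂, c₂, n₂⟩ := nx s₁ s₁ n₁
  obtain ⟨s₃, c₃, n₃⟩ := nx s₁ s₂ n₁
  have hT : finrank F ↥(Submodule.span F {s₁, s₂} ⊔ F ∙ s₃) = 3 := by
    rw [Submodule.finrank_sup_span_singleton n₃, Orth.finrank_span_pair_eq
      (Orth.linearIndependent_pair_of_notMem n₁ (by simpa using n₂))]
  obtain ⟨w, v, qw, qv, wv, nw, nv⟩ := exists_plane h.nW h.l5 hT.le fun e => by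
    rw [e, finrank_bot] at hT; omega
  have d := pl qw qv wv nw nv
  have hs := h.eW w v
  have ht := M.mul_mem (M.mul_mem hm (h.eW w₀ v₀)) (M.inv_mem hm)
  have hP : Subgroup.closure {TensorProduct.congr 1 (eich S w v).1,
      m * TensorProduct.congr 1 (eich S w₀ v₀).1 * m⁻¹} ≤ M := (Subgroup.closure_le _).2 (by
    rintro _ (rfl | rfl); exacts [hs, ht])
  have et : ∀ x, (m * TensorProduct.congr 1 (eich S w₀ v₀).1 * m⁻¹ : _ ≃ₗ[F] _) x = x + A' x :=
    fun x => by simp [d₀.root, hA']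
  have AA' : ∀ x, A' (A' x) = 0 := fun x => by simp [hA', d₀.NN]
  rcases quad_cases h2 d.root et d.NN AA' with hp | ⟨j, hj, j1, jj, jA, jA'⟩
  · have : Finite (U ⊗[F] W) := Module.finite_of_finite F
    have : Finite ((U ⊗[F] W) ≃ₗ[F] (U ⊗[F] W)) := DFunLike.finite _
    have : Fact (ringChar F).Prime := ⟨CharP.char_is_prime F _⟩
    exact hn (h.norm_T hq hS d₀ hm (le_of_pgroup (H := tSub F U W) hp
      (Subgroup.subset_closure (by simp)) (isT_congr _ _) (fun g hg e => h.norm_T hq hS d (hP hg) e)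
      (Subgroup.subset_closure (by simp))))
  have hj' := h.map (hP hj)
  have mv : ∀ x, j x - x ∈ LinearMap.range (eN U S w v) ⊔ LinearMap.range A' := by
    refine Subgroup.closure_induction (p := fun g _ => ∀ x, g x - x ∈ LinearMap.range (eN U S w v)
      ⊔ LinearMap.range A') ?_ (by simp) (fun g g' _ _ e e' x => ?_) (fun g _ e x => ?_) hj
    · rintro _ (rfl | rfl) x
      · rw [d.root, add_sub_cancel_left]
        exact Submodule.mem_sup_left ⟨_, rfl⟩
      · rw [et, add_sub_cancel_left]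
        exact Submodule.mem_sup_right ⟨_, rfl⟩
    · simpa using Submodule.add_mem _ (e (g' x)) (e' x)
    · simpa using Submodule.neg_mem _ (e (g.symm x))
  have inL : ∀ u z, polar S w z = 0 → polar S v z = 0 → ∃ a b, u ⊗ₜ z - j (u ⊗ₜ z) =
      a ⊗ₜ w + b ⊗ₜ v := fun u z e e' => by
    have := inv_ker h2 h.nd hj' (h.skew w v) (h.skew' w₀ v₀ hm) d.NN AA' jj jA jA' mv
      (z := u ⊗ₜ z) (by simp [eN_apply, e, e'])
    rw [d.range_eN h.nW] at this
    obtain ⟨_, ⟨a, rfl⟩, _, ⟨b, rfl⟩, e⟩ := Submodule.mem_sup.1 this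
    exact ⟨a, b, e.symm⟩
  obtain ⟨b, hb⟩ : ∃ b : W →ₗ[F] W, ∀ u v, j (u ⊗ₜ v) = u ⊗ₜ b v := by
    obtain ⟨a, b, e⟩ := h.norm_T hq hS d (hP hj) (by
      convert isT_congr 1 (eich S w v).1 using 1
      exact mul_inv_eq_of_eq_mul (LinearEquiv.ext fun x => by simp [d.root, jA]))
    obtain ⟨z, z1, z2, z3⟩ := h.nW.exists_nonsingular_perp_pair (u := w) (v := v) h.l5
    have k : ∀ u, (2 * S z) • u = polar S z (b z) • a u := fun u => by
      obtain ⟨a', b', e'⟩ := inL u z z1 z2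
      simpa [e, sub_eq_zero, polar_comm _ z w, polar_comm _ z v, z1, z2] using
        congrArg (cW U (S.polarBilin z)) e'
    have hc : polar S z (b z) ≠ 0 := fun e => hu₀ (by simpa [e, h2, z3] using k u₀)
    refine ⟨((polar S z (b z))⁻¹ * (2 * S z)) • (b : W →ₗ[F] W), fun u v' => ?_⟩
    rw [e, LinearMap.smul_apply, tmul_smul, smul_tmul', mul_smul, k, inv_smul_smul₀ hc]; rfl
  have bb : ∀ v, b (b v) = v := fun v => tmul_right_inj (F := F) hu₀ (by rw [← hb, ← hb, jj])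
  obtain ⟨ψ, hψ⟩ := exists_dual_one (F := F) hu₀
  have b1 : ∀ z, polar S w z = 0 → polar S v z = 0 → ∃ c c' : F, z - b z = c • w + c' • v :=
    fun z e e' => by
    obtain ⟨a', b', e'⟩ := inL u₀ z e e'
    exact ⟨_, _, by simpa [hb, hψ] using congrArg (cU W ψ) e'⟩
  have bs : ∀ z z', polar S z (b z') = polar S (b z) z' := fun z z' => by
    obtain ⟨u₁, hu₁⟩ := h.nU.exists_polar_one hu₀
    simpa [hb, h.pu, hu₁, bb] using hj' (u₀ ⊗ₜ b z) (u₁ ⊗ₜ z')
  obtain ⟨y, z, e1, e2, e3, e4⟩ := d.dual h.nW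
  have k1 : b w = polar S (b v) y • w - polar S (b w) y • v := by
    simpa [hb, eN_apply, e1, e2, hψ, bs] using congrArg (cU W ψ) (jA (u₀ ⊗ₜ y))
  have k2 : b v = polar S (b w) z • v - polar S (b v) z • w := by
    simpa [hb, eN_apply, e3, e4, hψ, bs, neg_eq_iff_eq_neg] using congrArg (cU W ψ) (jA (u₀ ⊗ₜ z))
  have k3 := congrArg (polar S · y) k1
  have k4 := congrArg (polar S · z) k2
  have k5 := congrArg (polar S · z) k1
  simp only [polar_sub_left, p_smul_left, e1, e2, e3, e4] at k3 k4 k5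
  obtain ⟨α, bw, bv⟩ : ∃ α : F, b w = α • w ∧ b v = α • v := ⟨polar S (b v) y, by
    rw [k1, show polar S (b w) y = 0 from mul_left_cancel₀ h2 (by linear_combination k3)]; simp, by
    nth_rw 1 [k2, k5, show polar S (b v) z = 0 from mul_left_cancel₀ h2 (by linear_combination k4)]
    simp⟩
  have hα : α * α = 1 := smul_left_injective F d.w0 (by
    simpa [bw, smul_smul] using bb w)
  rcases mul_self_eq_one_iff.1 hα with rfl | rfl
  · have b2 : ∀ z, polar S w z = 0 → polar S v z = 0 → b z = z := fun z e e' => by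
      obtain ⟨c, c', hc⟩ := b1 z e e'
      have := congrArg b hc
      rw [map_sub, bb, map_add, map_smul, map_smul, bw, bv, one_smul, one_smul, ← hc] at this
      exact smul_right_injective W h2 (by linear_combination (norm := module) this)
    refine j1 (LinearEquiv.toLinearMap_injective (TensorProduct.ext' fun u x => ?_))
    have := b2 (b x - x) (by simp [bs, bw]) (by simp [bs, bv])
    rw [map_sub, bb] at this
    simp [hb, show b x = x from smul_right_injective W h2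
      (by linear_combination (norm := module) -this)]
  have all : LinearMap.range A' ≤ LinearMap.ker (j.toLinearMap + LinearMap.id) := by
    refine inf_eq_left.1 (Submodule.eq_of_le_of_finrank_le inf_le_left ?_)
    rw [hXk, ← d.finrank_eN h.nW]
    refine le_trans (Submodule.finrank_mono ?_) (Submodule.finrank_map_le (eN U S w v) _)
    rintro _ ⟨x, rfl⟩
    obtain ⟨x', h1, h3, t, h4⟩ := inv_split jj jA jA' mv ((2 * 2 : F)⁻¹ • x)
    refine ⟨x', ⟨h1, by simp [h3]⟩, ?_⟩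
    have := congrArg (eN U S w v) h4
    have h5 : j (eN U S w v x) = -eN U S w v x := by simp [eN_apply, hb, bw, bv, tmul_neg]; abel
    simp only [d.NN, map_sub, map_smul, ← jA, h5] at this
    rw [← sub_eq_zero.1 this.symm]
    match_scalars; field_simp; ring
  have cmp : ∀ s ∈ C, s ∈ LinearMap.ker (b + LinearMap.id) := by
    rintro _ ⟨x, hx, ψ, rfl⟩
    have h1 : ∀ x, b (cU W ψ x) = cU W ψ (j x) := fun x => by
      induction x with
      | zero => simp
      | tmul u v => simp [hb]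
      | add x y hx hy => simp only [map_add, hx, hy]
    simpa [h1] using congrArg (cU W ψ) (all hx)
  obtain ⟨x, hx, x0, x1, x2⟩ := exists_ne_zero_two_ker hT.ge (S.polarBilin w) (S.polarBilin v)
  have x3 : b x + x = 0 := (sup_le (Submodule.span_le.2 (by
    rintro _ (rfl | rfl); exacts [cmp _ c₁, cmp _ c₂]))
    ((Submodule.span_singleton_le_iff_mem _ _).2 (cmp _ c₃)) : _ ≤ LinearMap.ker _) hx
  obtain ⟨c, c', hc⟩ := b1 x x1 x2
  rw [eq_neg_of_add_eq_zero_left x3, sub_neg_eq_add, ← two_smul F] at hc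
  have hc' : c' = 0 := by_contra fun e => nv ((Submodule.smul_mem_iff _ e).1 (by
    rw [← sub_eq_iff_eq_add'.2 hc]
    exact sub_mem (Submodule.mem_sup_left (Submodule.smul_mem _ _ hx))
      (Submodule.mem_sup_right (Submodule.smul_mem _ _ (Submodule.mem_span_singleton_self w)))))
  rw [hc', zero_smul, add_zero] at hc
  exact nw ((Submodule.smul_mem_iff _ (show c ≠ 0 by rintro rfl; simp [h2, x0] at hc)).1
    (hc ▸ Submodule.smul_mem _ _ hx))

end OO

open Geo in
theorem max_om_oo [Fintype F] (hodd : Odd (Fintype.card F)) {ι : Type} [Fintype ι] [DecidableEq ι]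
    {Q : QuadraticForm F (ι → F)} {n₁ n₂ : ℕ} (h1 : 3 ≤ n₁) (h12 : n₁ < n₂) (h5 : 5 ≤ n₂)
    (hex : ¬ (Fintype.card F = 3 ∧ n₁ = 3)) {e : ι ≃ Fin n₁ × Fin n₂} {P : GL ι F}
    {f₁ : (Fin n₁ → F) → (Fin n₁ → F) → F} {f₂ : (Fin n₂ → F) → (Fin n₂ → F) → F}
    (hf₁ : IsSymmetricForm f₁) (hf₂ : IsSymmetricForm f₂)
    (h4 : n₁ = 4 → ¬ IsPlusTypeOn (fun v => f₁ v v) ⊤) {c : F} (hc : c ≠ 0)
    (hT : ∀ u w u' w', polar Q ((tenE e P).symm (u ⊗ₜ w)) ((tenE e P).symm (u' ⊗ₜ w')) =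
      c * (f₁ u u' * f₂ w w')) :
    IsMaximalIn (omegaGL ⇑Q) (tensorProductSubgroup n₁ n₂ e P ⊓ omegaGL ⇑Q) := by
  have h2 := two_ne_zero_of_odd hodd
  have qf : ∀ {n : ℕ} {f : (Fin n → F) → (Fin n → F) → F} (hf : IsSymmetricForm f) {c : F},
      c ≠ 0 → ∃ S : QuadraticForm F (Fin n → F), S.polarBilin.Nondegenerate ∧
        ∀ u v, polar S u v = c * f u v := fun {n f} hf c hc => by
    let S : QuadraticForm F (Fin n → F) := ((c / 2) • bilOf hf.bilinear).toQuadraticMap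
    have hS : ∀ u v, polar S u v = c * f u v := fun u v => by
      simp only [S, LinearMap.BilinMap.polar_toQuadraticMap, LinearMap.smul_apply, bilOf_apply,
        hf.symm v u, smul_eq_mul]
      field_simp; ring
    exact ⟨S, (nd_iff S).1 fun x hx => (bilOf_nd hf.bilinear hf.nondegenerate).1 x fun y => by
      simpa [hS, hc, bilOf_apply] using hx y, hS⟩
  obtain ⟨R, r1, r2⟩ := qf hf₁ hc
  obtain ⟨S, s1, s2⟩ := qf hf₂ one_ne_zero
  have hS : ∀ M, (∀ g ∈ OM (Q.comp (tenE e P).symm.toLinearMap), IsT g → g ∈ M) →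
      M ≤ OM (Q.comp (tenE e P).symm.toLinearMap) → OO R S _ M := fun M a b =>
    ⟨⟨one_mul 1, fun x y => by simp [polar_comm _ x], fun x y => by simp [polar_comm _ x], r1, s1,
      fun u w u' w' => by
        simp only [polarBilin_apply_apply, r2, s2, one_mul]
        simpa [polar, mul_assoc] using hT u w u' w',
      fun g hg _ x => mul_left_cancel₀ h2 (by simpa using hg x x), by simp; omega, by simp; omega,
      a, b⟩, h2, by simpa, by simpa, by simpa⟩
  refine isMaximalIn_Om' (tenE e P) IsT (mem_tensor_iff e P) ?_ fun M a b ⟨g, hg, hn⟩ =>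
    (hS M a b).le_of_not_std (fun h ⟨T, t1, t2⟩ => h4 (by simpa using h) ⟨T, le_top, fun x hx => ?_,
      by simpa using t2⟩) fun k => hn ((hS M a b).isT_of_std (fun h => exists_sq_ne_one ?_) k hg)
  · have h := hS _ (fun g hg _ => hg) le_rfl
    have := h.ntW
    obtain ⟨u, hu, hu0⟩ := exists_singular R h.k3
    obtain ⟨w, hw⟩ := exists_ne (0 : Fin n₂ → F)
    obtain ⟨v, -, hv⟩ := exists_ker_not_mem h.l3 0 w
    exact not_isT_eich h.toTO hu hw hv (by simp [h.qq, hu0]) (by simp [h.qq, hu0]) (by simp [hu0])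
  · simpa [t1 x hx, hc] using (r2 x x).symm
  · have := Fintype.one_lt_card (α := F)
    obtain ⟨k, hk⟩ := hodd
    have : Fintype.card F ≠ 3 := fun e => hex ⟨e, by simpa using h⟩
    omega

end Cfsg.Agent.Max2
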