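import Mathlib
import Cfsg.Agent.Max2.OExt1
import Cfsg.Agent.Max2.UU3

/-!
# `GU_k(K)` in `SU(V)` for an extension `K / F` of odd prime degree: preliminaries
-/

set_option autoImplicit false
set_option linter.unusedSectionVars false

namespace Cfsg.Agent.Max2

open Module Cfsg.Agent.Max Cfsg.Agent.Herm

/-- Chevalley–Warning for a linear space of matrices with determinants in the ground field. -/
theorem cw_det {F₀ F D ι : Type*} [Field F₀] [Finite F₀] [Field F] [Algebra F₀ F]
    [AddCommGroup D] [Module F₀ D] [FiniteDimensional F₀ D] [Fintype ι] [DecidableEq ι]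
    [Nonempty ι] (A : D →ₗ[F₀] Matrix ι ι F) (hA : ∀ d, ∃ a, algebraMap F₀ F a = (A d).det)
    (h0 : ∀ d, (A d).det = 0 → A d = 0) :
    finrank F₀ D ≤ Fintype.card ι + finrank F₀ (LinearMap.ker A) := by
  classical
  have := Fintype.ofFinite F₀
  obtain ⟨C, hC⟩ := (LinearMap.ker A).exists_isCompl
  rw [← Submodule.finrank_add_eq_of_isCompl hC, add_comm]
  refine Nat.add_le_add_right (not_lt.1 fun hn => ?_) _
  let e := Module.finBasis F₀ C
  obtain ⟨l, hl⟩ := exists_dual_one (F := F₀) (one_ne_zero (α := F))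
  let X : Matrix ι ι (MvPolynomial (Fin (finrank F₀ C)) F) := fun i j =>
    ∑ t, MvPolynomial.C (A (e t) i j) * MvPolynomial.X t
  have d1 : X.det.totalDegree ≤ Fintype.card ι := by
    rw [Matrix.det_apply']
    refine MvPolynomial.totalDegree_finsetSum_le fun s _ =>
      (MvPolynomial.totalDegree_mul _ _).trans ?_
    rw [← map_intCast (MvPolynomial.C : F →+* _), MvPolynomial.totalDegree_C, zero_add]
    refine (MvPolynomial.totalDegree_finsetProd _ _).trans ((Finset.sum_le_card_nsmul _ _ 1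
      fun i _ => MvPolynomial.totalDegree_finsetSum_le fun t _ =>
        (MvPolynomial.totalDegree_mul _ _).trans (by simp)).trans (by simp))
  let P : MvPolynomial (Fin (finrank F₀ C)) F₀ :=
    ∑ m ∈ X.det.support, MvPolynomial.monomial m (l (X.det.coeff m))
  have d2 : P.totalDegree ≤ Fintype.card ι := MvPolynomial.totalDegree_finsetSum_le fun m hm =>
    (MvPolynomial.totalDegree_monomial_le _ _).trans ((MvPolynomial.le_totalDegree hm).trans d1)
  have ev : ∀ x, MvPolynomial.eval x P = l (A (∑ t, x t • e t : C)).det := fun x => by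
    have : (A (∑ t, x t • e t : C)).det =
        MvPolynomial.eval (fun t => algebraMap F₀ F (x t)) X.det := by
      rw [RingHom.map_det]
      congr 1
      ext i j
      change _ = MvPolynomial.eval _ (X i j)
      simp only [AddSubmonoidClass.coe_finsetSum, SetLike.val_smul, map_sum, map_smul,
        Matrix.sum_apply, Matrix.smul_apply, X]
      simp [Algebra.smul_def, mul_comm]
    rw [this, MvPolynomial.eval_eq _ X.det, map_sum, map_sum]
    refine Finset.sum_congr rfl fun m _ => ?_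
    rw [MvPolynomial.eval_monomial, mul_comm, ← smul_eq_mul, ← map_smul]
    simp [Algebra.smul_def, mul_comm, Finsupp.prod]
  obtain ⟨p, hp⟩ := CharP.exists F₀
  have hpp : p.Prime := CharP.char_is_prime F₀ p
  have h := char_dvd_card_solutions p (f := P) (by rw [Fintype.card_fin]; omega)
  have h1 : Fintype.card {x : Fin (finrank F₀ C) → F₀ // MvPolynomial.eval x P = 0} = 1 := by
    rw [Fintype.card_eq_one_iff]
    refine ⟨⟨0, by rw [ev]; simp⟩, fun ⟨x, hx⟩ => Subtype.ext ?_⟩
    rw [ev] at hx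
    obtain ⟨a, ha⟩ := hA (∑ t, x t • e t : C)
    rw [← ha, Algebra.algebraMap_eq_smul_one, map_smul, hl, smul_eq_mul, mul_one] at hx
    rw [hx, map_zero] at ha
    exact funext (Fintype.linearIndependent_iff.mp e.linearIndependent x (Subtype.ext
      (Submodule.disjoint_def.1 hC.disjoint _ (h0 _ ha.symm) (Submodule.coe_mem _))))
  rw [h1] at h
  exact hpp.one_lt.ne' (Nat.dvd_one.mp h)

section Inv

variable {K : Type*} [Field K] {σ : K →+* K} {ω : K}

theorem inv_dec (h : Inv σ) (hω : σ ω ≠ ω) (a : K) :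
    ∃ κ κ', σ κ = κ ∧ σ κ' = κ' ∧ a = κ + ω * κ' := by
  have h1 := sub_ne_zero.2 hω
  have h2 := sub_ne_zero.2 hω.symm
  refine ⟨a - ω * ((a - σ a) / (ω - σ ω)), (a - σ a) / (ω - σ ω), ?_, ?_, by ring⟩ <;>
    simp only [map_sub, map_mul, map_div₀, h.invol] <;> field_simp <;> ring

theorem inv_indep (hω : σ ω ≠ ω) {ε c c' : K} (hε : ε ≠ 0) (h : σ c = ε * c) (h' : σ c' = ε * c')
    (e : c + ω * c' = 0) : c = 0 ∧ c' = 0 := by
  have := congrArg σ e
  rw [map_add, map_mul, h, h', map_zero] at this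
  have h1 : c' = 0 := mul_left_cancel₀ (mul_ne_zero hε (sub_ne_zero.2 hω))
    (by linear_combination this - ε * e)
  exact ⟨by simpa [h1] using e, h1⟩

end Inv

variable {F₀ F K V : Type*} [Field F₀] [Field F] [Field K] [Algebra F₀ F] [Algebra F K]
  [Algebra F₀ K] [IsScalarTower F₀ F K] [AddCommGroup V] [Module F V] [Module K V]
  [IsScalarTower F K V] {σ : F →+* F} {σ' : K →+* K}

variable (F₀) in
/-- `B` is the trace of the Hermitian `K`-form `h`. -/
structure SUx (B : V →ₛₗ[σ] V →ₗ[F] F) (h : V →ₛₗ[σ'] V →ₗ[K] K) (τ : Dual F K) : Prop where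
  fx : IsFix F₀ σ
  hB : HF B
  hf : HF h
  eq : ∀ x y, B x y = τ (h x y)
  ne : τ ≠ 0
  tr : ∀ k, τ (σ' k) = σ (τ k)
  alg : ∀ c, σ' (algebraMap F K c) = algebraMap F K (σ c)

namespace SUx

variable {B : V →ₛₗ[σ] V →ₗ[F] F} {h : V →ₛₗ[σ'] V →ₗ[K] K} {τ : Dual F K}
  (H : SUx F₀ B h τ)
include H

theorem smul (c : F) (k : K) : σ' (c • k) = σ c • σ' k := by simp [Algebra.smul_def, H.alg]

theorem om {ω : F} (hω : σ ω ≠ ω) : σ' (algebraMap F K ω) ≠ algebraMap F K ω := by
  rwa [H.alg, Ne, (algebraMap F K).injective.eq_iff]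

theorem span_fix {P : Submodule F K} (hP : ∀ κ, σ' κ = κ → κ ∈ P) (a : K) : a ∈ P := by
  obtain ⟨ω, hω⟩ := H.hB.ne
  obtain ⟨κ, κ', h1, h2, rfl⟩ := inv_dec H.hf.toInv (H.om hω) a
  rw [← Algebra.smul_def]
  exact add_mem (hP _ h1) (P.smul_mem _ (hP _ h2))

theorem skew_smul {θ : F} (hθ : θ + σ θ = 0) {κ : K} (e : σ' κ = κ) : θ • κ + σ' (θ • κ) = 0 := by
  rw [H.smul, e, ← add_smul, hθ, zero_smul]

theorem span_skew {P : Submodule F K} (hP : ∀ c, c + σ' c = 0 → c ∈ P) (a : K) : a ∈ P :=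
  let ⟨_, h0, h1⟩ := H.hB.toInv.exists_skew
  H.span_fix (fun _ e => (P.smul_mem_iff h0).1 (hP _ (H.skew_smul h1 e))) a

theorem exists_fix {γ : K} (hγ : γ ≠ 0) : ∃ κ, σ' κ = κ ∧ τ (κ * γ) ≠ 0 := by
  by_contra e
  push Not at e
  exact hγ (eq_zero_of_tr H.ne (H.span_fix
    (P := LinearMap.ker (τ ∘ₗ LinearMap.mulRight F γ)) e))

theorem exists_skew_tr {ν : K} (h0 : ν ≠ 0) (hν : σ' ν = ν) {e : F} (he : e + σ e = 0) :
    ∃ d, d + σ' d = 0 ∧ τ (d * ν) = e := by
  obtain ⟨κ, h1, h2⟩ := H.exists_fix h0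
  have h3 : σ (τ (κ * ν)) = τ (κ * ν) := by rw [← H.tr, map_mul, h1, hν]
  refine ⟨(e / τ (κ * ν)) • κ, H.skew_smul (by rw [map_div₀, h3, ← add_div, he, zero_div]) h1, ?_⟩
  rw [smul_mul_assoc, map_smul, smul_eq_mul, div_mul_cancel₀ _ h2]

theorem exists_fix_ker [FiniteDimensional F K] (hr : 3 ≤ finrank F K) (γ : K) :
    ∃ κ, κ ≠ 0 ∧ σ' κ = κ ∧ τ (κ * γ) = 0 := by
  obtain ⟨a, -, a0, a1, a2⟩ := exists_ne_zero_two_ker (U := (⊤ : Submodule F K))
    (by rwa [finrank_top]) (τ ∘ₗ LinearMap.mulRight F γ) (τ ∘ₗ LinearMap.mulRight F (σ' γ))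
  replace a1 : τ (a * γ) = 0 := a1
  replace a2 : τ (σ' a * γ) = 0 := by
    rw [← H.hf.invol γ, ← map_mul, H.tr, show τ (a * σ' γ) = 0 from a2, map_zero]
  obtain ⟨ω, hω⟩ := H.hB.ne
  by_cases e : a + σ' a = 0
  · refine ⟨ω • a + σ' (ω • a), fun e' => a0 ?_, by simp [H.hf.invol, add_comm],
      by simp [H.smul, add_mul, a1, a2]⟩
    rw [H.smul, ← eq_neg_of_add_eq_zero_right e |>.symm, smul_neg, ← sub_eq_add_neg,
      ← sub_smul] at e'
    exact (smul_eq_zero.1 e').resolve_left (sub_ne_zero.2 hω.symm)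
  · exact ⟨_, e, by simp [H.hf.invol, add_comm], by simp [add_mul, a1, a2]⟩

theorem tr_skew {c : K} (e : c + σ' c = 0) : σ (τ c) = -1 * τ c := by
  rw [← H.tr, ← eq_neg_of_add_eq_zero_right e |>.symm]; simp

/-- The eigenspaces of the involution. -/
def eig (ε : K) : Submodule F₀ K where
  carrier := {c | σ' c = ε * c}
  zero_mem' := by simp
  add_mem' := fun {a b} (e : _ = _) (e' : _ = _) => by simp [e, e', mul_add]
  smul_mem' := fun a c (e : _ = _) => by
    change σ' _ = _
    rw [← IsScalarTower.algebraMap_smul F a c, H.smul, H.fx.map_alg, e, mul_smul_comm]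

theorem mem_eig {c : K} : c ∈ H.eig (-1) ↔ c + σ' c = 0 := by
  change σ' c = _ ↔ _
  rw [neg_one_mul, eq_neg_iff_add_eq_zero, add_comm]

variable [Finite F] [FiniteDimensional F K]

theorem le_eig : finrank F K ≤ finrank F₀ (H.eig (-1)) := by
  have : Finite K := Module.finite_of_finite F
  obtain ⟨ω, hω⟩ := H.hB.ne
  obtain ⟨θ, h0, h1⟩ := H.hB.toInv.exists_skew
  have := LinearMap.finrank_le_finrank_of_surjective
    (f := (H.eig (-1)).subtype.coprod (ω • (H.eig (-1)).subtype)) fun a => by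
      obtain ⟨κ, κ', h2, h3, e⟩ := inv_dec H.hf.toInv (H.om hω) (θ⁻¹ • a)
      have k : ∀ κ, σ' κ = κ → θ • κ ∈ H.eig (-1) := fun κ e =>
        H.mem_eig.2 (H.skew_smul h1 e)
      refine ⟨(⟨_, k _ h2⟩, ⟨_, k _ h3⟩), ?_⟩
      rw [← Algebra.smul_def] at e
      simp [smul_comm ω, ← smul_add, ← e, h0]
  rw [finrank_prod, H.fx.finrank_res (V := K)] at this
  omega

theorem eig_le {W : Type*} [AddCommGroup W] [Module F W] [Module F₀ W] [IsScalarTower F₀ F W]
    [FiniteDimensional F W] {ε : K} (hε : ε ≠ 0) {Z : Submodule F₀ K} (hZ : Z ≤ H.eig ε)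
    {f : K →ₗ[F] W} (hf : Function.Injective f) {P : Submodule F W} (hP : ∀ c ∈ Z, f c ∈ P) :
    finrank F₀ Z ≤ finrank F P ∧ (finrank F P ≤ finrank F₀ Z →
      ∀ s ∈ P, ∃ ω : F, ∃ c ∈ Z, ∃ c' ∈ Z, f (c + ω • c') = s) := by
  have : Finite K := Module.finite_of_finite F
  have : Finite W := Module.finite_of_finite F
  obtain ⟨ω, hω⟩ := H.hB.ne
  let T : Z × Z →ₗ[F₀] P :=
    { toFun := fun c => ⟨f (c.1 + ω • c.2), by
        rw [map_add, map_smul]; exact add_mem (hP _ c.1.2) (P.smul_mem _ (hP _ c.2.2))⟩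
      map_add' := fun c d => Subtype.ext (by simp [add_add_add_comm])
      map_smul' := fun a c => Subtype.ext (by simp [smul_comm ω a]) }
  have hT : Function.Injective T := (injective_iff_map_eq_zero _).2 fun c e => by
    have := inv_indep (H.om hω) hε (hZ c.1.2) (hZ c.2.2) (by
      rw [← Algebra.smul_def]; exact hf ((congrArg Subtype.val e).trans (map_zero f).symm))
    exact Prod.ext (Subtype.ext this.1) (Subtype.ext this.2)
  have d := LinearMap.finrank_le_finrank_of_injective hT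
  rw [finrank_prod, H.fx.finrank_res (V := P)] at d
  refine ⟨by omega, fun e s hs => ?_⟩
  obtain ⟨c, hc⟩ := (LinearMap.injective_iff_surjective_of_finrank_eq_finrank (by
    rw [finrank_prod, H.fx.finrank_res (V := P)]; omega)).1 hT ⟨s, hs⟩
  exact ⟨ω, c.1, c.1.2, c.2, c.2.2, congrArg Subtype.val hc⟩

variable [FiniteDimensional K V] [Module F₀ V] [IsScalarTower F₀ F V]

theorem exists_iso {X : Submodule F V} (hX : finrank F X = finrank F K)
    (h0 : ∀ x ∈ X, B x x = 0) : ∃ x ∈ X, x ≠ 0 ∧ h x x = 0 := by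
  have : Finite K := Module.finite_of_finite F
  have : FiniteDimensional F V := Module.Finite.trans K V
  have : Finite V := Module.finite_of_finite F
  have : Finite F₀ := Finite.of_injective _ (algebraMap F₀ F).injective
  let Z := H.eig 1 ⊓ (LinearMap.ker τ).restrictScalars F₀
  have d := (H.eig_le one_ne_zero (Z := Z) inf_le_left (f := LinearMap.id) (fun _ _ e => e)
    (P := LinearMap.ker τ) fun c hc => hc.2).1
  have d' := Submodule.finrank_lt_finrank_of_lt
    (lt_top_iff_ne_top.2 fun e => H.ne (LinearMap.ker_eq_top.1 e))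
  obtain ⟨π, hπ⟩ := Z.subtype.exists_leftInverse_of_injective Z.ker_subtype
  have s : ∀ (a : F₀) (x : V), a • x = algebraMap F K (algebraMap F₀ F a) • x := fun a x => by
    rw [algebraMap_smul, algebraMap_smul]
  have s' : ∀ (a : F₀) (x : K), algebraMap F K (algebraMap F₀ F a) * x = a • x := fun a x => by
    rw [← Algebra.smul_def, algebraMap_smul]
  obtain ⟨x, x0, hx⟩ := cw_quad (V := X) (fun i => LinearMap.mk₂ F₀
    (fun x y => (Module.finBasis F₀ Z).coord i (π (h x y))) (by simp)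
    (fun a x y => by
      rw [Submodule.coe_smul_of_tower, s, b_smul_left, H.alg, H.fx.map_alg, s']; simp) (by simp)
    (fun a x y => by rw [Submodule.coe_smul_of_tower, s, b_smul_right, s']; simp)) 0 (by
      rw [finrank_top] at d'; rw [Fintype.card_fin, H.fx.finrank_res (V := X), hX]; omega)
  refine ⟨x, x.2, by simpa using x0, ?_⟩
  have hz : h x x ∈ Z := ⟨(H.hf.fix _).trans (one_mul _).symm, (H.eq _ _).symm.trans (h0 x x.2)⟩
  have := (Module.finBasis F₀ Z).forall_coord_eq_zero_iff.1 fun i => by simpa using hx i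
  exact congrArg Subtype.val ((LinearMap.congr_fun hπ ⟨_, hz⟩).symm.trans this)

omit [Module F₀ V] [IsScalarTower F₀ F V] in
theorem semi (hn : 2 ≤ finrank K V) {g : V ≃ₗ[F] V}
    (hg : ∀ v, h v v = 0 → ∀ k : K, ∃ k' : K, g (k • v) = k' • g v) : Semi K g := by
  have : FiniteDimensional F V := Module.Finite.trans K V
  have : Finite K := Module.finite_of_finite F
  have hh := H.hf
  intro k
  choose! c hc using fun v hv => hg v hv k
  have edge : ∀ v w, v ≠ 0 → h v v = 0 → h w w = 0 → w ∉ line F K v → h v w + σ' (h v w) = 0 →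
      c v = c w := fun v w h0 hv hw h1 h2 =>
    coef_eq h0 (hg v hv) h1 (hc v hv) (hc w hw) (hc _ (by
      rw [hh.symm] at h2
      simp only [map_add, LinearMap.add_apply, hv, hw]
      linear_combination h2))
  obtain ⟨d, hd0, hd⟩ := hh.exists_skew
  have sc : ∀ v (a : K), h v v = 0 → a • v ≠ 0 → c (a • v) = c v := fun v a hv h0 => by
    obtain ⟨f, hf, hf0⟩ := hh.exists_hyp (right_ne_zero_of_smul h0) hv
    have e : ∀ κ, σ' κ = κ → κ ≠ 0 → c (κ • v) = c (d • f) := fun κ h1 h2 =>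
      edge _ _ (smul_ne_zero h2 (right_ne_zero_of_smul h0)) (by simp [hv]) (by simp [hf0])
        (fun e => hd0 (by simpa [hf] using h_line (h := h) (w := v) (by simp [hv]) e))
        (by simp only [b_smul_left, b_smul_right, map_mul, h1, hf, mul_one]
            linear_combination κ * hd)
    have := H.span_fix (P := LinearMap.ker (g.toLinearMap ∘ₗ
      (LinearMap.toSpanSingleton K V (k • v)).restrictScalars F - c v • g.toLinearMap ∘ₗ
      (LinearMap.toSpanSingleton K V v).restrictScalars F)) (fun κ h1 => by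
        by_cases h2 : κ = 0
        · simp [h2]
        have := hc (κ • v) (by simp [hv])
        rw [e κ h1 h2, ← e 1 (map_one _) one_ne_zero, one_smul, smul_comm] at this
        simp [this]) a
    refine smul_left_injective K (show g (a • v) ≠ 0 by simpa only [ne_eq, g.map_eq_zero_iff]) ?_
    simp only
    rw [← hc _ (by simp [hv]), smul_comm]
    exact sub_eq_zero.1 this
  have opp : ∀ v w, h v v = 0 → h w w = 0 → h v w ≠ 0 → c v = c w := fun v w hv hw h1 => by
    rw [edge v ((d / h v w) • w) (ne_zero_of_b h1) hv (by simp [hw])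
      (fun e => hd0 (by simpa [h1] using h_line hv e)) (by simpa [h1]),
      sc _ _ hw (smul_ne_zero (div_ne_zero hd0 h1) (ne_zero_of_b' h1))]
  obtain ⟨e, he0, he⟩ := hh.exists_isotropic (V := V) hn
  refine ⟨c e, iso_ind hh hn (fun v hv => ?_) fun x y hx hy => by
    rw [smul_add, map_add, hx, hy, map_add, smul_add]⟩
  by_cases h0 : v = 0
  · simp [h0]
  rw [hc v hv]
  congr 1
  by_cases h1 : h v e = 0
  swap
  · exact opp v e hv he h1
  by_cases h2 : e ∈ line F K v
  swap
  · exact edge v e h0 hv he h2 (by simp [h1])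
  obtain ⟨a, rfl⟩ := mem_line.1 h2
  exact (sc v a hv he0).symm

end SUx

end Cfsg.Agent.Max2
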