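import Mathlib
import Cfsg.Agent.Max2.SUx1

/-!
# `GU_k(K)` in `SU(V)` for an extension `K / F` of odd prime degree: local analysis
-/

set_option autoImplicit false
set_option linter.unusedSectionVars false

namespace Cfsg.Agent.Max2

open Module Cfsg.Agent.Max Cfsg.Agent.Herm

variable {F₀ F K V : Type*} [Field F₀] [Field F] [Field K] [Algebra F₀ F] [Algebra F K]
  [Algebra F₀ K] [IsScalarTower F₀ F K] [AddCommGroup V] [Module F V] [Module K V]
  [IsScalarTower F K V] {σ : F →+* F} {σ' : K →+* K} {M : Subgroup (V ≃ₗ[F] V)}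

namespace SUx

variable {B : V →ₛₗ[σ] V →ₗ[F] F} {h : V →ₛₗ[σ'] V →ₗ[K] K} {τ : Dual F K}
  (H : SUx F₀ B h τ)
include H

theorem mem (g : UG h) : g.1.restrictScalars F ∈ UG B := fun x y => by simp [H.eq]

theorem isoB {u : V} (hu : h u u = 0) {x y : V} (hx : x ∈ line F K u) (hy : y ∈ line F K u) :
    B x y = 0 := by
  obtain ⟨a, rfl⟩ := mem_line.1 hx
  obtain ⟨b, rfl⟩ := mem_line.1 hy
  simp [H.eq, hu]

theorem h_eq_zero {u y : V} (e : ∀ x ∈ line F K u, B x y = 0) : h u y = 0 :=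
  eq_zero_of_tr H.ne fun k => by
    simpa [H.eq, H.hf.invol] using e _ (smul_mem_line (σ' k) u)

theorem b_eq_zero {u x y : V} (e : h u y = 0) (hx : x ∈ line F K u) : B x y = 0 := by
  obtain ⟨a, rfl⟩ := mem_line.1 hx
  simp [H.eq, e]

theorem skN (u : V) {c : K} (hc : c + σ' c = 0) (x y : V) :
    B ((c * h u x) • u) y = -B x ((c * h u y) • u) := by
  rw [H.eq, H.eq, ← map_neg, b_smul_left, b_smul_right, map_mul σ', H.hf.symm]
  congr 1
  linear_combination h x u * h u y * hc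

variable [Finite F] [FiniteDimensional F K] [FiniteDimensional K V]
  (hH : ∀ g ∈ SUG h, g.1.restrictScalars F ∈ M)
include hH

theorem kz {u : V} (hu : h u u = 0) {c : K} (hc : c + σ' c = 0) :
    ∃ t ∈ M, (∀ l ∈ line F K u, t l = l) ∧ ∀ z, t z = z + (c * h u z) • u :=
  ⟨_, hH _ (H.hf.tv_mem_SUG hu c), fun _ hl => H.hf.qr_apply_of_orth _ (h_line hu hl),
    H.hf.tv_apply hu hc⟩

theorem perp_le {u x : V} (hu : h u u = 0) {m : V ≃ₗ[F] V} (hp : Pair M (line F K u) m)
    (hx : x ∈ im (line F K u) m) (h1 : h u x ≠ 0) {z : V} (hz : z ∈ im (line F K u) m)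
    (h0 : h u z = 0) : z ∈ line F K u := by
  have : FiniteDimensional F V := Module.Finite.trans K V
  by_contra hn
  obtain ⟨y, hy, hyX⟩ := hp.exists_L
  obtain ⟨k, rfl⟩ := mem_line.1 hy
  have := H.span_skew (P := (im (line F K u) m).comap
    ((LinearMap.toSpanSingleton K V (h u x • u)).restrictScalars F)) (fun c hc => by
      obtain ⟨t, ht, e1, e2⟩ := H.kz hH hu hc
      have := hp.stabX ht (fun s hs hs' => by rwa [e1 s hs]) hz hn
        (by rwa [e2, h0, mul_zero, zero_smul, add_zero]) x hx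
      rwa [e2, Submodule.add_mem_iff_right _ hx, mul_smul] at this) (k / h u x)
  exact hyX (by simpa [smul_smul, h1] using this)

variable (hM : ∀ g ∈ M, g ∈ UG B)
include hM

theorem isoX {u : V} (hu : h u u = 0) {m : V ≃ₗ[F] V} (hm : m ∈ M) {x y : V}
    (hx : x ∈ im (line F K u) m) (hy : y ∈ im (line F K u) m) : B x y = 0 := by
  obtain ⟨x, hx, rfl⟩ := hx
  obtain ⟨y, hy, rfl⟩ := hy
  exact (hM m hm x y).trans (H.isoB hu hx hy)

theorem perp_le' {u x : V} (hu : h u u = 0) {m : V ≃ₗ[F] V} (hp : Pair M (line F K u) m)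
    (hx : x ∈ im (line F K u) m) (h1 : h u x ≠ 0) {y : V} (hy : y ∈ line F K u)
    (h0 : ∀ z ∈ im (line F K u) m, B z y = 0) : y ∈ im (line F K u) m := by
  have : FiniteDimensional F V := Module.Finite.trans K V
  obtain ⟨l, hl, e⟩ : ∃ l ∈ line F K u, B l x ≠ 0 := by
    by_contra e
    push Not at e
    exact h1 (H.h_eq_zero e)
  refine mem_im.2 (H.perp_le hH hu hp.symm (x := m.symm l) (apply_mem_im (g := m⁻¹).2 hl)
    (fun e' => e (H.hB.zero_symm ?_)) (apply_mem_im (g := m⁻¹).2 hy) (H.h_eq_zero fun z hz => ?_))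
  · rw [← hM _ (M.inv_mem hp.mem)]; exact H.b_eq_zero e' (mem_im.1 hx)
  · rw [UG_symm (hM _ hp.mem)]; exact h0 _ (apply_mem_im.2 hz)

variable [Module F₀ V] [IsScalarTower F₀ F V]

theorem exists_pair (hn : 2 ≤ finrank K V) {g : V ≃ₗ[F] V} (hg : g ∈ M) (hgH : ¬ Semi K g) :
    ∃ u m, u ≠ 0 ∧ h u u = 0 ∧ Pair M (line F K u) m := by
  have : FiniteDimensional F V := Module.Finite.trans K V
  obtain ⟨v, hv, k, hvk⟩ : ∃ v, h v v = 0 ∧ ∃ k : K, g (k • v) ∉ line F K (g v) := by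
    by_contra hn'
    push Not at hn'
    exact hgH (H.semi hn fun v hv k => by
      obtain ⟨k', hk'⟩ := mem_line.1 (hn' v hv k); exact ⟨k', hk'.symm⟩)
  have hv0 : v ≠ 0 := by rintro rfl; simp at hvk
  obtain ⟨x, hx, x0, x1⟩ := H.exists_iso (X := im (line F K v) g)
    (by rw [finrank_im, finrank_line hv0]) fun x hx => H.isoX hH hM hv hg hx hx
  have : Nontrivial V := ⟨⟨v, 0, hv0⟩⟩
  obtain ⟨a, ha⟩ := H.hf.witt_one x0 hv0 (x1.trans hv.symm)
  obtain ⟨t, ht, e⟩ := H.hf.exists_SUG_map (K ∙ x) a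
  have e' : im (line F K x) (g * t.1.restrictScalars F) = im (line F K v) g := by
    rw [im_mul]
    congr 1
    ext y
    change _ ↔ y ∈ K ∙ v
    rw [← ha, show (K ∙ a.1 x) = (K ∙ x).map (t.1 : V →ₗ[K] V) by simp [e, Submodule.map_span]]
    rfl
  obtain ⟨m, hm⟩ := Max2.exists_pair (L := line F K x) (M.mul_mem hg (hH t ht)) (fun e => hvk (by
      rw [e'] at e
      obtain ⟨c, hc⟩ := exists_smul_of_line (e ▸ apply_mem_im.2 (self_mem_line v)) (by simpa)
        (e ▸ apply_mem_im.2 (smul_mem_line k v) : g (k • v) ∈ line F K x)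
      exact mem_line.2 ⟨c, hc⟩))
    fun e => x0 ((Submodule.mem_bot F).1 (e ▸ ⟨self_mem_line x, e' ▸ hx⟩))
  exact ⟨x, m, x0, x1, hm⟩

theorem codim (hr : (finrank F K).Prime) {u x : V} (hu : h u u = 0) {m : V ≃ₗ[F] V}
    (hp : Pair M (line F K u) m) (hx : x ∈ im (line F K u) m) (h1 : h u x ≠ 0) {z : V}
    (hz : z ∈ im (line F K u) m) : ∃ c : F, z - c • x ∈ line F K u := by
  have : FiniteDimensional F V := Module.Finite.trans K V
  have : Finite K := Module.finite_of_finite F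
  have : Finite F₀ := Finite.of_injective _ (algebraMap F₀ F).injective
  have hu0 := ne_zero_of_b h1
  set X := im (line F K u) m with hX
  obtain ⟨C, hC⟩ := (line F K u ⊓ X).exists_isCompl
  have hXC : (line F K u ⊓ X) ⊔ (C ⊓ X) = X := by
    rw [← sup_inf_assoc_of_le _ inf_le_right, hC.sup_eq_top, top_inf_eq]
  have dj : Disjoint (line F K u ⊓ X) (C ⊓ X) := hC.disjoint.mono_right inf_le_left
  have d := Submodule.finrank_sup_add_finrank_inf_eq (line F K u ⊓ X) (C ⊓ X)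
  rw [hXC, dj.eq_bot, finrank_bot, hX, finrank_im, finrank_line hu0, ← hX] at d
  let b := Module.finBasis F ↥(C ⊓ X)
  have k1 : ∀ y ∈ line F K u, (∀ i, B (b i) y = 0) → y ∈ X := fun y hy e =>
    H.perp_le' hH hM hu hp hx h1 hy fun z hz => by
      obtain ⟨s, hs, w, hw, rfl⟩ := Submodule.mem_sup.1 (hXC.ge hz)
      have := congrArg Subtype.val (b.sum_repr ⟨w, hw⟩)
      simp only [AddSubmonoidClass.coe_finsetSum, SetLike.val_smul] at this
      rw [b_add_left, H.isoB hu hs.1 hy, ← this, b_sum_left]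
      simp [e]
  have k2 : ∀ c, c + σ' c = 0 → ∀ z ∈ X, z ∉ line F K u → (c * h u z) • u ∈ X →
      ∀ w ∈ X, (c * h u w) • u ∈ X := fun c hc z hz hn e w hw => by
    obtain ⟨t, ht, e1, e2⟩ := H.kz hH hu hc
    have := hp.stabX ht
      (fun s hs hs' => by rwa [e1 s hs]) hz hn (by rw [e2]; exact add_mem hz e) w hw
    rwa [e2, Submodule.add_mem_iff_right _ hw] at this
  have nb : ∀ w : ↥(C ⊓ X), w ≠ 0 → w.1 ∉ line F K u := fun w h0 e =>
    h0 (Subtype.ext (Submodule.disjoint_def.1 dj _ ⟨e, w.2.2⟩ w.2))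
  have hs : ∀ (c : F) y, h u (c • y) = c • h u y := fun c y => LinearMap.map_smul_of_tower _ _ _
  obtain ⟨θ, θ0, θ1⟩ := H.hB.toInv.exists_skew
  let A : H.eig (-1) →ₗ[F₀] Matrix (Fin (finrank F ↥(C ⊓ X))) (Fin (finrank F ↥(C ⊓ X))) F :=
    { toFun := fun c => Matrix.of fun i j => θ * B (b i) ((c.1 * h u (b j)) • u)
      map_add' := fun c d => by ext i j; simp [add_mul, add_smul, mul_add]
      map_smul' := fun a c => by
        ext i j
        simp only [Submodule.coe_smul, Matrix.of_apply, RingHom.id_apply, Matrix.smul_apply]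
        rw [← IsScalarTower.algebraMap_smul F a c.1, smul_mul_assoc, smul_assoc, map_smul,
          algebraMap_smul, mul_smul_comm] }
  have hA : ∀ c i j, A c i j = θ * B (b i) ((c.1 * h u (b j)) • u) := fun _ _ _ => rfl
  have ne : Nonempty (Fin (finrank F ↥(C ⊓ X))) := ⟨⟨0, by
    have := Submodule.finrank_lt_finrank_of_lt (lt_of_le_of_ne
      (inf_le_right (a := line F K u) (b := X)) fun e => h1 (h_line hu (e.ge hx).1))
    rw [hX, finrank_im, finrank_line hu0, ← hX] at this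
    omega⟩⟩
  have cw := cw_det A (fun c => (H.fx.fix_iff _).1 (by
    rw [RingHom.map_det, ← Matrix.det_transpose]
    congr 1
    ext i j
    change σ (A c j i) = _
    rw [hA, hA, map_mul, H.hB.symm, H.skN _ (H.mem_eig.1 c.2)]
    linear_combination -B (b i) ((c.1 * h u (b j)) • u) * θ1)) fun c e => by
      obtain ⟨v, v0, hv⟩ := Matrix.exists_mulVec_eq_zero_iff.2 e
      have := k2 _ (H.mem_eig.1 c.2) _ (∑ j, v j • b j).2.2 (nb _ fun e => v0 (funext
        (Fintype.linearIndependent_iff.1 b.linearIndependent v e))) (k1 _ (smul_mem_line _ _)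
        fun i => mul_left_cancel₀ θ0 (by
          rw [mul_zero, ← show _ = (0 : F) from congrFun hv i]
          simp [Matrix.mulVec, dotProduct, hA, Finset.mul_sum, Finset.sum_smul, hs,
            mul_comm (v _), mul_assoc]))
      ext i j
      rw [hA, H.isoX hH hM hu hp.mem (b i).2.2 (this _ (b j).2.2)]; simp
  have k3 : ∀ c ∈ (LinearMap.ker A).map (H.eig (-1)).subtype, ∀ w ∈ X,
      (c * h u w) • u ∈ line F K u ⊓ X := by
    rintro _ ⟨c, hc, rfl⟩ w hw
    obtain ⟨j⟩ := ne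
    exact ⟨smul_mem_line _ _, k2 _ (H.mem_eig.1 c.2) _ (b j).2.2 (nb _ (b.ne_zero j))
      (k1 _ (smul_mem_line _ _) fun i => mul_left_cancel₀ θ0 (by
        rw [← hA, show A c = 0 from hc]; simp)) w hw⟩
  have k4 := (H.eig_le (neg_ne_zero.2 one_ne_zero) (Submodule.map_subtype_le _ (LinearMap.ker A))
    (f := (LinearMap.toSpanSingleton K V (h u x • u)).restrictScalars F)
    (smul_left_injective K (smul_ne_zero h1 hu0)) (P := line F K u ⊓ X)
    fun c hc => by simpa [mul_smul] using k3 c hc x hx).2 (by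
      have := H.le_eig
      rw [Submodule.finrank_map_subtype_eq]
      rw [Fintype.card_fin] at cw
      omega)
  obtain ⟨s, s0, s1, s2⟩ := hp.exists_S
  obtain ⟨y, y1, y2⟩ := hp.exists_L
  obtain ⟨c, hc⟩ := mem_range_of_stab hr (S := line F K u ⊓ X) inf_le_left ⟨s1, s2⟩ s0 y1
    (fun e => y2 e.2) (k := h u z / h u x) fun s hs => by
      obtain ⟨ω, c, hc, c', hc', rfl⟩ := k4 s hs
      convert add_mem (k3 c hc z hz) (Submodule.smul_mem _ ω (k3 c' hc' z hz)) using 1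
      simp only [LinearMap.coe_restrictScalars, LinearMap.toSpanSingleton_apply, smul_smul,
        ← add_smul, ← algebraMap_smul K ω, smul_eq_mul]
      congr 1; field_simp
  refine ⟨c, H.perp_le hH hu hp hx h1 (sub_mem hz (X.smul_mem _ hx)) ?_⟩
  rw [map_sub, hs, Algebra.smul_def, hc, div_mul_cancel₀ _ h1, sub_self]

theorem local_data (hr : (finrank F K).Prime) {u : V} (hu : h u u = 0) {m : V ≃ₗ[F] V}
    (hp : Pair M (line F K u) m) {θ : F} (θ0 : θ ≠ 0) (θ1 : θ + σ θ = 0) :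
    ∃ a, h u a ≠ 0 ∧ ∀ c, c + σ' c = 0 → B a ((c * h u a) • u) = 0 →
      ∃ t ∈ M, ∀ z ∈ line F K u, t z = z + B a z • θ • (c * h u a) • u := by
  have : FiniteDimensional F V := Module.Finite.trans K V
  have hm := hM m hp.mem
  by_cases h1 : ∃ x ∈ im (line F K u) m, h u x ≠ 0
  · obtain ⟨x, hx, h1⟩ := h1
    have cd := fun z => H.codim hH hM hr hu hp hx h1 (z := z)
    have k1 : ∀ y ∈ line F K u, B x y = 0 → y ∈ im (line F K u) m := fun y hy e =>
      H.perp_le' hH hM hu hp hx h1 hy fun z hz => by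
        obtain ⟨c, hc⟩ := cd z hz
        simpa [e] using H.isoB hu hc hy
    obtain ⟨y, hy, hxy⟩ : ∃ y ∈ line F K u, B x y = 1 := by
      obtain ⟨y, y1, y2⟩ := hp.exists_L
      have : B x y ≠ 0 := fun e => y2 (k1 y y1 e)
      exact ⟨(B x y)⁻¹ • y, Submodule.smul_mem _ _ y1, by simp [this]⟩
    have nn : ∀ w, h u w ≠ 0 → ∀ e : F, e + σ e = 0 → ∃ d, d + σ' d = 0 ∧
        B w ((d * h u w) • u) = e := fun w hw e he => by
      obtain ⟨d, h2, h3⟩ := H.exists_skew_tr (ν := h u w * h w u)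
        (mul_ne_zero hw fun e => hw (H.hf.zero_symm e)) (by simp [H.hf.symm, mul_comm]) he
      exact ⟨d, h2, by rw [H.eq, b_smul_right, mul_assoc, h3]⟩
    obtain ⟨d, d1, d2⟩ := nn (m.symm y) (fun e => by
      have := H.b_eq_zero e (mem_im.1 hx)
      exact one_ne_zero (hxy.symm.trans ((hM _ (M.inv_mem hp.mem) x y).symm.trans this))) θ θ1
    obtain ⟨c, c1, c2⟩ := nn x h1 (-θ⁻¹) (by simp [eq_neg_of_add_eq_zero_right θ1, inv_neg])
    obtain ⟨n', hn', f', e'⟩ := H.kz hH hu d1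
    obtain ⟨n, hn, f, e⟩ := H.kz hH hu c1
    obtain ⟨l, hl⟩ := cd _ (apply_mem_im.2 (smul_mem_line (d * h u (m.symm y)) u))
    have hl' : l = θ := by
      have := H.isoB hu hy hl
      rw [map_sub, ← UG_symm' hm, d2, map_smul, H.hB.one_symm hxy] at this
      simpa [sub_eq_zero, eq_comm] using this
    subst hl'
    have hw := M.mul_mem hn (M.mul_mem (M.mul_mem hp.mem hn') (M.inv_mem hp.mem))
    have w1 : ∀ s ∈ line F K u, B x s = 0 → (n * (m * n' * m⁻¹)) s = s := fun s hs e => by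
      simp [f' _ (mem_im.1 (k1 s hs e)), f s hs]
    obtain ⟨s₂, s1, w2⟩ : ∃ s ∈ line F K u, (n * (m * n' * m⁻¹)) y = l • x + s := by
      refine ⟨y + l • (c * h u x) • u + (m ((d * h u (m.symm y)) • u) - l • x),
        add_mem (add_mem hy (Submodule.smul_mem _ _ (smul_mem_line _ _))) hl, ?_⟩
      have := f _ hl
      rw [map_sub, sub_eq_iff_eq_add, map_smul n l, e x] at this
      simp only [LinearEquiv.mul_apply, LinearEquiv.coe_inv, e' (m.symm y), map_add,
        LinearEquiv.apply_symm_apply, f y hy, this, smul_add]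
      abel
    generalize n * (m * n' * m⁻¹) = w at hw w1 w2
    refine ⟨x, h1, fun c c1 c2 => ?_⟩
    obtain ⟨t, ht, f, e⟩ := H.kz hH hu c1
    refine ⟨_, M.mul_mem (M.mul_mem (M.inv_mem hw) ht) hw, fun z hz => ?_⟩
    have z1 := sub_mem hz (Submodule.smul_mem _ (B x z) hy)
    have z2 := w1 _ z1 (by simp [hxy])
    rw [map_sub, sub_eq_iff_eq_add, map_smul, w2] at z2
    rw [LinearEquiv.mul_apply, LinearEquiv.mul_apply, LinearEquiv.coe_inv,
      LinearEquiv.symm_apply_eq, map_add, map_smul, map_smul, w1 _ (smul_mem_line _ _) c2, z2,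
      map_add, f _ z1, map_smul, map_add, f _ s1, map_smul, e x]
    module
  push Not at h1
  obtain ⟨x, hx, hxL⟩ := hp.exists_X
  have ht : ∀ φ : Dual K V, φ u = 0 → ∀ s ∈ line F K u, ∃ t ∈ M, (∀ l ∈ line F K u, t l = l) ∧
      (∀ z ∈ im (line F K u) m, t z = z + φ z • s) := by
    intro φ h0 s hs
    obtain ⟨k, rfl⟩ := mem_line.1 hs
    obtain ⟨v, rfl⟩ := H.hf.exists_dual_eq φ
    obtain ⟨l, hl⟩ := H.hf.toInv.exists_trace (H.hf.fix (σ' k • v))
    have e := H.hf.eich_apply hu (by simp [H.hf.zero_symm h0]) hl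
    refine ⟨_, hH _ (H.hf.eich_mem_SUG u (σ' k • v) l), fun l hl => ?_, fun z hz => ?_⟩
    · simp [e, h_line hu hl, h_line h0 hl]
    · simp [e, h1 z hz, smul_smul, mul_comm, H.hf.invol]
  obtain ⟨φ, h0, h2⟩ := exists_dual_two (F := K) hxL
  obtain ⟨ξ, e1, e2, e3⟩ := transport_local hxL h0 h2 fun z hz => codim_of_key hr.two_le hxL
    fun ψ e0 e1 => hp.phi_mem hr hx hxL e1 (fun s hs _ => ht ψ e0 s hs) hz
  obtain ⟨a, rfl⟩ := H.hB.exists_dual_eq ξ
  refine ⟨a, fun e => by simp [H.hB.zero_symm (H.b_eq_zero e (mem_im.1 hx))] at e1,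
    fun c _ hc => ?_⟩
  obtain ⟨t, a1, -, a2⟩ := ht φ h0 _ ((e2 (θ • (c * h u a) • u)
    (Submodule.smul_mem _ _ (smul_mem_line _ _))).1 (by simp [hc]))
  exact ⟨m⁻¹ * t * m, M.mul_mem (M.mul_mem (M.inv_mem hp.mem) a1) hp.mem, fun z hz => by
    simp [a2 _ (apply_mem_im.2 hz), e3 z hz]⟩

end SUx

end Cfsg.Agent.Max2
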