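import Mathlib
import Cfsg.Agent.Max2.SUx2

/-!
# Maximality of `GU_k(K).r` in `SU_{kr}(F)`, `[K : F] = r` an odd prime, `k ≥ 2`
-/

set_option autoImplicit false
set_option linter.unusedSectionVars false

namespace Cfsg.Agent.Max2

open Module Cfsg.Agent.Max Cfsg.Agent.Herm

section Herm

variable {F V : Type*} [Field F] [AddCommGroup V] [Module F V] {σ : F →+* F}
  {B : V →ₛₗ[σ] V →ₗ[F] F} {M : Subgroup (V ≃ₗ[F] V)}

theorem ug_mem_of_R {N : V →ₗ[F] V} (h : R M N) {g : UG B} (e : ∀ x, g.1 x = x + N x) :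
    g ∈ M.subgroupOf (UG B) := by
  obtain ⟨k, hk, e'⟩ := h
  rwa [Subgroup.mem_subgroupOf, show g.1 = k from LinearEquiv.ext fun x => (e x).trans (e' x).symm]

/-- The nilpotent part of an Eichler transformation in a totally isotropic plane. -/
def uS (B : V →ₛₗ[σ] V →ₗ[F] F) (s y : V) : V →ₗ[F] V := (B s).smulRight y - (B y).smulRight s

theorem uS_apply (s y z : V) : uS B s y z = B s z • y - B y z • s := rfl

theorem uS_conj {a b : V} (h : R M (uS B a b)) {g : V ≃ₗ[F] V} (hg : g ∈ M) (hg' : g ∈ UG B) :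
    R M (uS B (g a) (g b)) :=
  h.conj' hg fun x => by simp [uS_apply, hg' _ x]

theorem conj_herm (hB : HF B) {X : Submodule F V} (hX : ∀ x ∈ X, ∀ y ∈ X, B x y = 0)
    {N : V →ₗ[F] V} (hN : R M N) (hr : ∀ v, N v ∈ X) (hs : ∀ x y, B (N x) y = -B x (N y))
    {t : V ≃ₗ[F] V} (ht : t ∈ M) (ht' : t ∈ UG B) {a s : V} (hsX : s ∈ X)
    (e : ∀ z ∈ X, t z = z + B a z • s) :
    R M (uS B s (N a) + B a (N a) • (B s).smulRight s) := by
  have h0 : ∀ x ∈ X, N x = 0 := fun x hx => hB.nd' _ fun w => by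
    rw [← neg_eq_zero, ← hs, hX _ (hr w) x hx]
  have h1 : ∀ v, N (t.symm v) = N v + B s v • N a := fun v => sub_eq_zero.1 (hB.nd' _ fun w => by
    have := hs w (t.symm v)
    rw [UG_symm ht', e _ (hr w), b_add_left, b_smul_left, hB.symm, hs, hs] at this
    simp only [map_add, map_sub, map_smul, smul_eq_mul]
    linear_combination this)
  refine ((hN.conj ht).sub hN (fun x => h0 _ (hr _)) fun x => ?_).congr fun v => ?_
  · simp [h1, h0 _ (hr _), hX s hsX _ (hr _)]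
  · simp only [LinearMap.sub_apply, LinearMap.comp_apply, LinearEquiv.coe_coe, LinearMap.add_apply,
      LinearMap.smul_apply, LinearMap.smulRight_apply, uS_apply]
    rw [e _ (hr _), h1, map_add, map_smul, hs]
    simp only [smul_eq_mul]
    module

end Herm

variable {F₀ F K V : Type*} [Field F₀] [Field F] [Field K] [Algebra F₀ F] [Algebra F K]
  [Algebra F₀ K] [IsScalarTower F₀ F K] [AddCommGroup V] [Module F V] [Module K V]
  [IsScalarTower F K V] {σ : F →+* F} {σ' : K →+* K} {M : Subgroup (V ≃ₗ[F] V)}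

namespace SUx

variable {B : V →ₛₗ[σ] V →ₗ[F] F} {h : V →ₛₗ[σ'] V →ₗ[K] K} {τ : Dual F K}
  (H : SUx F₀ B h τ)
include H

theorem tr_indep {c c' : K} (hc : c + σ' c = 0) (hc' : c' + σ' c' = 0) {ω : F} (hω : σ ω ≠ ω)
    (e : τ (c + ω • c') = 0) : τ c = 0 ∧ τ c' = 0 :=
  inv_indep hω (by simp) (H.tr_skew hc) (H.tr_skew hc') (by simpa using e)

variable [Finite F] [FiniteDimensional F K] [FiniteDimensional K V] [FiniteDimensional F V]
  (hH : ∀ g ∈ SUG h, g.1.restrictScalars F ∈ M)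
include hH

theorem root (hM : ∀ g ∈ M, g ∈ UG B) (hr : 3 ≤ finrank F K) {u a : V} (hu : h u u = 0)
    (ha : h u a ≠ 0) {θ : F} (θ0 : θ ≠ 0) (θ1 : θ + σ θ = 0)
    (ht : ∀ c, c + σ' c = 0 → B a ((c * h u a) • u) = 0 →
      ∃ t ∈ M, ∀ z ∈ line F K u, t z = z + B a z • θ • (c * h u a) • u) :
    ∃ s, s ≠ 0 ∧ h s s = 0 ∧ UT H.hB (M.subgroupOf (UG B)) s ∧
      ∀ c, c + σ' c = 0 → c • s ∈ UA H.hB (M.subgroupOf (UG B)) s := by
  have hu0 := ne_zero_of_b ha
  have ν0 : h u a * h a u ≠ 0 := mul_ne_zero ha fun e => ha (H.hf.zero_symm e)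
  have ν1 : σ' (h u a * h a u) = h u a * h a u := by simp [H.hf.symm, mul_comm]
  have bb : ∀ c, B a ((c * h u a) • u) = τ (c * (h u a * h a u)) := fun c => by
    rw [H.eq, b_smul_right, mul_assoc]
  have D : ∀ c, c + σ' c = 0 → B a ((c * h u a) • u) = 0 → ∀ d, d + σ' d = 0 →
      R M (uS B (θ • (c * h u a) • u) ((d * h u a) • u) + B a ((d * h u a) • u) •
        (B (θ • (c * h u a) • u)).smulRight (θ • (c * h u a) • u)) := fun c c1 c2 d d1 => by
    obtain ⟨t, h1, h2⟩ := ht c c1 c2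
    obtain ⟨n, h3, -, h4⟩ := H.kz hH hu d1
    exact conj_herm H.hB (fun x hx y hy => H.isoB hu hx hy) (N := kt F (d • h u) u) ⟨n, h3, h4⟩
      (fun v => smul_mem_line _ _) (H.skN u d1) h1 (hM t h1)
      (Submodule.smul_mem _ _ (smul_mem_line _ _)) h2
  have key : ∀ c, c + σ' c = 0 → ∀ d, d + σ' d = 0 →
      R M (uS B (θ • (c * h u a) • u) ((d * h u a) • u)) := fun c c1 d d1 => by
    obtain ⟨ω, hω⟩ := H.hB.ne
    obtain ⟨κ, k0, k1, k2⟩ := H.exists_fix_ker hr ((c + ω • d) * (h u a * h a u))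
    have sk : ∀ c, c + σ' c = 0 → κ * c + σ' (κ * c) = 0 := fun c e => by
      rw [map_mul, k1, ← mul_add, e, mul_zero]
    have sk' : ∀ c, c + σ' c = 0 → κ * c * (h u a * h a u) + σ' (κ * c * (h u a * h a u)) = 0 :=
      fun c e => by rw [map_mul, ν1, ← add_mul, sk c e, zero_mul]
    obtain ⟨e1, e2⟩ := H.tr_indep (sk' c c1) (sk' d d1) hω (by
      rw [← k2]; congr 1; simp only [Algebra.smul_def]; ring)
    have := D _ (sk c c1) (by rwa [bb]) _ (sk d d1)
    rw [bb, e2, zero_smul, add_zero] at this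
    obtain ⟨f, f1, f0⟩ := H.hf.exists_hyp hu0 hu
    obtain ⟨g, hg, g1, -⟩ := H.hf.exists_tv_diag hu f0 f1 (b := κ⁻¹) (by simp [k1]) (by simpa)
    have g2 : ∀ c : K, g.1.restrictScalars F ((κ * c * h u a) • u) = (c * h u a) • u := fun c => by
      simp only [LinearEquiv.restrictScalars_apply, map_smul, g1, smul_smul]
      congr 1; field_simp
    have := uS_conj this (hH g (H.hf.eichGroup_le (H.hf.tvGroup_le hg))) (H.mem g)
    rwa [map_smul, g2, g2] at this
  obtain ⟨κ, k0, k1, k2⟩ := H.exists_fix_ker hr (h u a * h a u)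
  have k3 := H.skew_smul θ1 k1
  have hL : θ • (θ • κ * h u a) • u ∈ line F K u := Submodule.smul_mem _ _ (smul_mem_line _ _)
  have D' := D _ k3 (by rw [bb, smul_mul_assoc, map_smul, k2, smul_zero])
  have key' := key _ k3
  obtain ⟨l, l0, l1, hs⟩ : ∃ l : K, l ≠ 0 ∧ σ' l = l ∧
      θ • (θ • κ * h u a) • u = (l * h u a) • u :=
    ⟨θ • θ • κ, by simp [θ0, k0], by simp [H.smul, k1, eq_neg_of_add_eq_zero_right θ1], by simp⟩
  rw [hs] at hL D' key'
  have i1 : ∀ k : K, B ((l * h u a) • u) (k • u) = 0 := fun k => H.isoB hu hL (smul_mem_line _ _)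
  have i2 : ∀ k k' : K, B (k • u) (k' • u) = 0 := fun _ _ =>
    H.isoB hu (smul_mem_line _ _) (smul_mem_line _ _)
  refine ⟨(l * h u a) • u, by simp [l0, ha, hu0], by simp [hu], ⟨i1 _, fun e => ?_⟩,
    fun c hc => ⟨by rw [smul_smul, i1], 0, by simp [smul_smul, i2], ?_⟩⟩
  · by_cases he : e + σ e = 0
    swap
    · rw [H.hB.qr_of_not (by simpa [i1] using he)]; exact one_mem _
    obtain ⟨d, d1, d2⟩ := H.exists_skew_tr ν0 ν1 he
    refine ug_mem_of_R ((D' d d1).sub (key' d d1) (fun x => ?_) fun x => ?_) fun x => ?_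
    · simp [uS_apply, i2]
    · simp [uS_apply, i2]
    · rw [H.hB.tv_apply (i1 _) he, bb, d2]; simp [smul_smul]
  · refine ug_mem_of_R (key' (-(c * l)) (by rw [map_neg, map_mul, l1]; linear_combination -l * hc))
      fun x => ?_
    rw [H.hB.eich_apply (i1 _) (by rw [smul_smul, i1]) (by simp [smul_smul, i2]), uS_apply,
      smul_smul c, ← mul_assoc]
    simp only [neg_mul, neg_smul, b_neg_left]
    module

theorem hop {v w : V} (hv : UT H.hB (M.subgroupOf (UG B)) v) (v0 : h v v = 0) (w0 : h w w = 0)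
    (hw : h w v ≠ 0) {c : K} (hc : c + σ' c = 0) :
    UT H.hB (M.subgroupOf (UG B)) ((c * h w v) • w) := by
  by_cases c0 : c = 0
  · simpa [c0] using hv.smul 0
  have hw' : h v w ≠ 0 := fun e => hw (H.hf.zero_symm e)
  have hd : -(c * h w v * h v w)⁻¹ + σ' (-(c * h w v * h v w)⁻¹) = 0 := by
    simp only [map_neg, map_inv₀, map_mul, H.hf.symm, eq_neg_of_add_eq_zero_right hc]
    field_simp; ring
  convert (hv.map (g := ⟨_, H.mem _⟩) (hH _ (H.hf.tv_mem_SUG w0 c))).map (g := ⟨_, H.mem _⟩)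
    (hH _ (H.hf.tv_mem_SUG v0 (-(c * h w v * h v w)⁻¹))) using 1
  simp only [LinearEquiv.restrictScalars_apply, H.hf.tv_apply w0 hc, H.hf.tv_apply v0 hd, map_add,
    map_smul, v0, smul_eq_mul]
  match_scalars <;> field_simp
  ring

theorem gen (hr : 3 ≤ finrank F K) {u : V} (hu0 : u ≠ 0) (hu : h u u = 0)
    (h1 : UT H.hB (M.subgroupOf (UG B)) u)
    (h2 : ∀ c, c + σ' c = 0 → c • u ∈ UA H.hB (M.subgroupOf (UG B)) u) {β : K}
    (hβ : ∀ c : F, c ≠ 0 → σ' (c • β) ≠ c • β) (h3 : UT H.hB (M.subgroupOf (UG B)) (β • u)) :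
    SUG B ≤ M.subgroupOf (UG B) := by
  set M' := M.subgroupOf (UG B)
  have hB := H.hB
  obtain ⟨f, f1, f0⟩ := H.hf.exists_hyp hu0 hu
  have f2 := H.hf.one_symm f1
  obtain ⟨θ, θ0, θ1⟩ := hB.toInv.exists_skew
  have β0 : β ≠ 0 := by rintro rfl; exact hβ 1 one_ne_zero (by simp)
  have tf : ∀ c, c + σ' c = 0 → UT hB M' (c • f) := fun c hc => by
    simpa [f2] using H.hop hH h1 hu f0 (by simp [f2]) hc
  have tu : ∀ κ, σ' κ = κ → UT hB M' (κ • u) := fun κ e => by
    have := ((H.hop hH (tf _ (H.skew_smul θ1 (map_one σ'))) (by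
      rw [b_smul_right, b_smul_left, f0]; simp) hu (by simp [f1, θ0])
      (H.skew_smul θ1 e)).smul θ⁻¹).smul θ⁻¹
    simpa [f1, θ0] using this
  obtain ⟨κ, k0, k1, k2⟩ := H.exists_fix_ker hr β
  obtain ⟨z, z1, z2, z3⟩ : ∃ z, UT hB M' z ∧ B z u = 0 ∧
      ∀ c : K, B z (c • u) = τ (c * (κ * σ' β)) := by
    refine ⟨(κ * β) • f, by simpa [f2, θ0, smul_smul] using (H.hop hH h3 (by simp [hu]) f0
      (by simp [f2, β0]) (H.skew_smul θ1 k1)).smul θ⁻¹, hB.zero_symm (by simp [H.eq, f1, k2]),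
      fun c => by simp [H.eq, f2, k1]⟩
  have γ0 : κ * σ' β ≠ 0 := by simp [k0, β0]
  have z4 : z ∈ UE hB M' u := fun l => by
    have a1 : ∀ a κ', σ a = a → σ' κ' = κ' → (a * τ (κ' * (κ * σ' β))) • z ∈ UA hB M' u :=
      fun a κ' e e' => by
      have hs : a / θ + σ (a / θ) = 0 := by
        rw [map_div₀, e, eq_neg_of_add_eq_zero_right θ1]; field_simp; ring
      have := sub_mem (UA.map_fix (h2 _ (H.skew_smul θ1 e')) (z1.2 (a / θ))
        (hB.qr_apply_of_orth _ z2)) (h2 _ (H.skew_smul θ1 e'))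
      rwa [hB.tv_apply z1.1 hs, add_sub_cancel_left, z3, smul_mul_assoc, map_smul, smul_eq_mul,
        ← mul_assoc, div_mul_cancel₀ _ θ0] at this
    obtain ⟨κ₁, e1, e2⟩ := H.exists_fix γ0
    obtain ⟨κ₂, e3, e4⟩ : ∃ κ₂, σ' κ₂ = κ₂ ∧ σ (τ (κ₂ * (κ * σ' β)) / τ (κ₁ * (κ * σ' β))) ≠
        τ (κ₂ * (κ * σ' β)) / τ (κ₁ * (κ * σ' β)) := by
      by_contra e
      push Not at e
      generalize τ (κ₁ * (κ * σ' β)) = v at e e2
      refine hβ (σ v)⁻¹ (by simpa) (sub_eq_zero.1 (by_contra fun n => ?_))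
      obtain ⟨κ₃, e5, e6⟩ := H.exists_fix (mul_ne_zero k0 n)
      have := e κ₃ e5
      rw [map_div₀, ← H.tr] at this
      simp only [map_mul, e5, k1, H.hf.invol] at this
      simp only [H.smul, map_inv₀, hB.invol, mul_sub, mul_smul_comm, map_sub, map_smul,
        smul_eq_mul] at e6
      exact e6 (by linear_combination -this)
    obtain ⟨a, b, a2, b1, e⟩ := inv_dec hB.toInv e4 (l / τ (κ₁ * (κ * σ' β)))
    convert add_mem (a1 a κ₁ a2 e1) (a1 b κ₂ b1 e3) using 1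
    rw [← add_smul, (div_eq_iff e2).1 e, add_mul, mul_right_comm, div_mul_cancel₀ _ e2,
      mul_comm _ b]
  have L : ∀ k : K, k • u ∈ UE hB M' u := H.span_fix (P := (UE hB M' u).comap
    ((LinearMap.toSpanSingleton K V u).restrictScalars F)) fun κ' e => by
    have g : ∀ κ', σ' κ' = κ' → τ (κ' * (κ * σ' β)) ≠ 0 → κ' • u ∈ UE hB M' u := fun κ' e e' =>
      (tu κ' e).grow z4 (H.isoB hu (smul_mem_line _ _) (self_mem_line u))
        fun n => e' (z3 κ' ▸ hB.zero_symm n)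
    obtain ⟨κ₁, e1, e2⟩ := H.exists_fix γ0
    by_cases n : τ (κ' * (κ * σ' β)) = 0
    · simpa [add_smul] using sub_mem (g (κ' + κ₁) (by simp [e, e1]) (by simpa [add_mul, n]))
        (g κ₁ e1 e2)
    · exact g κ' e n
  have Lf : ∀ c, c + σ' c = 0 → τ c = 0 → c • f ∈ UE hB M' u := fun c e e' => by
    by_cases c0 : c = 0
    · simp [c0]
    obtain ⟨κ₁, -, e2⟩ := H.exists_fix (γ := σ' c) (by simpa)
    exact (tf c e).grow (L κ₁) (hB.zero_symm (by simp [H.eq, f1, e'])) (by simpa [H.eq, f2])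
  have Lf' : ∀ k, τ k = 0 → k • f ∈ UE hB M' u := fun k e => by
    obtain ⟨ω, hω⟩ := hB.ne
    obtain ⟨a, b, a1, b1, e'⟩ := inv_dec H.hf.toInv (H.om hω) (θ⁻¹ • k)
    obtain rfl : k = θ • a + ω • θ • b := by
      rw [smul_comm, ← smul_add, Algebra.smul_def ω, ← e', smul_inv_smul₀ θ0]
    obtain ⟨e1, e2⟩ := H.tr_indep (H.skew_smul θ1 a1) (H.skew_smul θ1 b1) hω e
    rw [add_smul, smul_assoc ω]
    exact add_mem (Lf _ (H.skew_smul θ1 a1) e1) (Submodule.smul_mem _ _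
      (Lf _ (H.skew_smul θ1 b1) e2))
  have W : ∀ w, h u w = 0 → w ∈ UE hB M' u := fun w e => by
    obtain ⟨c, c0, -, c2⟩ := H.exists_fix_ker hr 1
    obtain ⟨l, hl⟩ := H.hf.toInv.exists_trace (H.hf.fix (c⁻¹ • w))
    have := UE.map_fix (Lf' c (by simpa using c2)) (g := ⟨_, H.mem _⟩)
      (hH _ (H.hf.eich_mem_SUG u (c⁻¹ • w) l)) (H.hf.eich_apply_left _ _ _)
    simp only [LinearEquiv.restrictScalars_apply, H.hf.eich_apply hu (by simp [e]) hl] at this
    simpa [f1, c0] using (Submodule.sub_mem_iff_right _ (add_mem (Lf' c (by simpa using c2))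
      (L _))).1 this
  obtain ⟨c, c1, c2⟩ := H.exists_skew_tr one_ne_zero (map_one σ') θ1
  refine un_le_of_ut ?_ (x := u) ⟨h1.1, fun v hv => UE.ua ?_⟩ (tf c c1) fun e => θ0 ?_
  · rw [← Module.finrank_mul_finrank F K V]
    have : Nontrivial V := ⟨⟨u, 0, hu0⟩⟩
    exact hr.trans (Nat.le_mul_of_pos_right _ finrank_pos)
  · simpa using add_mem (W (v - h u v • f) (by simp [f1])) (Lf' _ ((H.eq _ _).symm.trans hv))
  · simpa [H.eq, f1, ← c2] using hB.zero_symm e

omit hH in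
theorem not_fix (hr : (finrank F K).Prime) (h3 : 3 ≤ finrank F K) {β : K} (h1 : σ' β * β = 1)
    (h2 : ∀ c, algebraMap F K c ≠ β) (c : F) (hc : c ≠ 0) : σ' (c • β) ≠ c • β := fun e => by
  have e' : β * β = (σ c / c) • 1 := by
    rw [div_eq_inv_mul, mul_smul, ← h1, ← smul_mul_assoc, ← H.smul, e]; simp [hc]
  obtain ⟨y, -, hy⟩ := exists_not_mem_of_finrank_lt (W := Submodule.span F {1, β}) (U := ⊤)
    (by have := Max.finrank_span_pair_le (F := F) 1 β; rw [finrank_top]; omega)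
  obtain ⟨d, hd⟩ := mem_range_of_stab hr (u := (1 : K)) (k := β)
    (fun x _ => mem_line.2 ⟨x, mul_one x⟩) (Submodule.subset_span (by simp)) one_ne_zero
    (mem_line.2 ⟨y, mul_one y⟩) hy fun s hs => by
      obtain ⟨a, b, rfl⟩ := Submodule.mem_span_pair.1 hs
      exact Submodule.mem_span_pair.2 ⟨b * (σ c / c), a, by
        simp [mul_add, e', mul_smul, add_comm]⟩
  exact h2 d hd

omit hH in
theorem exists_norm_one {G : Type*} [Group G] [Finite G] (φ : normOne σ' →* G) {q : ℕ}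
    (hF : Nat.card F = q ^ 2) (hG : (q + 1) * Nat.card G ≤ q ^ finrank F K) :
    ∃ β, φ β = 1 ∧ ∀ c, algebraMap F K c ≠ β.1 := by
  have : Finite K := Module.finite_of_finite F
  by_contra e
  push Not at e
  choose c hc using fun β : φ.ker => e β β.2
  have h1 := Nat.card_le_card_of_injective (fun β : φ.ker => (⟨Units.mk0 (c β) fun e => by
      simpa [e] using (hc β).symm, (algebraMap F K).injective (by
      simpa [← H.alg, hc] using mem_normOne.1 β.1.2)⟩ : normOne σ)) fun β β' e => Subtype.ext (Subtype.ext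
      (Units.ext (by rw [← hc, ← hc β', show c β = c β' from congrArg (·.1.1) e])))
  have h2 := φ.ker.card_mul_index
  have h3 := Nat.le_of_dvd Nat.card_pos φ.range.card_subgroup_dvd_card
  rw [Subgroup.index_ker, H.hf.toInv.card_normOne (q := q ^ finrank F K) (by
    rw [Module.natCard_eq_pow_finrank (K := F), hF, ← pow_mul, ← pow_mul, mul_comm])] at h2
  rw [H.hB.toInv.card_normOne hF] at h1
  have := Nat.mul_le_mul h1 h3
  omega

omit hH in
/-- The norm on the elements of norm one. -/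
noncomputable def nrm : normOne σ' →* normOne σ :=
  ((Units.map (Algebra.norm F)).comp (normOne σ').subtype).codRestrict _ fun β => by
    have := Algebra.norm_eq_of_equiv_equiv (RingEquiv.ofBijective σ ⟨σ.injective, H.hB.surj⟩)
      (RingEquiv.ofBijective σ' ⟨σ'.injective, H.hf.surj⟩) (RingHom.ext fun c => (H.alg c).symm) β.1
    rw [RingEquiv.eq_symm_apply] at this
    change σ (Algebra.norm F β.1.1) * Algebra.norm F β.1.1 = 1
    rw [show σ (Algebra.norm F β.1.1) = _ from this, ← map_mul]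
    exact (congrArg _ β.2).trans (map_one _)

omit hH in
theorem main [Module F₀ V] [IsScalarTower F₀ F V]
    (hH : ∀ g ∈ UG B, LinearEquiv.det g = 1 → Semi K g → g ∈ M) (hM : ∀ g ∈ M, g ∈ UG B)
    (hr : (finrank F K).Prime) (h3 : 3 ≤ finrank F K) (hn : 2 ≤ finrank K V) {q : ℕ}
    (hF : Nat.card F = q ^ 2) (hex : q = 2 → finrank F K = 3 → 3 ≤ finrank K V)
    {g : V ≃ₗ[F] V} (hg : g ∈ M) (hgH : ¬ Semi K g) : SUG B ≤ M.subgroupOf (UG B) := by
  have k : ∀ g : UG h, Algebra.norm F (detU h g : K) = 1 → g.1.restrictScalars F ∈ M :=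
    fun g e => hH _ (H.mem g) (det_restrict _ (detU_apply g ▸ e)) (semi_restrict _)
  have k' : ∀ g ∈ SUG h, g.1.restrictScalars F ∈ M := fun g e => k g (by
    rw [mem_SUG.1 e, map_one])
  obtain ⟨u, m, -, hu, hp⟩ := H.exists_pair k' hM hn hg hgH
  obtain ⟨θ, θ0, θ1⟩ := H.hB.toInv.exists_skew
  obtain ⟨a, a1, a2⟩ := H.local_data k' hM hr hu hp θ0 θ1
  obtain ⟨s, s0, s1, s2, s3⟩ := H.root k' hM h3 hu a1 θ0 θ1 a2
  have hq := two_le_of_card hF
  have p3 := Nat.pow_le_pow_right (n := q) (by omega) h3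
  by_cases hk : 3 ≤ finrank K V
  · obtain ⟨β, -, e⟩ := H.exists_norm_one (1 : _ →* Unit) hF (by simp; nlinarith)
    obtain ⟨t, ht, e'⟩ := H.hf.SUG_trans_iso hk s0 (smul_ne_zero β.1.ne_zero s0) s1 (by simp [s1])
    exact H.gen k' h3 s0 s1 s2 s3 (H.not_fix hr h3 β.2 e)
      (e' ▸ s2.map (g := ⟨_, H.mem t⟩) (k' t ht))
  obtain ⟨β, b, e⟩ := H.exists_norm_one H.nrm hF (by
    rw [H.hB.toInv.card_normOne hF]
    by_cases h2 : q = 2
    · have := Nat.pow_le_pow_right (n := q) (by omega)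
        (show 4 ≤ finrank F K from by_contra fun e => hk (hex h2 (by omega)))
      subst h2; omega
    · have : 3 ≤ q := by omega
      nlinarith)
  refine H.gen k' h3 s0 s1 s2 s3 (H.not_fix hr h3 β.2 e)
    (s2.map (g := ⟨_, H.mem (scal h β)⟩) (k _ ?_))
  rw [detU_scal, Units.val_pow_eq_pow_val, map_pow, show Algebra.norm F β.1.1 = 1 from
    congrArg (·.1.1) b, one_pow]

omit hH in
theorem not_semi (hr : 2 ≤ finrank F K) (hn : 2 ≤ finrank K V) :
    ∃ g ∈ SUG B, ¬ Semi K g.1 := by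
  have : Finite K := Module.finite_of_finite F
  obtain ⟨u, f, hu, -, f1⟩ := H.hf.exists_hyp_pair hn
  obtain ⟨θ, θ0, θ1⟩ := H.hB.toInv.exists_skew
  have hu0 : u ≠ 0 := ne_zero_of_b (f1 ▸ one_ne_zero)
  have h0 : B u u = 0 := by simp [H.eq, hu]
  refine ⟨_, H.hB.tv_mem_SUG h0 θ, fun e => ?_⟩
  have key : ∀ k : K, τ k • u = k • τ 1 • u := fun k => by
    obtain ⟨k', hk⟩ := e k
    have h1 := hk u
    have h2 := hk f
    simp only [H.hB.tv_apply h0 θ1, H.eq, map_smul, hu, f1, smul_eq_mul, mul_zero, map_zero,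
      zero_smul, add_zero, mul_one] at h1 h2
    rw [← smul_left_injective K hu0 h1, smul_add, add_right_inj, mul_smul, mul_smul,
      smul_comm k] at h2
    exact smul_right_injective V θ0 h2
  obtain ⟨k, hk⟩ := exists_not_mem_range (F := F) (K := K) hr
  by_cases h1 : τ 1 = 0
  · exact H.ne (LinearMap.ext fun k => by simpa [h1, hu0] using key k)
  · refine hk (τ k / τ 1) (smul_left_injective K hu0 ?_)
    simp only [algebraMap_smul]
    rw [div_eq_inv_mul, mul_smul, key, smul_comm k, inv_smul_smul₀ h1]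

end SUx

omit [Algebra F₀ K] [IsScalarTower F₀ F K] in
theorem exists_sUx [FiniteDimensional F K] [FiniteDimensional K V] [Nontrivial V]
    {B : V →ₛₗ[σ] V →ₗ[F] F} (hB : HF B) (h0 : IsFix F₀ σ)
    (h1 : ∀ k : K, ∃ k' : K, ∀ x y, B (k' • x) y = B x (k • y)) :
    ∃ (σ' : K →+* K) (h : V →ₛₗ[σ'] V →ₗ[K] K) (τ : Dual F K), SUx F₀ B h τ := by
  choose s hs using h1
  obtain ⟨v, hv⟩ := exists_ne (0 : V)
  have u : ∀ {a b : K}, (∀ x y, B (a • x) y = B (b • x) y) → a = b := fun {a b} e =>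
    smul_left_injective K hv (sub_eq_zero.1 (hB.nd _ fun x => by rw [b_sub_left, e, sub_self]))
  let σ' : K →+* K :=
    { toFun := s
      map_one' := u fun x y => by rw [hs, one_smul, one_smul]
      map_mul' := fun a b => u fun x y => by rw [hs, mul_smul (s a), hs, hs, smul_smul, mul_comm]
      map_zero' := u fun x y => by rw [hs]; simp
      map_add' := fun a b => u fun x y => by rw [hs, add_smul, add_smul]; simp [hs] }
  have hσ : ∀ k x y, B (σ' k • x) y = B x (k • y) := hs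
  have hi : ∀ a, σ' (σ' a) = a := fun a => u fun x y => by rw [hσ, ← hB.symm, hσ, hB.symm]
  have ha : ∀ c : F, σ' (algebraMap F K c) = algebraMap F K (σ c) := fun c => u fun x y => by
    rw [hσ]; simp [hB.invol]
  obtain ⟨ω, hω⟩ := hB.ne
  obtain ⟨τ₀, h2⟩ := exists_dual_one (F := F) (one_ne_zero (α := K))
  obtain ⟨c, hc⟩ := hB.toInv.exists_trace_one
  let τ : Dual F K :=
    { toFun := fun k => c * τ₀ k + σ (c * τ₀ (σ' k))
      map_add' := fun a b => by simp only [map_add, mul_add]; ring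
      map_smul' := fun a k => by
        have : σ' (a • k) = σ a • σ' k := by simp [Algebra.smul_def, ha]
        simp only [this, map_smul, smul_eq_mul, map_mul, hB.invol, RingHom.id_apply]; ring }
  have h3 : ∀ k, τ (σ' k) = σ (τ k) := fun k => by simp [τ, hi, hB.invol, add_comm]
  have h4 : τ ≠ 0 := fun e => by simpa [τ, h2, hc] using LinearMap.congr_fun e 1
  choose φ hφ using fun x => exists_dual_comp (V := V) h4 (B x)
  have w : ∀ {ψ ψ' : Dual K V}, (∀ y, τ (ψ y) = τ (ψ' y)) → ψ = ψ' := fun h =>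
    LinearMap.ext fun y => eq_of_tr h4 fun k => by simpa using h (k • y)
  refine ⟨σ', ⟨⟨φ, fun x y => w fun z => by simp [← hφ]⟩, fun k x => w fun z => ?_⟩, τ, h0, hB,
    ⟨⟨hi, algebraMap F K ω, by rwa [ha, Ne, (algebraMap F K).injective.eq_iff]⟩,
      fun x y => eq_of_tr h4 fun k => ?_, fun x e => hB.nd x fun y => ?_⟩, hφ, h4, h3, ha⟩
  · rw [← hφ, ← hi k, hσ, hφ, hi]; simp
  · change τ (k * σ' (φ x y)) = τ (k * φ y x)
    rw [← smul_eq_mul k (φ y x), ← map_smul, ← hφ, ← hB.symm, ← hi k, hσ, hφ, ← h3, hi]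
    simp [hi]
  · rw [hφ, show φ x y = 0 from e y, map_zero]

open Geo Asch Matrix in
theorem max_su_ext [Finite F] {q : ℕ} (hF : Nat.card F = q ^ 2) {n r : ℕ} (hr : r.Prime)
    (h3 : 3 ≤ r) (hn : r < n) (hex : q = 2 → r = 3 → n ≠ 6)
    {K : Subalgebra F (Matrix (Fin n) (Fin n) F)} (hK : IsFieldSubalgebra r K)
    (hac : IsAdjointClosedFor (hermForm n F q) K) :
    IsMaximalIn (GU n F q ⊓ specialLinear (Fin n) F)
      (subalgebraNormalizer K ⊓ (GU n F q ⊓ specialLinear (Fin n) F)) := by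
  have : Nonempty (Fin n) := ⟨⟨0, by omega⟩⟩
  let := (isField_of hK.comm hK.inv).toField
  have : FiniteDimensional K (Fin n → F) := Module.Finite.of_restrictScalars_finite F K _
  obtain ⟨σ', h, τ, H⟩ := exists_sUx (F₀ := fixF (frob hF)) (K := K) (hf_sB hF n)
    ⟨inv_frob hF, fun x => ⟨fun e => ⟨⟨x, e⟩, rfl⟩, by rintro ⟨c, rfl⟩; exact c.2⟩⟩ fun k => by
      obtain ⟨k', h1, h2⟩ := hac k.1 k.2
      exact ⟨⟨k', h1⟩, fun x y => by rw [← hermForm_eq, ← hermForm_eq]; exact (h2 y x).symm⟩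
  have e := Module.finrank_mul_finrank F K (Fin n → F)
  have h2 := two_le_finrank hK (by simpa)
  rw [← hK.finrank_eq] at hr h3 hex
  refine isMaximalIn_SU hF (Semi K) mem_normalizer_iff (H.not_semi (by omega) h2)
    fun M h1 hM ⟨g, hg, h4⟩ k hk => ?_
  obtain ⟨k', h5, h6⟩ := H.main (M := M.map (UG _).subtype)
    (fun g a b c => ⟨⟨g, a⟩, h1 _ b c, rfl⟩) (by rintro _ ⟨g, -, rfl⟩; exact g.2) hr h3 h2 hF
    (fun a b => by have := hex a b; simp [b] at e; omega) ⟨g, hg, rfl⟩ h4 hk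
  exact Subtype.ext h6 ▸ h5

end Cfsg.Agent.Max2
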